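import Mathlib
import Cfsg.Prelude.Def_JordanBlocks
import Cfsg.Agent.Lib.Classical.Witt.Parity

/-!
# Jordan types and invariant bilinear forms: the necessary condition

`J = jordanTypeMatrix d F` acts on `I → F`, `I = Σ k, Fin (d k)`, as `1 + N` with `N` the coordinate shift.
If a nondegenerate reflexive form `B` is `J`-invariant, then on the blocks of size `j`, the form
`(x, y) ↦ B x (N^(j-1) y)` induces a nondegenerate form; when it is alternating, the number of blocks of
size `j` is even.
-/

set_option autoImplicit false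
set_option linter.unusedSectionVars false
set_option linter.unusedSimpArgs false
set_option linter.unusedVariables false

namespace Cfsg.Agent.Lib.Classical.Lin.JT1

open Matrix Module

variable {F : Type*} [Field F] {t : ℕ} {d : Fin t → ℕ}

/-- The index type. -/
abbrev Ix (d : Fin t → ℕ) := (k : Fin t) × Fin (d k)

/-- The shift as a linear map. -/
def nL (F : Type*) [Field F] (d : Fin t → ℕ) : (Ix d → F) →ₗ[F] (Ix d → F) where
  toFun x := fun a => if h : 0 < (a.2 : ℕ) then x ⟨a.1, ⟨a.2 - 1, by have := a.2.2; omega⟩⟩ else 0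
  map_add' x y := by
    funext a
    by_cases h : 0 < (a.2 : ℕ) <;> simp [h]
  map_smul' c x := by
    funext a
    by_cases h : 0 < (a.2 : ℕ) <;> simp [h]

theorem nL_apply (x : Ix d → F) (a : Ix d) :
    nL F d x a = if h : 0 < (a.2 : ℕ) then x ⟨a.1, ⟨a.2 - 1, by have := a.2.2; omega⟩⟩ else 0 := rfl

theorem nL_pow_apply (n : ℕ) (x : Ix d → F) (a : Ix d) :
    ((nL F d) ^ n) x a = if h : n ≤ (a.2 : ℕ) then x ⟨a.1, ⟨a.2 - n, by have := a.2.2; omega⟩⟩ else 0 := by
  induction n generalizing x with
  | zero => simp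
  | succ n ih =>
    rw [pow_succ, Module.End.mul_apply, ih]
    by_cases h : n ≤ (a.2 : ℕ)
    · rw [dif_pos h, nL_apply]
      by_cases h2 : n + 1 ≤ (a.2 : ℕ)
      · rw [dif_pos (by show 0 < (a.2 : ℕ) - n; omega), dif_pos h2]
        have e : (a.2 : ℕ) - n - 1 = (a.2 : ℕ) - (n + 1) := by omega
        simp only [e]
      · rw [dif_neg (by show ¬ 0 < (a.2 : ℕ) - n; omega), dif_neg h2]
    · rw [dif_neg h, dif_neg (by omega)]

/-- `J` as `1 + N`. -/
theorem jordan_mulVec (x : Ix d → F) : Cfsg.jordanTypeMatrix d F *ᵥ x = x + nL F d x := by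
  classical
  funext ⟨k, i⟩
  rw [Pi.add_apply, nL_apply]
  simp only [mulVec, dotProduct, Cfsg.jordanTypeMatrix]
  rw [Fintype.sum_sigma, Finset.sum_eq_single k]
  · simp only [Matrix.blockDiagonal'_apply, dif_pos, Cfsg.jordanBlock, Matrix.of_apply]
    have h1 : ∀ j : Fin (d k), ((if (i : ℕ) = j then (1 : F) else if (i : ℕ) = (j : ℕ) + 1 then 1 else 0) * x ⟨k, j⟩)
        = (if j = i then x ⟨k, j⟩ else 0) + (if (j : ℕ) + 1 = i then x ⟨k, j⟩ else 0) := by
      intro j
      by_cases h : j = i
      · subst h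
        simp
      · have h' : (i : ℕ) ≠ j := fun e => h (Fin.ext e.symm)
        by_cases h2 : (j : ℕ) + 1 = i
        · simp [h, h', h2]
        · have h3 : (i : ℕ) ≠ (j : ℕ) + 1 := fun e => h2 e.symm
          simp [h, h', h3, h2]
    simp only [cast_eq, h1] at *
    rw [Finset.sum_add_distrib, Finset.sum_ite_eq' Finset.univ i]
    simp only [Finset.mem_univ, if_true]
    congr 1
    by_cases hi : 0 < (i : ℕ)
    · rw [dif_pos hi, Finset.sum_eq_single (⟨i - 1, by have := i.2; omega⟩ : Fin (d k))]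
      · rw [if_pos (by show (i : ℕ) - 1 + 1 = i; omega)]
      · intro j _ hj
        rw [if_neg]
        intro e
        apply hj
        apply Fin.ext
        show (j : ℕ) = i - 1
        omega
      · intro h
        exact absurd (Finset.mem_univ _) h
    · rw [dif_neg hi]
      apply Finset.sum_eq_zero
      intro j _
      rw [if_neg]
      omega
  · intro l _ hl
    apply Finset.sum_eq_zero
    intro j _
    simp [Matrix.blockDiagonal'_apply, hl.symm]
  · intro h
    exact absurd (Finset.mem_univ _) h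

/-- `J` as a linear map. -/
def jL (F : Type*) [Field F] (d : Fin t → ℕ) : (Ix d → F) →ₗ[F] (Ix d → F) := 1 + nL F d

theorem jL_apply (x : Ix d → F) : jL F d x = x + nL F d x := rfl

theorem jordan_mulVec' (x : Ix d → F) : Cfsg.jordanTypeMatrix d F *ᵥ x = jL F d x := jordan_mulVec x

theorem comm_nj : Commute (nL F d) (jL F d) := by
  show nL F d * (1 + nL F d) = (1 + nL F d) * nL F d
  noncomm_ring

section Forms

variable (B : LinearMap.BilinForm F (Ix d → F)) (hJ : ∀ x y, B (jL F d x) (jL F d y) = B x y)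
include hJ

theorem K1 (z w : Ix d → F) : B z (nL F d w) = - B (nL F d z) (jL F d w) := by
  have h := hJ z w
  simp only [jL_apply, map_add, LinearMap.add_apply] at h ⊢
  linear_combination h

theorem K2 (z w : Ix d → F) : B (nL F d z) w = - B (jL F d z) (nL F d w) := by
  have h := hJ z w
  simp only [jL_apply, map_add, LinearMap.add_apply] at h ⊢
  linear_combination h

omit hJ in
theorem comm_pow_apply (n : ℕ) (w : Ix d → F) : ((jL F d) ^ n) (nL F d w) = nL F d (((jL F d) ^ n) w) := by
  have := ((comm_nj (F := F) (d := d)).pow_right n).eq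
  have h2 := congrArg (fun f => f w) this
  exact h2.symm

omit hJ in
theorem pow_succ_apply' (T : (Ix d → F) →ₗ[F] (Ix d → F)) (n : ℕ) (x : Ix d → F) :
    (T ^ (n + 1)) x = T ((T ^ n) x) := by
  rw [pow_succ', Module.End.mul_apply]

omit hJ in
theorem pow_succ_apply (T : (Ix d → F) →ₗ[F] (Ix d → F)) (n : ℕ) (x : Ix d → F) :
    (T ^ (n + 1)) x = (T ^ n) (T x) := by
  rw [pow_succ, Module.End.mul_apply]

theorem K1n (n : ℕ) (z w : Ix d → F) :
    B z (((nL F d) ^ n) w) = (-1) ^ n * B (((nL F d) ^ n) z) (((jL F d) ^ n) w) := by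
  induction n generalizing z w with
  | zero => simp
  | succ n ih =>
    rw [pow_succ_apply, ih, comm_pow_apply, K1 B hJ, pow_succ_apply', pow_succ_apply']
    ring

theorem K2n (n : ℕ) (z w : Ix d → F) :
    B (((nL F d) ^ n) z) w = (-1) ^ n * B (((jL F d) ^ n) z) (((nL F d) ^ n) w) := by
  induction n generalizing z w with
  | zero => simp
  | succ n ih =>
    rw [pow_succ_apply, ih, comm_pow_apply, K2 B hJ, pow_succ_apply', pow_succ_apply']
    ring

/-- Iterated invariance. -/
theorem inv_pow (n : ℕ) (x y : Ix d → F) : B (((jL F d) ^ n) x) (((jL F d) ^ n) y) = B x y := by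
  induction n generalizing x y with
  | zero => simp
  | succ n ih =>
    rw [pow_succ, Module.End.mul_apply, Module.End.mul_apply, ih, hJ]

omit hJ in
/-- A vector killed by `N` is fixed by powers of `J`. -/
theorem jL_pow_fixed {f : Ix d → F} (hf : nL F d f = 0) (n : ℕ) : ((jL F d) ^ n) f = f := by
  induction n with
  | zero => simp
  | succ n ih =>
    rw [pow_succ, Module.End.mul_apply, jL_apply, hf, add_zero, ih]

theorem pair_fixed {f : Ix d → F} (hf : nL F d f = 0) (n : ℕ) (x : Ix d → F) :
    B (((jL F d) ^ n) x) f = B x f := by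
  conv_lhs => rw [← jL_pow_fixed hf n]
  exact inv_pow B hJ n x f

/-- `(**)`. -/
theorem star {j : ℕ} (hj : 1 ≤ j) {x : Ix d → F} (hx : ((nL F d) ^ j) x = 0) (y : Ix d → F) :
    B (((nL F d) ^ (j - 1)) y) x = (-1) ^ (j - 1) * B y (((nL F d) ^ (j - 1)) x) := by
  rw [K2n B hJ]
  congr 1
  apply pair_fixed B hJ
  rw [← pow_succ_apply']
  rwa [show j - 1 + 1 = j by omega]

/-- The alternating identity. -/
theorem alt_id {c : ℕ} {x : Ix d → F} (hx : ((nL F d) ^ (2 * c + 1)) x = 0) :
    B (((nL F d) ^ c) x) (((nL F d) ^ c) x) = (-1) ^ c * B x (((nL F d) ^ (2 * c)) x) := by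
  rw [K2n B hJ, ← Module.End.mul_apply ((nL F d) ^ c), ← pow_add, show c + c = 2 * c by ring]
  congr 1
  apply pair_fixed B hJ
  rw [← pow_succ_apply']
  exact hx

/-- The image of `N^j` is orthogonal to the kernel. -/
theorem im_orth (j : ℕ) {w : Ix d → F} (hw : ((nL F d) ^ j) w = 0) (y : Ix d → F) :
    B w (((nL F d) ^ j) y) = 0 := by
  rw [K1n B hJ, hw]
  simp

end Forms

section Main

/-- Blocks of size `j`. -/
abbrev Kj (d : Fin t → ℕ) (j : ℕ) := {k : Fin t // d k = j}

/-- The generators of the blocks of size `j`. -/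
def topL (F : Type*) [Field F] (d : Fin t → ℕ) (j : ℕ) : (Kj d j → F) →ₗ[F] (Ix d → F) where
  toFun c := fun a => if h : d a.1 = j ∧ (a.2 : ℕ) = 0 then c ⟨a.1, h.1⟩ else 0
  map_add' x y := by
    funext a
    by_cases h : d a.1 = j ∧ (a.2 : ℕ) = 0 <;> simp [h]
  map_smul' c x := by
    funext a
    by_cases h : d a.1 = j ∧ (a.2 : ℕ) = 0 <;> simp [h]

theorem topL_apply (j : ℕ) (c : Kj d j → F) (a : Ix d) :
    topL F d j c a = if h : d a.1 = j ∧ (a.2 : ℕ) = 0 then c ⟨a.1, h.1⟩ else 0 := rfl

theorem top_kill (j : ℕ) (c : Kj d j → F) : ((nL F d) ^ j) (topL F d j c) = 0 := by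
  funext a
  rw [nL_pow_apply]
  by_cases h : j ≤ (a.2 : ℕ)
  · rw [dif_pos h, topL_apply, dif_neg]
    · rfl
    · rintro ⟨h1, -⟩
      have := a.2.2
      simp only at h1
      omega
  · rw [dif_neg h]
    rfl

theorem bot_apply {j : ℕ} (hj : 1 ≤ j) (c : Kj d j → F) (k : Kj d j) :
    ((nL F d) ^ (j - 1)) (topL F d j c) ⟨k.1, ⟨j - 1, by have := k.2; omega⟩⟩ = c k := by
  rw [nL_pow_apply, dif_pos (le_refl _), topL_apply, dif_pos]
  · exact ⟨k.2, by show j - 1 - (j - 1) = 0; omega⟩

variable [DecidableEq (Ix d)]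

/-- A standard basis vector shifted. -/
theorem nL_single {m : Fin t} {i : ℕ} (h : i + 1 < d m) :
    nL F d (Pi.single (⟨m, ⟨i, by omega⟩⟩ : Ix d) 1) = Pi.single (⟨m, ⟨i + 1, h⟩⟩ : Ix d) 1 := by
  funext ⟨l, b⟩
  rw [nL_apply]
  simp only
  by_cases hb : 0 < (b : ℕ)
  · rw [dif_pos hb]
    by_cases hl : l = m
    · subst hl
      by_cases hbi : (b : ℕ) = i + 1
      · obtain rfl : b = ⟨i + 1, h⟩ := Fin.ext hbi
        simp
      · have e1 : (⟨(b : ℕ) - 1, by have := b.2; omega⟩ : Fin (d l)) ≠ ⟨i, by omega⟩ := by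
          intro e
          have := congrArg Fin.val e
          simp only at this
          omega
        have e2 : b ≠ ⟨i + 1, h⟩ := fun e => hbi (by rw [e])
        rw [Pi.single_eq_of_ne, Pi.single_eq_of_ne]
        · intro e
          exact e2 (by simpa using e)
        · intro e
          exact e1 (by simpa using e)
    · rw [Pi.single_eq_of_ne, Pi.single_eq_of_ne]
      · intro e
        exact hl (congrArg Sigma.fst e)
      · intro e
        exact hl (congrArg Sigma.fst e)
  · rw [dif_neg hb, Pi.single_eq_of_ne]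
    intro e
    have h0 := congrArg Sigma.fst e
    simp only at h0
    subst h0
    have h1 : b = ⟨i + 1, h⟩ := by simpa using e
    rw [h1] at hb
    simp at hb

section Core

variable (B : LinearMap.BilinForm F (Ix d → F)) (hnd : B.Nondegenerate)
  (hJ : ∀ x y, B (jL F d x) (jL F d y) = B x y)
include hJ

/-- The image of `N^j` is the orthogonal of the kernel. -/
theorem mem_range_of_orth (j : ℕ) (hnd : B.Nondegenerate) {z : Ix d → F}
    (hz : ∀ w, ((nL F d) ^ j) w = 0 → B w z = 0) : ∃ v, ((nL F d) ^ j) v = z := by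
  set T := (nL F d) ^ j with hT
  have hle : LinearMap.range T ≤ B.orthogonal (LinearMap.ker T) := by
    rintro _ ⟨y, rfl⟩
    rw [LinearMap.BilinForm.mem_orthogonal_iff]
    intro w hw
    exact im_orth B hJ j hw y
  have h1 := LinearMap.BilinForm.finrank_orthogonal hnd (LinearMap.ker T)
  have h2 := LinearMap.finrank_range_add_finrank_ker T
  have heq : LinearMap.range T = B.orthogonal (LinearMap.ker T) := by
    apply Submodule.eq_of_le_of_finrank_eq hle
    rw [h1]
    omega
  have hzm : z ∈ B.orthogonal (LinearMap.ker T) := by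
    rw [LinearMap.BilinForm.mem_orthogonal_iff]
    intro w hw
    exact hz w hw
  rw [← heq] at hzm
  exact hzm

/-- Right separation of the form on the blocks of size `j`. -/
theorem sep_core {j : ℕ} (hj : 1 ≤ j) (hnd : B.Nondegenerate) (μ : Kj d j → F)
    (hC : ∀ c : Kj d j → F, B (topL F d j c) (((nL F d) ^ (j - 1)) (topL F d j μ)) = 0) : μ = 0 := by
  classical
  set z := ((nL F d) ^ (j - 1)) (topL F d j μ) with hzdef
  have hNz : nL F d z = 0 := by
    rw [hzdef, ← pow_succ_apply', show j - 1 + 1 = j by omega]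
    exact top_kill j μ
  have hsingle : ∀ a : Ix d, ∀ w : Ix d → F, ((nL F d) ^ j) w = 0 → w a * B (Pi.single a 1) z = 0 := by
    rintro ⟨m, ⟨i, hi⟩⟩ w hw
    rcases Nat.eq_zero_or_pos i with rfl | hipos
    · rcases lt_trichotomy (d m) j with hlt | heq | hgt
      · have h0 : ((nL F d) ^ (j - 1)) (Pi.single (⟨m, ⟨0, hi⟩⟩ : Ix d) (1 : F)) = 0 := by
          funext ⟨l, b⟩
          rw [nL_pow_apply]
          by_cases hb : j - 1 ≤ (b : ℕ)
          · rw [dif_pos hb, Pi.single_eq_of_ne]
            · rfl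
            · intro e
              have h0 := congrArg Sigma.fst e
              simp only at h0
              subst h0
              have h1 := b.2
              omega
          · rw [dif_neg hb]
            rfl
        rw [hzdef, K1n B hJ, h0]
        simp
      · have : (Pi.single (⟨m, ⟨0, hi⟩⟩ : Ix d) (1 : F)) = topL F d j (Pi.single ⟨m, heq⟩ 1) := by
          funext ⟨l, b⟩
          rw [topL_apply]
          by_cases hl : l = m
          · subst hl
            by_cases hb : (b : ℕ) = 0
            · have e : b = ⟨0, hi⟩ := Fin.ext hb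
              subst e
              simp [heq]
            · rw [dif_neg (by simp [hb]), Pi.single_eq_of_ne]
              intro e
              apply hb
              have : b = ⟨0, hi⟩ := by simpa using e
              rw [this]
          · rw [Pi.single_eq_of_ne (by intro e; exact hl (congrArg Sigma.fst e))]
            by_cases h1 : d l = j ∧ (b : ℕ) = 0
            · rw [dif_pos h1, Pi.single_eq_of_ne]
              intro e
              exact hl (congrArg Subtype.val e)
            · rw [dif_neg h1]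
        rw [this, hC]
        simp
      · have h0 := congrFun hw ⟨m, ⟨j, hgt⟩⟩
        rw [nL_pow_apply, dif_pos (le_refl _)] at h0
        have e : (⟨m, ⟨j - j, by omega⟩⟩ : Ix d) = ⟨m, ⟨0, hi⟩⟩ := by
          simp
        rw [e] at h0
        rw [show w ⟨m, ⟨0, hi⟩⟩ = 0 from h0]
        simp
    · obtain ⟨i', rfl⟩ : ∃ i', i = i' + 1 := ⟨i - 1, by omega⟩
      rw [← nL_single hi, K2 B hJ, hNz]
      simp
  have hz : ∀ w, ((nL F d) ^ j) w = 0 → B w z = 0 := by
    intro w hw
    have hexp : w = ∑ a, w a • Pi.single a (1 : F) := by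
      funext b
      simp [Finset.sum_apply, Pi.single_apply]
    rw [hexp, map_sum, LinearMap.sum_apply]
    apply Finset.sum_eq_zero
    intro a _
    rw [map_smul, LinearMap.smul_apply, smul_eq_mul]
    exact hsingle a w hw
  obtain ⟨v, hv⟩ := mem_range_of_orth B hJ j hnd hz
  funext k
  rw [← bot_apply hj μ k, ← hzdef, ← hv, nL_pow_apply, dif_neg]
  · rfl
  · show ¬ j ≤ j - 1
    omega

/-- **The parity theorem**: if `(x, y) ↦ B x (N^(j-1) y)` is alternating on `ker N^j`, the number of
blocks of size `j` is even. -/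
theorem even_card_of_alt {j : ℕ} (hj : 1 ≤ j) (hnd : B.Nondegenerate)
    (halt : ∀ x, ((nL F d) ^ j) x = 0 → B x (((nL F d) ^ (j - 1)) x) = 0) :
    Even (Fintype.card (Kj d j)) := by
  classical
  let C : LinearMap.BilinForm F (Kj d j → F) :=
    LinearMap.BilinForm.comp B (topL F d j) (((nL F d) ^ (j - 1)).comp (topL F d j))
  have hCapp : ∀ x y, C x y = B (topL F d j x) (((nL F d) ^ (j - 1)) (topL F d j y)) := fun x y => rfl
  have hA : C.IsAlt := by
    intro x
    rw [hCapp]
    exact halt _ (top_kill j x)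
  have hs : ∀ x, (∀ y, C x y = 0) → x = 0 := by
    intro x hx
    apply sep_core B hJ hj hnd x
    intro c
    rw [← hCapp, ← hA.neg_eq, hx, neg_zero]
  have := Cfsg.Agent.Lib.Classical.Witt.Parity.even_finrank_of_alt C hA hs
  rwa [Module.finrank_fintype_fun_eq_card] at this

/-- Alternating forms: odd sizes. -/
theorem even_of_isAlt (hnd : B.Nondegenerate) (hA : B.IsAlt) {j : ℕ} (hodd : Odd j) :
    Even (Fintype.card (Kj d j)) := by
  obtain ⟨c, rfl⟩ := hodd
  apply even_card_of_alt B hJ (by omega) hnd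
  intro x hx
  have h := alt_id B hJ hx
  rw [hA] at h
  rw [show 2 * c + 1 - 1 = 2 * c by omega]
  have h1 : ((-1 : F) ^ c) ≠ 0 := pow_ne_zero _ (by simp)
  exact (mul_eq_zero.mp h.symm).resolve_left h1

/-- Symmetric forms, characteristic not two: even sizes. -/
theorem even_of_symm (hnd : B.Nondegenerate) (hS : ∀ x y, B x y = B y x) (h2 : (2 : F) ≠ 0) {j : ℕ}
    (heven : Even j) (hj : 1 ≤ j) : Even (Fintype.card (Kj d j)) := by
  apply even_card_of_alt B hJ hj hnd
  intro x hx
  have h := star B hJ hj hx x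
  rw [hS] at h
  have hodd : Odd (j - 1) := by
    obtain ⟨c, rfl⟩ := heven
    exact ⟨c - 1, by omega⟩
  rw [hodd.neg_one_pow] at h
  have h3 : 2 * B x (((nL F d) ^ (j - 1)) x) = 0 := by linear_combination h
  exact (mul_eq_zero.mp h3).resolve_left h2

end Core

/-- Transport of the conjugacy hypothesis. -/
theorem exists_phi {ι : Type*} [Fintype ι] [DecidableEq ι] (e : Ix d ≃ ι) {A : Matrix ι ι F}
    (h : IsConj (Matrix.reindex e e (Cfsg.jordanTypeMatrix d F)) A) :
    ∃ φ : (Ix d → F) ≃ₗ[F] (ι → F), ∀ x, φ (jL F d x) = A *ᵥ φ x := by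
  obtain ⟨c, hc⟩ := h
  have hc' : (c : Matrix ι ι F) * Matrix.reindex e e (Cfsg.jordanTypeMatrix d F) = A * c := hc.eq
  let ρ : (Ix d → F) ≃ₗ[F] (ι → F) := LinearEquiv.funCongrLeft F F e.symm
  let σ : (ι → F) ≃ₗ[F] (ι → F) := LinearEquiv.ofLinearMap (c : Matrix ι ι F).mulVecLin
    ((c⁻¹ : (Matrix ι ι F)ˣ) : Matrix ι ι F).mulVecLin
    (LinearMap.ext fun x => by
      simp only [LinearMap.comp_apply, Matrix.mulVecLin_apply, Matrix.mulVec_mulVec, Units.mul_inv,
        Matrix.one_mulVec, LinearMap.id_apply])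
    (LinearMap.ext fun x => by
      simp only [LinearMap.comp_apply, Matrix.mulVecLin_apply, Matrix.mulVec_mulVec, Units.inv_mul,
        Matrix.one_mulVec, LinearMap.id_apply])
  refine ⟨ρ.trans σ, ?_⟩
  intro x
  have hρ : ∀ y, ρ y = y ∘ e.symm := fun y => rfl
  have hσ : ∀ y, σ y = (c : Matrix ι ι F) *ᵥ y := fun y => rfl
  simp only [LinearEquiv.trans_apply, hρ, hσ]
  rw [← jordan_mulVec', Matrix.mulVec_mulVec, ← hc', ← Matrix.mulVec_mulVec]
  congr 1
  rw [Matrix.reindex_apply, Matrix.submatrix_mulVec_equiv]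
  simp [Function.comp_def]

/-- Pull back a form. -/
theorem pullback_nondeg {V : Type*} [AddCommGroup V] [Module F V] {W : Type*} [AddCommGroup W] [Module F W]
    (φ : V ≃ₗ[F] W) {BB : LinearMap.BilinForm F W} (h : BB.Nondegenerate) :
    (LinearMap.BilinForm.comp BB (φ : V →ₗ[F] W) (φ : V →ₗ[F] W)).Nondegenerate := by
  constructor
  · intro x hx
    have : φ x = 0 := h.1 _ (fun y => by
      have := hx (φ.symm y)
      simpa using this)
    simpa using this
  · intro y hy
    have : φ y = 0 := h.2 _ (fun x => by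
      have := hy (φ.symm x)
      simpa using this)
    simpa using this

end Main

end Cfsg.Agent.Lib.Classical.Lin.JT1
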