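import Mathlib
import Cfsg.Agent.Lib.Classical.Lin.JT1

/-!
# Invariant forms on Jordan blocks: the construction

An integer Gram matrix `gg D z` with `J`-invariance, supported on `i + j < D`, with units on the antidiagonal;
block forms from an involution on the blocks.
-/

set_option autoImplicit false
set_option linter.unusedSectionVars false
set_option linter.unusedSimpArgs false
set_option linter.unusedVariables false

namespace Cfsg.Agent.Lib.Classical.Lin.JT2

open Matrix Module Cfsg.Agent.Lib.Classical.Lin.JT1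

/-- The Gram entries. -/
def gg (D : ℕ) (z : ℤ) (i j : ℕ) : ℤ :=
  if i + j < D then (-1) ^ i * Ring.choose (z - i) (D - 1 - i - j) else 0

theorem gg_zero {D : ℕ} {z : ℤ} {i j : ℕ} (h : D ≤ i + j) : gg D z i j = 0 := if_neg (by omega)

theorem gg_anti {D : ℕ} {z : ℤ} {i j : ℕ} (h : i + j + 1 = D) : gg D z i j = (-1) ^ i := by
  rw [gg, if_pos (by omega), show D - 1 - i - j = 0 by omega, Ring.choose_zero_right, mul_one]

theorem gg_rec (D : ℕ) (z : ℤ) (i j : ℕ) : gg D z (i + 1) j + gg D z i (j + 1) + gg D z (i + 1) (j + 1) = 0 := by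
  by_cases h1 : D ≤ i + j + 1
  · rw [gg_zero (by omega), gg_zero (by omega), gg_zero (by omega)]
    simp
  by_cases h2 : i + j + 2 = D
  · rw [gg_anti (by omega), gg_anti (by omega), gg_zero (by omega)]
    ring
  · simp only [gg]
    rw [if_pos (by omega), if_pos (by omega), if_pos (by omega)]
    obtain ⟨b, hb⟩ : ∃ b, D - 1 - (i + 1) - (j + 1) = b := ⟨_, rfl⟩
    have e1 : D - 1 - (i + 1) - j = b + 1 := by omega
    have e2 : D - 1 - i - (j + 1) = b + 1 := by omega
    rw [hb, e1, e2]
    have hz : z - (i : ℤ) = (z - ((i + 1 : ℕ) : ℤ)) + 1 := by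
      push_cast
      ring
    rw [hz, Ring.choose_succ_succ]
    ring

theorem gg_skew (c i j : ℕ) : gg (2 * c) ((c : ℤ) - 1) j i = - gg (2 * c) ((c : ℤ) - 1) i j := by
  by_cases h : i + j < 2 * c
  · simp only [gg]
    rw [if_pos (by omega), if_pos h]
    obtain ⟨b, hb⟩ : ∃ b, 2 * c - 1 - i - j = b := ⟨_, rfl⟩
    have e : 2 * c - 1 - j - i = b := by omega
    rw [hb, e]
    have hbz : (b : ℤ) = 2 * c - 1 - i - j := by omega
    have hneg : (c : ℤ) - 1 - (j : ℤ) = -(((c : ℤ) - 1 - (i : ℤ)) - b + 1) := by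
      rw [hbz]
      ring
    rw [hneg, Ring.choose_neg]
    have e3 : ((c : ℤ) - 1 - i - b + 1 + b - 1) = (c : ℤ) - 1 - i := by ring
    rw [e3]
    have hodd : Odd (i + (j + b)) := ⟨c - 1, by omega⟩
    have h1 : (-1 : ℤ) ^ (i + (j + b)) = -1 := hodd.neg_one_pow
    rw [pow_add, pow_add] at h1
    have hsq : ((-1 : ℤ) ^ i) * ((-1) ^ i) = 1 := by
      rw [← mul_pow]
      simp
    have hneg1 : ((Int.negOnePow (b : ℤ) : ℤˣ) : ℤ) = (-1) ^ b := by
      simp [Int.coe_negOnePow_natCast]
    rw [Units.smul_def, hneg1, smul_eq_mul]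
    have h2 : (-1 : ℤ) ^ j * (-1) ^ b = - (-1) ^ i := by
      linear_combination ((-1 : ℤ) ^ i) * h1 + (-((-1 : ℤ) ^ j * (-1) ^ b)) * hsq
    linear_combination (Ring.choose ((c : ℤ) - 1 - i) b) * h2
  · rw [gg_zero (by omega), gg_zero (by omega)]
    simp

theorem gg_diag (c i : ℕ) : gg (2 * c) ((c : ℤ) - 1) i i = 0 := by
  by_cases h : i + i < 2 * c
  · simp only [gg]
    rw [if_pos h]
    have e : (c : ℤ) - 1 - i = ((c - 1 - i : ℕ) : ℤ) := by omega
    rw [e, Ring.choose_natCast, Nat.choose_eq_zero_of_lt (by omega)]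
    simp
  · exact gg_zero (by omega)

variable {F : Type*} [Field F] {t : ℕ} {d : Fin t → ℕ}

/-- Block form data. -/
structure BF (F : Type*) [Field F] (d : Fin t → ℕ) where
  τ : Fin t → Fin t
  Gm : Fin t → ℕ → ℕ → F
  hτ : ∀ k, τ (τ k) = k
  hdτ : ∀ k, d (τ k) = d k
  hrec : ∀ k i j, Gm k (i + 1) j + Gm k i (j + 1) + Gm k (i + 1) (j + 1) = 0
  hzero : ∀ k i j, d k ≤ i + j → Gm k i j = 0
  hunit : ∀ k i j, i + j + 1 = d k → Gm k i j ≠ 0

/-- A basis vector or zero, with natural index. -/
def ee (F : Type*) [Field F] (d : Fin t → ℕ) (k : Fin t) (i : ℕ) : Ix d → F :=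
  if h : i < d k then Pi.single ⟨k, ⟨i, h⟩⟩ 1 else 0

theorem ee_of_lt {k : Fin t} {i : ℕ} (h : i < d k) : ee F d k i = Pi.single ⟨k, ⟨i, h⟩⟩ 1 := dif_pos h

theorem ee_of_ge {k : Fin t} {i : ℕ} (h : d k ≤ i) : ee F d k i = 0 := dif_neg (by omega)

theorem ee_mk (a : Ix d) : (Pi.single a 1 : Ix d → F) = ee F d a.1 a.2 := by
  rw [ee_of_lt a.2.2]

theorem nL_ee (k : Fin t) (i : ℕ) : nL F d (ee F d k i) = ee F d k (i + 1) := by
  by_cases h : i + 1 < d k
  · rw [ee_of_lt h, ee_of_lt (by omega : i < d k)]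
    exact nL_single h
  · rw [ee_of_ge (by omega : d k ≤ i + 1)]
    by_cases h2 : i < d k
    · rw [ee_of_lt h2]
      funext ⟨l, b⟩
      rw [nL_apply]
      simp only
      by_cases hb : 0 < (b : ℕ)
      · rw [dif_pos hb, Pi.single_eq_of_ne]
        · rfl
        · intro e
          have h0 := congrArg Sigma.fst e
          simp only at h0
          subst h0
          have h1 : (⟨(b : ℕ) - 1, by have := b.2; omega⟩ : Fin (d l)) = ⟨i, h2⟩ := by simpa using e
          have h3 := congrArg Fin.val h1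
          simp only at h3
          have := b.2
          omega
      · rw [dif_neg hb]
        rfl
    · rw [ee_of_ge (by omega : d k ≤ i)]
      exact map_zero _

theorem jL_ee (k : Fin t) (i : ℕ) : jL F d (ee F d k i) = ee F d k i + ee F d k (i + 1) := by
  rw [jL_apply, nL_ee]

namespace BF

variable (X : BF F d)

/-- The Gram matrix. -/
def om : Matrix (Ix d) (Ix d) F := fun a b => if X.τ a.1 = b.1 then X.Gm a.1 a.2 b.2 else 0

/-- The bilinear form. -/
noncomputable def bf : LinearMap.BilinForm F (Ix d → F) := Matrix.toLinearMap₂' F X.om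

theorem bf_apply (x y : Ix d → F) : X.bf x y = x ⬝ᵥ (X.om *ᵥ y) := Matrix.toLinearMap₂'_apply' _ _ _

theorem bf_single (a b : Ix d) : X.bf (Pi.single a 1) (Pi.single b 1) = X.om a b := by
  rw [bf_apply]
  simp [Matrix.mulVec_single_one, Matrix.col_apply]

theorem bf_ee (k l : Fin t) (i j : ℕ) :
    X.bf (ee F d k i) (ee F d l j) = if X.τ k = l then X.Gm k i j else 0 := by
  by_cases hi : i < d k
  · by_cases hj : j < d l
    · rw [ee_of_lt hi, ee_of_lt hj, bf_single]
      rfl
    · rw [ee_of_ge (by omega : d l ≤ j), map_zero]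
      by_cases h : X.τ k = l
      · rw [if_pos h, X.hzero]
        have := X.hdτ k
        rw [h] at this
        omega
      · rw [if_neg h]
  · rw [ee_of_ge (by omega : d k ≤ i), map_zero, LinearMap.zero_apply]
    by_cases h : X.τ k = l
    · rw [if_pos h, X.hzero]
      omega
    · rw [if_neg h]

/-- `J`-invariance. -/
theorem bf_inv (x y : Ix d → F) : X.bf (jL F d x) (jL F d y) = X.bf x y := by
  have h : LinearMap.BilinForm.comp X.bf (jL F d) (jL F d) = X.bf := by
    apply LinearMap.BilinForm.ext_basis (Pi.basisFun F (Ix d))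
    intro a b
    simp only [Pi.basisFun_apply, LinearMap.BilinForm.comp_apply]
    rw [ee_mk a, ee_mk b, jL_ee, jL_ee]
    simp only [map_add, LinearMap.add_apply, bf_ee]
    by_cases hh : X.τ a.1 = b.1
    · simp only [if_pos hh]
      linear_combination X.hrec a.1 a.2 b.2
    · simp [if_neg hh]
  have h2 := congrArg (fun B : LinearMap.BilinForm F (Ix d → F) => B x y) h
  exact h2

/-- Right separation. -/
theorem sepR (y : Ix d → F) (hy : ∀ x, X.bf x y = 0) : y = 0 := by
  classical
  have hexp : y = ∑ b, y b • Pi.single b (1 : F) := by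
    funext b
    simp [Finset.sum_apply, Pi.single_apply]
  have hterm : ∀ (k : Fin t) (i : ℕ), ∑ b, y b * (if X.τ k = b.1 then X.Gm k i b.2 else 0) = 0 := by
    intro k i
    have h := hy (ee F d k i)
    have h2 : X.bf (ee F d k i) y = ∑ b, y b * (if X.τ k = b.1 then X.Gm k i b.2 else 0) := by
      conv_lhs => rw [hexp]
      rw [map_sum]
      apply Finset.sum_congr rfl
      intro b _
      rw [map_smul, smul_eq_mul, ee_mk b, bf_ee]
    rw [← h2, h]
  have main : ∀ n : ℕ, ∀ l : Fin t, ∀ j : Fin (d l), (j : ℕ) = n → y ⟨l, j⟩ = 0 := by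
    intro n
    induction n using Nat.strong_induction_on with
    | _ n IH =>
      intro l j hjn
      set k := X.τ l with hk
      have hkl : X.τ k = l := X.hτ l
      have hdk : d k = d l := X.hdτ l
      have hjlt := j.2
      have h0 := hterm k (d k - 1 - n)
      rw [Finset.sum_eq_single (⟨l, j⟩ : Ix d)] at h0
      · simp only [if_pos hkl] at h0
        exact (mul_eq_zero.mp h0).resolve_right (X.hunit k _ _ (by omega))
      · rintro ⟨l', j'⟩ _ hne
        by_cases hl : X.τ k = l'
        · simp only [if_pos hl]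
          have hll : l' = l := hl.symm.trans hkl
          subst hll
          have hj' : (j' : ℕ) ≠ n := by
            intro e
            apply hne
            have : j' = j := Fin.ext (e.trans hjn.symm)
            rw [this]
          rcases lt_or_gt_of_ne hj' with hlt | hgt
          · rw [IH _ hlt l' j' rfl, zero_mul]
          · rw [X.hzero k _ _ (by have := j.2; omega), mul_zero]
        · simp [if_neg hl]
      · intro h
        exact absurd (Finset.mem_univ _) h
  funext ⟨l, j⟩
  exact main _ l j rfl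

/-- Symmetry of the form from the data. -/
theorem bf_symm (ε : F) (hε : ∀ k i j, X.Gm k i j = ε * X.Gm (X.τ k) j i) (x y : Ix d → F) :
    X.bf x y = ε * X.bf y x := by
  have h : X.bf = ε • (LinearMap.flip X.bf) := by
    apply LinearMap.BilinForm.ext_basis (Pi.basisFun F (Ix d))
    intro a b
    simp only [Pi.basisFun_apply, LinearMap.smul_apply, LinearMap.flip_apply, smul_eq_mul]
    rw [ee_mk a, ee_mk b, bf_ee, bf_ee]
    by_cases hh : X.τ a.1 = b.1
    · have h2 : X.τ b.1 = a.1 := by rw [← hh, X.hτ]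
      rw [if_pos hh, if_pos h2, hε, hh]
    · have h2 : X.τ b.1 ≠ a.1 := by
        intro e
        apply hh
        rw [← e, X.hτ]
      rw [if_neg hh, if_neg h2, mul_zero]
  have h2 := congrArg (fun B : LinearMap.BilinForm F (Ix d → F) => B x y) h
  simpa using h2

/-- Nondegeneracy. -/
theorem nondeg (ε : F) (hε0 : ε ≠ 0) (hε : ∀ k i j, X.Gm k i j = ε * X.Gm (X.τ k) j i) :
    X.bf.Nondegenerate := by
  refine ⟨?_, fun y hy => X.sepR y hy⟩
  intro x hx
  apply X.sepR
  intro y
  have := X.bf_symm ε hε x y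
  rw [hx y] at this
  exact (mul_eq_zero.mp this.symm).resolve_left hε0

/-- Skew plus zero diagonal gives alternating. -/
theorem isAlt (hε : ∀ k i j, X.Gm k i j = (-1) * X.Gm (X.τ k) j i)
    (hdiag : ∀ k i, X.τ k = k → X.Gm k i i = 0) : X.bf.IsAlt := by
  classical
  have hsk : ∀ x y, X.bf x y = (-1) * X.bf y x := X.bf_symm (-1) hε
  have hd0 : ∀ a : Ix d, X.bf (Pi.single a 1) (Pi.single a 1) = 0 := by
    intro a
    rw [ee_mk a, bf_ee]
    by_cases h : X.τ a.1 = a.1
    · rw [if_pos h, hdiag _ _ h]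
    · rw [if_neg h]
  intro x
  have hexp : ∀ s : Finset (Ix d), X.bf (∑ a ∈ s, x a • Pi.single a (1 : F)) (∑ a ∈ s, x a • Pi.single a (1 : F)) = 0 := by
    intro s
    induction s using Finset.induction_on with
    | empty => simp
    | insert a s ha ih =>
      rw [Finset.sum_insert ha]
      set u := ∑ a ∈ s, x a • Pi.single a (1 : F)
      simp only [map_add, map_smul, LinearMap.add_apply, LinearMap.smul_apply, smul_eq_mul]
      rw [ih, hd0 a, hsk u (Pi.single a 1)]
      ring
  have h := hexp Finset.univ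
  have hx : ∑ a, x a • Pi.single a (1 : F) = x := by
    funext b
    simp [Finset.sum_apply, Pi.single_apply]
  rwa [hx] at h

end BF

end Cfsg.Agent.Lib.Classical.Lin.JT2
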