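import Mathlib
import Cfsg.Agent.Lib.Classical.Lin.JT2
import Cfsg.Agent.Lib.Classical.Symp.SympBasis

/-!
# Pairing the blocks; the symplectic case
-/

set_option autoImplicit false
set_option linter.unusedSectionVars false
set_option linter.unusedSimpArgs false
set_option linter.unusedVariables false

namespace Cfsg.Agent.Lib.Classical.Lin.JT3

open Matrix Module Cfsg.Agent.Lib.Classical.Lin.JT1 Cfsg.Agent.Lib.Classical.Lin.JT2

variable {F : Type*} [Field F] {t : ℕ} {d : Fin t → ℕ}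

theorem exists_fpf_invol {α : Type*} [Fintype α] (h : Even (Fintype.card α)) :
    ∃ σ : Equiv.Perm α, (∀ x, σ (σ x) = x) ∧ ∀ x, σ x ≠ x := by
  classical
  obtain ⟨r, hr⟩ := h
  have hc : Fintype.card α = Fintype.card (Fin r ⊕ Fin r) := by simp [hr]
  let e : α ≃ Fin r ⊕ Fin r := Fintype.equivOfCardEq hc
  refine ⟨e.trans ((Equiv.sumComm _ _).trans e.symm), ?_, ?_⟩
  · intro x
    simp
  · intro x hx
    have h1 : (Equiv.sumComm (Fin r) (Fin r)) (e x) = e x := by
      have := congrArg e hx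
      simpa using this
    rcases hq : e x with i | i <;> simp [hq] at h1

/-- Pairing the blocks. -/
theorem exists_tau (d : Fin t → ℕ) (P : ℕ → Prop) (hP : ∀ j, P j → Even (Fintype.card (Kj d j))) :
    ∃ τ : Fin t → Fin t, (∀ k, τ (τ k) = k) ∧ (∀ k, d (τ k) = d k) ∧ (∀ k, P (d k) → τ k ≠ k) ∧
      (∀ k, ¬ P (d k) → τ k = k) := by
  classical
  have hσ : ∀ j : ℕ, ∃ σ : Equiv.Perm (Kj d j), (∀ x, σ (σ x) = x) ∧ (P j → ∀ x, σ x ≠ x) ∧ (¬ P j → ∀ x, σ x = x) := by
    intro j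
    by_cases hj : P j
    · obtain ⟨σ, h1, h2⟩ := exists_fpf_invol (hP j hj)
      exact ⟨σ, h1, fun _ => h2, fun h => absurd hj h⟩
    · exact ⟨1, fun x => rfl, fun h => absurd h hj, fun _ x => rfl⟩
  choose σ h1 h2 h3 using hσ
  refine ⟨fun k => (σ (d k) ⟨k, rfl⟩).1, ?_, ?_, ?_, ?_⟩
  · intro k
    have hd : d (σ (d k) ⟨k, rfl⟩).1 = d k := (σ (d k) ⟨k, rfl⟩).2
    have key : ∀ (j : ℕ) (x : Kj d j) (hj : j = d x.1), (σ (d x.1) ⟨x.1, rfl⟩).1 = (σ j x).1 := by
      intro j x hj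
      obtain ⟨y, hy⟩ := x
      subst hy
      rfl
    have := key (d k) (σ (d k) ⟨k, rfl⟩) hd.symm
    simp only at this ⊢
    rw [this, h1]
  · intro k
    exact (σ (d k) ⟨k, rfl⟩).2
  · intro k hk e
    exact h2 (d k) hk ⟨k, rfl⟩ (Subtype.ext e)
  · intro k hk
    have := h3 (d k) hk ⟨k, rfl⟩
    exact congrArg Subtype.val this

theorem gg_skew' {D : ℕ} (hD : Even D) (i j : ℕ) :
    gg D (((D / 2 : ℕ) : ℤ) - 1) j i = - gg D (((D / 2 : ℕ) : ℤ) - 1) i j := by
  obtain ⟨c, rfl⟩ := hD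
  have e : (c + c) / 2 = c := by omega
  rw [e, ← two_mul]
  exact gg_skew c i j

theorem gg_diag' {D : ℕ} (hD : Even D) (i : ℕ) : gg D (((D / 2 : ℕ) : ℤ) - 1) i i = 0 := by
  obtain ⟨c, rfl⟩ := hD
  have e : (c + c) / 2 = c := by omega
  rw [e, ← two_mul]
  exact gg_diag c i

theorem cast_rec (D : ℕ) (z : ℤ) (i j : ℕ) :
    ((gg D z (i + 1) j : ℤ) : F) + ((gg D z i (j + 1) : ℤ) : F) + ((gg D z (i + 1) (j + 1) : ℤ) : F) = 0 := by
  have := congrArg (Int.cast : ℤ → F) (gg_rec D z i j)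
  simpa using this

theorem cast_anti_ne {D : ℕ} {z : ℤ} {i j : ℕ} (h : i + j + 1 = D) : ((gg D z i j : ℤ) : F) ≠ 0 := by
  rw [gg_anti h]
  simp

/-- The block form of the symplectic case. -/
noncomputable def spGm (d : Fin t → ℕ) (τ : Fin t → Fin t) (k : Fin t) (i j : ℕ) : F :=
  if τ k = k then ((gg (d k) (((d k / 2 : ℕ) : ℤ) - 1) i j : ℤ) : F)
  else if k < τ k then ((gg (d k) 0 i j : ℤ) : F) else - ((gg (d k) 0 j i : ℤ) : F)

/-- The data. -/
noncomputable def spBF (F : Type*) [Field F] (d : Fin t → ℕ) (τ : Fin t → Fin t) (h1 : ∀ k, τ (τ k) = k)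
    (h2 : ∀ k, d (τ k) = d k) : BF F d where
  τ := τ
  Gm := spGm d τ
  hτ := h1
  hdτ := h2
  hrec := by
    intro k i j
    unfold spGm
    by_cases h : τ k = k
    · simp only [if_pos h]
      exact cast_rec _ _ _ _
    · simp only [if_neg h]
      by_cases h' : k < τ k
      · simp only [if_pos h']
        exact cast_rec _ _ _ _
      · simp only [if_neg h']
        have := cast_rec (F := F) (d k) 0 j i
        linear_combination (-1 : F) * this
  hzero := by
    intro k i j hij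
    unfold spGm
    by_cases h : τ k = k
    · simp only [if_pos h]
      rw [gg_zero hij]
      simp
    · simp only [if_neg h]
      by_cases h' : k < τ k
      · simp only [if_pos h']
        rw [gg_zero hij]
        simp
      · simp only [if_neg h']
        rw [gg_zero (by omega)]
        simp
  hunit := by
    intro k i j hij
    unfold spGm
    by_cases h : τ k = k
    · simp only [if_pos h]
      exact cast_anti_ne hij
    · simp only [if_neg h]
      by_cases h' : k < τ k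
      · simp only [if_pos h']
        exact cast_anti_ne hij
      · simp only [if_neg h']
        exact neg_ne_zero.mpr (cast_anti_ne (by omega))

theorem spBF_skew (τ : Fin t → Fin t) (h1 : ∀ k, τ (τ k) = k) (h2 : ∀ k, d (τ k) = d k)
    (hfix : ∀ k, τ k = k → Even (d k)) (k : Fin t) (i j : ℕ) :
    spGm (F := F) d τ k i j = (-1) * spGm d τ (τ k) j i := by
  unfold spGm
  by_cases h : τ k = k
  · rw [if_pos h, h, if_pos h, gg_skew' (hfix k h) j i]
    simp
  · have h3 : τ (τ k) ≠ τ k := by rw [h1]; exact fun e => h e.symm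
    rw [if_neg h, if_neg h3, h1, h2]
    by_cases h' : k < τ k
    · rw [if_pos h', if_neg (not_lt.mpr h'.le)]
      ring
    · have h4 : τ k < k := lt_of_le_of_ne (not_lt.mp h') h
      rw [if_neg h', if_pos h4]
      ring

theorem spBF_diag (τ : Fin t → Fin t) (hfix : ∀ k, τ k = k → Even (d k)) (k : Fin t) (i : ℕ) (h : τ k = k) :
    spGm (F := F) d τ k i i = 0 := by
  unfold spGm
  rw [if_pos h, gg_diag' (hfix k h) i]
  simp

/-- A matrix equality from `mulVec`. -/
theorem matrix_eq_of_mulVec {ι : Type*} [Fintype ι] [DecidableEq ι] {M N : Matrix ι ι F}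
    (h : ∀ v, M *ᵥ v = N *ᵥ v) : M = N :=
  Matrix.toLin'.injective (LinearMap.ext fun v => by simpa [Matrix.toLin'_apply] using h v)

/-- Transport of `J` along a linear equivalence: the conjugacy. -/
theorem isConj_transport {ι : Type*} [Fintype ι] [DecidableEq ι] (e : Ix d ≃ ι)
    (ε : (Ix d → F) ≃ₗ[F] (ι → F)) :
    IsConj (Matrix.reindex e e (Cfsg.jordanTypeMatrix d F))
      (LinearMap.toMatrix' ((ε : (Ix d → F) →ₗ[F] (ι → F)) ∘ₗ jL F d ∘ₗ (ε.symm : (ι → F) →ₗ[F] (Ix d → F)))) := by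
  classical
  let ρ : (Ix d → F) ≃ₗ[F] (ι → F) := LinearEquiv.funCongrLeft F F e.symm
  let L : (ι → F) ≃ₗ[F] (ι → F) := ρ.symm.trans ε
  let c : (Matrix ι ι F)ˣ :=
    { val := LinearMap.toMatrix' (L : (ι → F) →ₗ[F] (ι → F))
      inv := LinearMap.toMatrix' (L.symm : (ι → F) →ₗ[F] (ι → F))
      val_inv := by
        rw [← LinearMap.toMatrix'_comp]
        have : (L : (ι → F) →ₗ[F] (ι → F)) ∘ₗ (L.symm : (ι → F) →ₗ[F] (ι → F)) = LinearMap.id := by
          ext1 x
          simp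
        rw [this, LinearMap.toMatrix'_id]
      inv_val := by
        rw [← LinearMap.toMatrix'_comp]
        have : (L.symm : (ι → F) →ₗ[F] (ι → F)) ∘ₗ (L : (ι → F) →ₗ[F] (ι → F)) = LinearMap.id := by
          ext1 x
          simp
        rw [this, LinearMap.toMatrix'_id] }
  refine ⟨c, ?_⟩
  show (c : Matrix ι ι F) * _ = _ * (c : Matrix ι ι F)
  apply matrix_eq_of_mulVec
  intro v
  rw [← Matrix.mulVec_mulVec, ← Matrix.mulVec_mulVec]
  show LinearMap.toMatrix' (L : (ι → F) →ₗ[F] (ι → F)) *ᵥ _ = _ *ᵥ (LinearMap.toMatrix' (L : (ι → F) →ₗ[F] (ι → F)) *ᵥ v)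
  rw [LinearMap.toMatrix'_mulVec, LinearMap.toMatrix'_mulVec, LinearMap.toMatrix'_mulVec]
  rw [Matrix.reindex_apply, Matrix.submatrix_mulVec_equiv, jordan_mulVec']
  have h1 : ∀ w : ι → F, L w = ε (w ∘ e) := fun w => rfl
  simp only [LinearMap.comp_apply, h1, LinearEquiv.coe_coe, LinearEquiv.symm_apply_apply, Function.comp_def,
    Equiv.symm_symm, Equiv.symm_apply_apply]

end Cfsg.Agent.Lib.Classical.Lin.JT3
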