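import Mathlib
import Cfsg.Agent.Lib.Classical.Lin.JT3

/-!
# Quadratic forms invariant under Jordan types
-/

set_option autoImplicit false
set_option linter.unusedSectionVars false
set_option linter.unusedSimpArgs false
set_option linter.unusedVariables false

namespace Cfsg.Agent.Lib.Classical.Lin.JT4

open Matrix Module Cfsg.Agent.Lib.Classical.Lin.JT1 Cfsg.Agent.Lib.Classical.Lin.JT2
open Cfsg.Agent.Lib.Classical.Lin.JT3

variable {F : Type*} [Field F] {t : ℕ} {d : Fin t → ℕ}

/-- `J` is injective. -/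
theorem jL_injective : Function.Injective (jL F d) := by
  rw [injective_iff_map_eq_zero]
  intro x hx
  have main : ∀ n : ℕ, ∀ (k : Fin t) (i : Fin (d k)), (i : ℕ) = n → x ⟨k, i⟩ = 0 := by
    intro n
    induction n with
    | zero =>
      intro k i hi
      have h := congrFun hx ⟨k, i⟩
      rw [jL_apply, Pi.add_apply, nL_apply, dif_neg (by simp [hi])] at h
      simpa using h
    | succ n ih =>
      intro k i hi
      have h := congrFun hx ⟨k, i⟩
      rw [jL_apply, Pi.add_apply, nL_apply, dif_pos (by simp [hi])] at h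
      have h2 := ih k ⟨(i : ℕ) - 1, by have := i.2; omega⟩ (by simp only; omega)
      rw [h2, add_zero] at h
      exact h
  funext ⟨k, i⟩
  exact main _ k i rfl

/-- The reindexed `J` as a unit. -/
theorem isUnit_reindex {ι : Type*} [Fintype ι] [DecidableEq ι] (e : Ix d ≃ ι) :
    IsUnit (Matrix.reindex e e (Cfsg.jordanTypeMatrix d F)) := by
  rw [← Matrix.mulVec_injective_iff_isUnit]
  intro u v huv
  have h : ∀ w : ι → F, (Matrix.reindex e e (Cfsg.jordanTypeMatrix d F)) *ᵥ w = (jL F d (w ∘ e)) ∘ e.symm := by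
    intro w
    rw [Matrix.reindex_apply, Matrix.submatrix_mulVec_equiv, jordan_mulVec']
    simp
  have h1 : (Matrix.reindex e e (Cfsg.jordanTypeMatrix d F)) *ᵥ u = (Matrix.reindex e e (Cfsg.jordanTypeMatrix d F)) *ᵥ v := huv
  rw [h, h] at h1
  have h2 : jL F d (u ∘ e) = jL F d (v ∘ e) := by
    funext a
    have := congrFun h1 (e a)
    simpa using this
  have h3 := jL_injective h2
  funext b
  have := congrFun h3 (e.symm b)
  simpa using this

/-- Assembly for a quadratic form on the index type. -/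
theorem final_orth {n : ℕ} (e : Ix d ≃ Fin n) (Q : QuadraticForm F (Ix d → F))
    (hnd : (QuadraticMap.polarBilin Q).Nondegenerate) (hQ : ∀ x, Q (jL F d x) = Q x) :
    ∃ Q' : QuadraticForm F (Fin n → F), (QuadraticMap.polarBilin Q').Nondegenerate ∧
      ∃ e' : (Ix d) ≃ Fin n, ∃ A : ↥(Cfsg.isometryGroup F ⇑Q'),
        IsConj (Matrix.reindex e' e' (Cfsg.jordanTypeMatrix d F))
          ((A : Matrix.GeneralLinearGroup (Fin n) F) : Matrix (Fin n) (Fin n) F) := by
  classical
  let ρ : (Ix d → F) ≃ₗ[F] (Fin n → F) := LinearEquiv.funCongrLeft F F e.symm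
  let Q' : QuadraticForm F (Fin n → F) := Q.comp (ρ.symm : (Fin n → F) →ₗ[F] (Ix d → F))
  have hQ' : ∀ u, Q' u = Q (u ∘ e) := fun u => rfl
  have hρ : ∀ u : Fin n → F, (ρ.symm u) = u ∘ e := fun u => rfl
  refine ⟨Q', ?_, e, ?_⟩
  · have h := pullback_nondeg ρ.symm hnd
    have heq : QuadraticMap.polarBilin Q' =
        LinearMap.BilinForm.comp (QuadraticMap.polarBilin Q) (ρ.symm : (Fin n → F) →ₗ[F] (Ix d → F))
          (ρ.symm : (Fin n → F) →ₗ[F] (Ix d → F)) := by
      refine LinearMap.ext fun x => LinearMap.ext fun y => ?_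
      show QuadraticMap.polar Q' x y = QuadraticMap.polar Q _ _
      simp only [QuadraticMap.polar]
      show Q' (x + y) - Q' x - Q' y = Q (ρ.symm x + ρ.symm y) - Q (ρ.symm x) - Q (ρ.symm y)
      rw [← map_add]
      rfl
    rw [heq]
    exact h
  · have hU := isUnit_reindex (F := F) e
    refine ⟨⟨hU.unit, ?_⟩, ?_⟩
    · show ∀ u v, Q' (((hU.unit : (Matrix (Fin n) (Fin n) F)ˣ) : Matrix (Fin n) (Fin n) F) *ᵥ u) = Q' u
      intro u v
      rw [IsUnit.unit_spec, hQ', hQ']
      have : ((Matrix.reindex e e (Cfsg.jordanTypeMatrix d F)) *ᵥ u) ∘ e = jL F d (u ∘ e) := by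
        rw [Matrix.reindex_apply, Matrix.submatrix_mulVec_equiv, jordan_mulVec']
        funext a
        simp
      rw [this, hQ]
    · show IsConj _ ((hU.unit : (Matrix (Fin n) (Fin n) F)ˣ) : Matrix (Fin n) (Fin n) F)
      rw [IsUnit.unit_spec]

/-- Necessary direction: common part. -/
theorem forward_form {n : ℕ} (Q : QuadraticForm F (Fin n → F)) (hnd : (QuadraticMap.polarBilin Q).Nondegenerate)
    (e : Ix d ≃ Fin n) (A : Matrix (Fin n) (Fin n) F) (hQA : ∀ u, Q (A *ᵥ u) = Q u)
    (hc : IsConj (Matrix.reindex e e (Cfsg.jordanTypeMatrix d F)) A) :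
    ∃ B : LinearMap.BilinForm F (Ix d → F), B.Nondegenerate ∧ (∀ x y, B (jL F d x) (jL F d y) = B x y) ∧
      (∀ x y, B x y = B y x) ∧ (∀ x, ∃ u, B x x = 2 * Q u) := by
  classical
  obtain ⟨φ, hφ⟩ := exists_phi e hc
  refine ⟨LinearMap.BilinForm.comp (QuadraticMap.polarBilin Q) (φ : (Ix d → F) →ₗ[F] (Fin n → F))
    (φ : (Ix d → F) →ₗ[F] (Fin n → F)), pullback_nondeg φ hnd, ?_, ?_, ?_⟩
  · intro x y
    show QuadraticMap.polar Q (φ (jL F d x)) (φ (jL F d y)) = QuadraticMap.polar Q (φ x) (φ y)
    rw [hφ, hφ]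
    simp only [QuadraticMap.polar]
    rw [← Matrix.mulVec_add, hQA, hQA, hQA]
  · intro x y
    show QuadraticMap.polar Q (φ x) (φ y) = QuadraticMap.polar Q (φ y) (φ x)
    exact QuadraticMap.polar_comm _ _ _
  · intro x
    refine ⟨φ x, ?_⟩
    show QuadraticMap.polar Q (φ x) (φ x) = _
    rw [QuadraticMap.polar_self]
    simp [two_mul, two_smul]

/-! ### Odd characteristic -/

/-- The block form of the orthogonal case, characteristic not two. -/
noncomputable def orGm (d : Fin t → ℕ) (τ : Fin t → Fin t) (k : Fin t) (i j : ℕ) : F :=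
  if τ k = k then ((gg (d k) 0 i j : ℤ) : F) + ((gg (d k) 0 j i : ℤ) : F)
  else if k < τ k then ((gg (d k) 0 i j : ℤ) : F) else ((gg (d k) 0 j i : ℤ) : F)

/-- The data. -/
noncomputable def orBF (F : Type*) [Field F] (h2F : (2 : F) ≠ 0) (d : Fin t → ℕ) (τ : Fin t → Fin t)
    (h1 : ∀ k, τ (τ k) = k) (h2 : ∀ k, d (τ k) = d k) (hfix : ∀ k, τ k = k → Odd (d k)) : BF F d where
  τ := τ
  Gm := orGm d τ
  hτ := h1
  hdτ := h2
  hrec := by
    intro k i j
    unfold orGm
    by_cases h : τ k = k
    · simp only [if_pos h]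
      have h3 := cast_rec (F := F) (d k) 0 j i
      have h4 := cast_rec (F := F) (d k) 0 i j
      linear_combination h3 + h4
    · simp only [if_neg h]
      by_cases h' : k < τ k
      · simp only [if_pos h']
        exact cast_rec _ _ _ _
      · simp only [if_neg h']
        have := cast_rec (F := F) (d k) 0 j i
        linear_combination this
  hzero := by
    intro k i j hij
    unfold orGm
    by_cases h : τ k = k
    · simp only [if_pos h]
      rw [gg_zero hij, gg_zero (by omega)]
      simp
    · simp only [if_neg h]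
      by_cases h' : k < τ k
      · simp only [if_pos h']
        rw [gg_zero hij]
        simp
      · simp only [if_neg h']
        rw [gg_zero (by omega)]
        simp
  hunit := by
    intro k i j hij
    unfold orGm
    by_cases h : τ k = k
    · simp only [if_pos h]
      rw [gg_anti hij, gg_anti (by omega : j + i + 1 = d k)]
      obtain ⟨c, hc⟩ := hfix k h
      have hp : Even (i + j) := ⟨c, by omega⟩
      have hpar : (-1 : ℤ) ^ j = (-1) ^ i := by
        rcases Nat.even_or_odd i with hi | hi
        · have hj : Even j := (Nat.even_add.mp hp).mp hi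
          rw [hi.neg_one_pow, hj.neg_one_pow]
        · have hj : Odd j := by
            by_contra hne
            have hj' : Even j := Nat.not_odd_iff_even.mp hne
            exact (Nat.not_even_iff_odd.mpr hi) ((Nat.even_add.mp hp).mpr hj')
          rw [hi.neg_one_pow, hj.neg_one_pow]
      rw [hpar]
      push_cast
      have h5 : ((-1 : F)) ^ i ≠ 0 := pow_ne_zero _ (by simp)
      have : (-1 : F) ^ i + (-1) ^ i = 2 * (-1) ^ i := by ring
      rw [this]
      exact mul_ne_zero h2F h5
    · simp only [if_neg h]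
      by_cases h' : k < τ k
      · simp only [if_pos h']
        exact cast_anti_ne hij
      · simp only [if_neg h']
        exact cast_anti_ne (by omega)

theorem orBF_symm (τ : Fin t → Fin t) (h1 : ∀ k, τ (τ k) = k) (h2 : ∀ k, d (τ k) = d k)
    (k : Fin t) (i j : ℕ) : orGm (F := F) d τ k i j = 1 * orGm d τ (τ k) j i := by
  unfold orGm
  by_cases h : τ k = k
  · rw [if_pos h, h, if_pos h]
    ring
  · have h3 : τ (τ k) ≠ τ k := by rw [h1]; exact fun e => h e.symm
    rw [if_neg h, if_neg h3, h1, h2]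
    by_cases h' : k < τ k
    · rw [if_pos h', if_neg (not_lt.mpr h'.le)]
      ring
    · have h4 : τ k < k := lt_of_le_of_ne (not_lt.mp h') h
      rw [if_neg h', if_pos h4]
      ring

/-- Polar form of the diagonal of a bilinear form. -/
theorem polar_toQ (B : LinearMap.BilinForm F (Ix d → F)) (x y : Ix d → F) :
    QuadraticMap.polar (LinearMap.BilinMap.toQuadraticMap B) x y = B x y + B y x := by
  simp only [QuadraticMap.polar, LinearMap.BilinMap.toQuadraticMap_apply, map_add, LinearMap.add_apply]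
  ring

/-- The theorem in odd characteristic, backward direction. -/
theorem backward_odd (h2F : (2 : F) ≠ 0) {n : ℕ} (hsum : ∑ k, d k = n)
    (h : ∀ j : ℕ, Even j → 0 < j → Even (Finset.univ.filter (fun k : Fin t => d k = j)).card)
    (hd : ∀ k, 1 ≤ d k) :
    ∃ Q : QuadraticForm F (Fin n → F), (QuadraticMap.polarBilin Q).Nondegenerate ∧
      ∃ e : (Ix d) ≃ Fin n, ∃ A : ↥(Cfsg.isometryGroup F ⇑Q),
        IsConj (Matrix.reindex e e (Cfsg.jordanTypeMatrix d F))
          ((A : Matrix.GeneralLinearGroup (Fin n) F) : Matrix (Fin n) (Fin n) F) := by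
  classical
  have hP : ∀ j, (Even j ∧ 0 < j) → Even (Fintype.card (Kj d j)) := by
    rintro j ⟨hj, hj0⟩
    rw [Fintype.card_subtype]
    exact h j hj hj0
  obtain ⟨τ, h1, h2, h3, h4⟩ := exists_tau d (fun j => Even j ∧ 0 < j) hP
  have hfix : ∀ k, τ k = k → Odd (d k) := by
    intro k hk
    by_contra hne
    exact h3 k ⟨Nat.not_odd_iff_even.mp hne, hd k⟩ hk
  let X := orBF F h2F d τ h1 h2 hfix
  have hsym : ∀ k i j, X.Gm k i j = 1 * X.Gm (X.τ k) j i := orBF_symm τ h1 h2
  have hnd : X.bf.Nondegenerate := X.nondeg 1 one_ne_zero hsym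
  have hS : ∀ x y, X.bf x y = X.bf y x := fun x y => by
    have := X.bf_symm 1 hsym x y
    rwa [one_mul] at this
  let Q : QuadraticForm F (Ix d → F) := LinearMap.BilinMap.toQuadraticMap X.bf
  have hQ : ∀ x, Q x = X.bf x x := fun x => rfl
  have hpolar : ∀ x y, QuadraticMap.polarBilin Q x y = 2 * X.bf x y := by
    intro x y
    show QuadraticMap.polar Q x y = _
    rw [polar_toQ, hS y x]
    ring
  have hcard : Fintype.card (Ix d) = Fintype.card (Fin n) := by
    rw [Fintype.card_sigma, ← hsum]
    simp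
  refine final_orth (Fintype.equivOfCardEq hcard) Q ⟨?_, ?_⟩ ?_
  · intro x hx
    apply hnd.1
    intro y
    have := hx y
    rw [hpolar] at this
    exact (mul_eq_zero.mp this).resolve_left h2F
  · intro y hy
    apply hnd.2
    intro x
    have := hy x
    rw [hpolar] at this
    exact (mul_eq_zero.mp this).resolve_left h2F
  · intro x
    rw [hQ, hQ, X.bf_inv]

/-! ### Characteristic two -/

section Two

variable [CharP F 2]

theorem two_eq_zero' : (2 : F) = 0 := by
  have := CharP.cast_eq_zero F 2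
  simpa using this

theorem neg_eq' (a : F) : -a = a := by
  have h := two_eq_zero' (F := F)
  linear_combination (-a) * h

theorem add_self' (a : F) : a + a = 0 := by
  have h := two_eq_zero' (F := F)
  linear_combination a * h

variable (X : BF F d)

/-- The non-symmetric Gram matrix of the quadratic form. -/
def tt : Matrix (Ix d) (Ix d) F := fun a b =>
  if X.τ a.1 = b.1 then
    (if X.τ a.1 = a.1 then
      (if (a.2 : ℕ) < b.2 then X.Gm a.1 a.2 b.2
       else if (a.2 : ℕ) = b.2 then (if 0 < (a.2 : ℕ) then X.Gm a.1 (a.2 - 1) a.2 else 0) else 0)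
     else if a.1 < X.τ a.1 then X.Gm a.1 a.2 b.2 else 0)
  else 0

/-- The associated bilinear form. -/
noncomputable def ttL : LinearMap.BilinForm F (Ix d → F) := Matrix.toLinearMap₂' F (tt X)

theorem ttL_apply (x y : Ix d → F) : ttL X x y = x ⬝ᵥ (tt X *ᵥ y) := Matrix.toLinearMap₂'_apply' _ _ _

/-- The quadratic form. -/
noncomputable def qq : QuadraticForm F (Ix d → F) :=
  LinearMap.BilinMap.toQuadraticMap (ttL X)

theorem qq_polar_basis (hsk : ∀ k i j, X.Gm k i j = X.Gm (X.τ k) j i) (hdiag : ∀ k i, X.τ k = k → X.Gm k i i = 0)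
    (a b : Ix d) : tt X a b + tt X b a = X.om a b := by
  classical
  obtain ⟨k, i⟩ := a
  obtain ⟨l, j⟩ := b
  simp only [tt, BF.om]
  by_cases h : X.τ k = l
  · by_cases h2 : X.τ k = k
    · obtain rfl : l = k := h.symm.trans h2
      simp only [if_pos h]
      by_cases h3 : (i : ℕ) < j
      · have h4 : ¬ (j : ℕ) < i := by omega
        have h5 : ¬ (j : ℕ) = i := by omega
        simp only [if_pos h3, if_neg h4, if_neg h5, add_zero]
      · by_cases h4 : (i : ℕ) = j
        · have e : i = j := Fin.ext h4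
          subst e
          simp only [lt_irrefl, if_false, if_true]
          rw [add_self', hdiag _ _ h]
        · have h5 : (j : ℕ) < i := by omega
          simp only [if_neg h3, if_neg h4, if_pos h5, zero_add]
          rw [hsk l i j, h]
    · subst h
      have h5 : X.τ (X.τ k) = k := X.hτ k
      have h6 : X.τ (X.τ k) ≠ X.τ k := by rw [h5]; exact fun e => h2 e.symm
      rw [if_pos rfl, if_neg h2, if_pos h5, if_neg h6, if_pos rfl]
      by_cases h7 : k < X.τ k
      · rw [if_pos h7, h5, if_neg (not_lt.mpr h7.le), add_zero]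
      · have h8 : X.τ k < k := lt_of_le_of_ne (not_lt.mp h7) h2
        rw [if_neg h7, h5, if_pos h8, zero_add, ← hsk]
  · have h2 : X.τ l ≠ k := by
      intro e
      apply h
      rw [← e, X.hτ]
    rw [if_neg h, if_neg h, if_neg h2, zero_add]

theorem tt_single (a b : Ix d) : ttL X (Pi.single a 1) (Pi.single b 1) = tt X a b := by
  rw [ttL_apply]
  simp [Matrix.mulVec_single_one, Matrix.col_apply]

theorem qq_polar (hsk : ∀ k i j, X.Gm k i j = X.Gm (X.τ k) j i) (hdiag : ∀ k i, X.τ k = k → X.Gm k i i = 0)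
    (x y : Ix d → F) : QuadraticMap.polar (qq X) x y = X.bf x y := by
  have h : ttL X + LinearMap.flip (ttL X) = X.bf := by
    apply LinearMap.BilinForm.ext_basis (Pi.basisFun F (Ix d))
    intro a b
    simp only [Pi.basisFun_apply, LinearMap.add_apply, LinearMap.flip_apply]
    rw [tt_single, tt_single, qq_polar_basis X hsk hdiag, BF.bf_single]
  have h2 := congrArg (fun B : LinearMap.BilinForm F (Ix d → F) => B x y) h
  simp only [LinearMap.add_apply, LinearMap.flip_apply] at h2
  rw [← h2]
  exact polar_toQ _ x y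

theorem qq_ee (k : Fin t) (i : ℕ) :
    qq X (ee F d k i) = if X.τ k = k ∧ 0 < i then X.Gm k (i - 1) i else 0 := by
  classical
  by_cases hi : i < d k
  · rw [ee_of_lt hi]
    show ttL X _ _ = _
    rw [tt_single]
    simp only [tt]
    by_cases h : X.τ k = k
    · by_cases h0 : 0 < i
      · simp only [if_pos h, lt_irrefl, if_false, if_true, if_pos h0, if_pos (And.intro h h0)]
      · simp only [if_pos h, lt_irrefl, if_false, if_true, if_neg h0, h0, and_false]
    · rw [if_neg h, if_neg (fun e => h e.1)]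
  · rw [ee_of_ge (by omega : d k ≤ i), map_zero]
    by_cases h : X.τ k = k ∧ 0 < i
    · rw [if_pos h, X.hzero]
      omega
    · rw [if_neg h]

theorem qq_inv (hsk : ∀ k i j, X.Gm k i j = X.Gm (X.τ k) j i) (hdiag : ∀ k i, X.τ k = k → X.Gm k i i = 0)
    (x : Ix d → F) : qq X (jL F d x) = qq X x := by
  classical
  have hbasis : ∀ a : Ix d, qq X (jL F d (Pi.single a 1)) = qq X (Pi.single a 1) := by
    intro a
    rw [ee_mk a, jL_ee, QuadraticMap.map_add (qq X), qq_polar X hsk hdiag, BF.bf_ee, qq_ee X a.1 ((a.2 : ℕ) + 1)]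
    by_cases h : X.τ a.1 = a.1
    · rw [if_pos h, if_pos ⟨h, by omega⟩]
      simp only [Nat.add_sub_cancel]
      rw [add_assoc, add_self', add_zero]
    · rw [if_neg h, if_neg (fun e => h e.1)]
      simp
  have hexp : ∀ s : Finset (Ix d), qq X (jL F d (∑ a ∈ s, x a • Pi.single a (1 : F))) =
      qq X (∑ a ∈ s, x a • Pi.single a (1 : F)) := by
    intro s
    induction s using Finset.induction_on with
    | empty => simp
    | insert a s ha ih =>
      rw [Finset.sum_insert ha]
      set u := ∑ a ∈ s, x a • Pi.single a (1 : F)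
      rw [map_add, QuadraticMap.map_add (qq X), QuadraticMap.map_add (qq X), ih, map_smul, QuadraticMap.map_smul,
        QuadraticMap.map_smul, hbasis a, qq_polar X hsk hdiag, qq_polar X hsk hdiag, map_smul, map_smul,
        LinearMap.smul_apply, LinearMap.smul_apply, X.bf_inv]
  have h := hexp Finset.univ
  have hx : ∑ a, x a • Pi.single a (1 : F) = x := by
    funext b
    simp [Finset.sum_apply, Pi.single_apply]
  rwa [hx] at h

end Two

/-- The theorem in characteristic two, backward direction. -/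
theorem backward_two [CharP F 2] {m : ℕ} (hsum : ∑ k, d k = 2 * m)
    (h : ∀ j : ℕ, Odd j → Even (Finset.univ.filter (fun k : Fin t => d k = j)).card) :
    ∃ Q : QuadraticForm F (Fin (2 * m) → F), (QuadraticMap.polarBilin Q).Nondegenerate ∧
      ∃ e : (Ix d) ≃ Fin (2 * m), ∃ A : ↥(Cfsg.isometryGroup F ⇑Q),
        IsConj (Matrix.reindex e e (Cfsg.jordanTypeMatrix d F))
          ((A : Matrix.GeneralLinearGroup (Fin (2 * m)) F) : Matrix (Fin (2 * m)) (Fin (2 * m)) F) := by
  classical
  have hP : ∀ j, Odd j → Even (Fintype.card (Kj d j)) := by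
    intro j hj
    rw [Fintype.card_subtype]
    exact h j hj
  obtain ⟨τ, h1, h2, h3, h4⟩ := exists_tau d Odd hP
  have hfix : ∀ k, τ k = k → Even (d k) := by
    intro k hk
    by_contra hne
    exact h3 k (Nat.not_even_iff_odd.mp hne) hk
  let X := spBF F d τ h1 h2
  have hsk' : ∀ k i j, X.Gm k i j = (-1) * X.Gm (X.τ k) j i := spBF_skew τ h1 h2 hfix
  have hsk : ∀ k i j, X.Gm k i j = X.Gm (X.τ k) j i := by
    intro k i j
    rw [hsk', neg_one_mul, neg_eq']
  have hdiag : ∀ k i, X.τ k = k → X.Gm k i i = 0 := fun k i hk => spBF_diag τ hfix k i hk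
  have hnd : X.bf.Nondegenerate := X.nondeg (-1) (by simp) hsk'
  have hcard : Fintype.card (Ix d) = Fintype.card (Fin (2 * m)) := by
    rw [Fintype.card_sigma, ← hsum]
    simp
  have hpol : ∀ x y, QuadraticMap.polarBilin (qq X) x y = X.bf x y := fun x y => qq_polar X hsk hdiag x y
  refine final_orth (Fintype.equivOfCardEq hcard) (qq X) ⟨?_, ?_⟩ (qq_inv X hsk hdiag)
  · intro x hx
    apply hnd.1
    intro y
    rw [← hpol]
    exact hx y
  · intro y hy
    apply hnd.2
    intro x
    rw [← hpol]
    exact hy x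

end Cfsg.Agent.Lib.Classical.Lin.JT4
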