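import Mathlib

/-!
Abstract part of the cross-characteristic degree bound: common eigenvectors of commuting
operators over an algebraically closed field, an additive character attached to a
common eigenvector and the bound of the dimension by the size of an orbit of characters.
-/

set_option autoImplicit false

namespace Cfsg.Agent.Lib.Classical.Lin.CrossSp

variable {L V : Type*} [Field L] [IsAlgClosed L] [AddCommGroup V] [Module L V]
  [FiniteDimensional L V]

/-- Commuting operators preserving a nonzero subspace have a common eigenvector there. -/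
theorem exists_common_eigenvector {ι : Type*} (T : ι → Module.End L V)
    (hT : ∀ i j, Commute (T i) (T j)) (W : Submodule L V) (hW : W ≠ ⊥)
    (hinv : ∀ i, ∀ w ∈ W, T i w ∈ W) :
    ∃ v ∈ W, v ≠ 0 ∧ ∀ i, ∃ c : L, T i v = c • v := by
  induction' hn : Module.finrank L W using Nat.strong_induction_on with n ih generalizing W
  by_cases h : ∀ i, ∃ c : L, ∀ w ∈ W, T i w = c • w
  · obtain ⟨v, hv, hv0⟩ := Submodule.exists_mem_ne_zero_of_ne_bot hW
    refine ⟨v, hv, hv0, fun i => ?_⟩
    obtain ⟨c, hc⟩ := h i
    exact ⟨c, hc v hv⟩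
  · push Not at h
    obtain ⟨i, hi⟩ := h
    have : Nontrivial W := Submodule.nontrivial_iff_ne_bot.mpr hW
    let Ti : Module.End L W := (T i).restrict (hinv i)
    obtain ⟨c, hc⟩ := Module.End.exists_eigenvalue Ti
    obtain ⟨w₀, hw₀⟩ := hc.exists_hasEigenvector
    have hw₀' : T i (w₀ : V) = c • (w₀ : V) := by
      have := hw₀.apply_eq_smul
      have h2 := congrArg (Subtype.val) this
      simpa [Ti] using h2
    have hw₀0 : (w₀ : V) ≠ 0 := by
      intro h0
      exact hw₀.2 (Subtype.ext h0)
    let W' : Submodule L V := W ⊓ Module.End.eigenspace (T i) c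
    have hW'mem : ∀ w, w ∈ W' ↔ w ∈ W ∧ T i w = c • w := by
      intro w
      simp [W']
    have hW'ne : W' ≠ ⊥ := by
      intro h0
      have : (w₀ : V) ∈ W' := (hW'mem _).2 ⟨w₀.2, hw₀'⟩
      rw [h0] at this
      exact hw₀0 (by simpa using this)
    have hlt : W' < W := by
      refine lt_of_le_of_ne inf_le_left ?_
      intro heq
      obtain ⟨w, hw, hne⟩ := hi c
      exact hne ((hW'mem w).1 (heq ▸ hw)).2
    have hfin : Module.finrank L W' < n := by
      rw [← hn]
      exact Submodule.finrank_lt_finrank_of_lt hlt
    obtain ⟨v, hv, hv0, hvi⟩ := ih _ hfin W' hW'ne (by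
      intro j w hw
      obtain ⟨hw1, hw2⟩ := (hW'mem w).1 hw
      refine (hW'mem _).2 ⟨hinv j w hw1, ?_⟩
      have := (hT i j).eq
      have h3 := congrArg (fun f : Module.End L V => f w) this
      simp only [Module.End.mul_apply] at h3
      rw [h3, hw2, map_smul]) rfl
    exact ⟨v, hlt.le hv, hv0, hvi⟩

/-- A common eigenvector on which a prescribed element of `p`-power torsion acts nontrivially. -/
theorem exists_char {A G : Type*} [AddCommGroup A] [Group G] (π : G →* Module.End L V)
    (x : A → G) (hx : ∀ a b, x (a + b) = x a * x b) (z : A) (p : ℕ) (hp : (p : L) ≠ 0)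
    (hpz : p • z = 0) (hz : π (x z) ≠ 1) :
    ∃ (v : V) (μ : AddChar A L), v ≠ 0 ∧ (∀ a, π (x a) v = μ a • v) ∧ μ z ≠ 1 := by
  classical
  have hx0 : x 0 = 1 := by
    have := hx 0 0
    rw [add_zero] at this
    exact (mul_eq_left.mp this.symm)
  have hxn : ∀ k : ℕ, x (k • z) = x z ^ k := by
    intro k
    induction k with
    | zero => simpa using hx0
    | succ k ih => rw [succ_nsmul, hx, ih, pow_succ]
  have hcomm : ∀ a b, Commute (π (x a)) (π (x b)) := by
    intro a b
    change π (x a) * π (x b) = π (x b) * π (x a)
    rw [← map_mul, ← map_mul, ← hx, ← hx, add_comm]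
  set T : Module.End L V := π (x z) with hT
  have hTp : T ^ p = 1 := by
    rw [hT, ← map_pow, ← hxn, hpz, hx0, map_one]
  let Φ : Module.End L V := ∑ i ∈ Finset.range p, T ^ i
  have hΦ : Φ * (T - 1) = 0 := by
    have := geom_sum_mul T p
    rw [hTp, sub_self] at this
    exact this
  let W : Submodule L V := LinearMap.ker Φ
  have hWne : W ≠ ⊥ := by
    intro h0
    apply hz
    have hinj : Function.Injective Φ := LinearMap.ker_eq_bot.mp h0
    have : T - 1 = 0 := by
      ext y
      apply hinj
      have h1 := congrArg (fun f : Module.End L V => f y) hΦ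
      simpa using h1
    exact sub_eq_zero.mp this
  have hΦc : ∀ a, Commute (π (x a)) Φ := by
    intro a
    exact Commute.sum_right _ _ _ (fun i _ => (hcomm a z).pow_right i)
  obtain ⟨v, hvW, hv0, hv⟩ := exists_common_eigenvector (fun a : A => π (x a))
    (fun a b => hcomm a b) W hWne (by
      intro a w hw
      have hw' : Φ w = 0 := hw
      change Φ (π (x a) w) = 0
      have := (hΦc a).eq
      have h3 := congrArg (fun f : Module.End L V => f w) this
      simp only [Module.End.mul_apply] at h3
      rw [← h3, hw', map_zero])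
  choose c hc using hv
  have hsmul : ∀ {u u' : L}, u • v = u' • v → u = u' := by
    intro u u' h
    exact smul_left_injective L hv0 h
  have h0 : c 0 = 1 := by
    apply hsmul
    rw [← hc, hx0, map_one, one_smul]
    rfl
  have hadd : ∀ a b, c (a + b) = c a * c b := by
    intro a b
    apply hsmul
    rw [← hc, hx, map_mul, Module.End.mul_apply, hc b, map_smul, hc a, smul_smul, mul_comm]
  let μ : AddChar A L :=
    { toFun := c
      map_zero_eq_one' := h0
      map_add_eq_mul' := hadd }
  refine ⟨v, μ, hv0, fun a => hc a, ?_⟩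
  intro h1
  have hc1 : c z = 1 := h1
  have hTv : T v = v := by
    rw [hT, hc z, hc1, one_smul]
  have hpow : ∀ k : ℕ, (T ^ k) v = v := by
    intro k
    induction k with
    | zero => simp
    | succ k ih => rw [pow_succ, Module.End.mul_apply, hTv, ih]
  have hΦv : Φ v = (p : L) • v := by
    simp only [Φ, LinearMap.sum_apply, hpow]
    simp [Nat.cast_smul_eq_nsmul]
  have hΦ0 : Φ v = 0 := hvW
  rw [hΦv] at hΦ0
  rcases smul_eq_zero.mp hΦ0 with h | h
  · exact hp h
  · exact hv0 h

/-- Dimension bound from an orbit of pairwise distinct characters. -/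
theorem card_le_of_orbit {A G ι : Type*} [AddCommGroup A] [Finite A] [Group G] [Fintype ι]
    (π : G →* Module.End L V) (x : A → G) (v : V) (hv : v ≠ 0) (μ : AddChar A L)
    (hμ : ∀ a, π (x a) v = μ a • v) (h : ι → G) (σ : ι → A → A)
    (hσ : ∀ i a, h i * x a * (h i)⁻¹ = x (σ i a))
    (μ' : ι → AddChar A L) (hμ' : ∀ i a, μ' i a = μ (σ i a))
    (hinj : Function.Injective μ') :
    Fintype.card ι ≤ Module.finrank L V := by
  classical
  let w : ι → V := fun i => π (h i)⁻¹ v
  have hunit : ∀ g : G, π g⁻¹ * π g = 1 := by
    intro g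
    rw [← map_mul, inv_mul_cancel, map_one]
  have hw0 : ∀ i, w i ≠ 0 := by
    intro i h0
    apply hv
    have h1 := congrArg (fun f : Module.End L V => f v) (show π (h i) * π (h i)⁻¹ = 1 by
      rw [← map_mul, mul_inv_cancel, map_one])
    simp only [Module.End.mul_apply, Module.End.one_apply] at h1
    rw [← h1]
    change π (h i) (w i) = 0
    rw [h0, map_zero]
  have hw : ∀ i a, π (x a) (w i) = μ' i a • w i := by
    intro i a
    have h2 : x a * (h i)⁻¹ = (h i)⁻¹ * x (σ i a) := by
      rw [← hσ]
      group
    change π (x a) (π (h i)⁻¹ v) = _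
    rw [← Module.End.mul_apply, ← map_mul, h2, map_mul, Module.End.mul_apply, hμ, map_smul, hμ']
  have hli : LinearIndependent L w := by
    rw [linearIndependent_iff']
    intro s g hg i hi
    by_contra hgi
    obtain ⟨f, hf⟩ : ∃ f : Module.Dual L V, f (w i) ≠ 0 := by
      by_contra hall
      push Not at hall
      exact hw0 i ((Module.forall_dual_apply_eq_zero_iff L _).mp hall)
    have hchar : LinearIndependent L (fun j : ι => (((μ' j).toMonoidHom : Multiplicative A →* L) :
        Multiplicative A → L)) :=
      (linearIndependent_monoidHom (Multiplicative A) L).comp (fun j => (μ' j).toMonoidHom)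
        (fun i j hij => hinj (AddChar.toMonoidHomEquiv.injective hij))
    rw [linearIndependent_iff'] at hchar
    have := hchar s (fun j => g j * f (w j)) (by
      funext a
      have h3 := congrArg (fun y => f (π (x a.toAdd) y)) hg
      simp only [map_sum, map_smul, map_zero, hw, smul_eq_mul] at h3
      simp only [Finset.sum_apply, Pi.smul_apply, smul_eq_mul, Pi.zero_apply,
        AddChar.toMonoidHom_apply]
      rw [← h3]
      refine Finset.sum_congr rfl (fun j _ => ?_)
      ring) i hi
    exact (mul_ne_zero hgi hf) this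
  exact hli.fintype_card_le_finrank

end Cfsg.Agent.Lib.Classical.Lin.CrossSp
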