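import Cfsg.Agent.Lib.Classical.Lin.CrossSp1

/-!
Concrete part: root-type subgroup of `Sp_{2(m+1)}(F)` inside the Siegel radical, the torus and the
Levi unipotent elements normalising it, and the resulting lower bound for a representation
with central kernel over an algebraically closed field of characteristic different from that of `F`.
-/

set_option autoImplicit false

open Matrix

namespace Cfsg.Agent.Lib.Classical.Lin.CrossSp

variable {F : Type*} [Field F] {m : ℕ}

/-- The first basis vector. -/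
def ee (F : Type*) [Field F] (m : ℕ) : Fin (m + 1) → F := Pi.single 0 1

/-- The symmetric matrix `c e eᵀ + e bᵀ + b eᵀ`. -/
def symB (c : F) (b : Fin (m + 1) → F) : Matrix (Fin (m + 1)) (Fin (m + 1)) F :=
  c • vecMulVec (ee F m) (ee F m) + vecMulVec (ee F m) b + vecMulVec b (ee F m)

theorem symB_transpose (c : F) (b : Fin (m + 1) → F) : (symB c b)ᵀ = symB c b := by
  ext i j
  simp only [symB, transpose_apply, Matrix.add_apply, Matrix.smul_apply, vecMulVec_apply, smul_eq_mul]
  ring

theorem symB_add (c c' : F) (b b' : Fin (m + 1) → F) :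
    symB (c + c') (b + b') = symB c b + symB c' b' := by
  ext i j
  simp only [symB, Matrix.add_apply, Matrix.smul_apply, vecMulVec_apply, smul_eq_mul, Pi.add_apply]
  ring

theorem upper_mem (B : Matrix (Fin (m + 1)) (Fin (m + 1)) F) (hB : Bᵀ = B) :
    fromBlocks 1 B 0 1 ∈ symplecticGroup (Fin (m + 1)) F := by
  rw [SymplecticGroup.mem_iff]
  simp [J, fromBlocks_transpose, fromBlocks_multiply, hB]

theorem lower_mem (B : Matrix (Fin (m + 1)) (Fin (m + 1)) F) (hB : Bᵀ = B) :
    fromBlocks 1 0 B 1 ∈ symplecticGroup (Fin (m + 1)) F := by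
  rw [SymplecticGroup.mem_iff]
  simp [J, fromBlocks_transpose, fromBlocks_multiply, hB]

theorem levi_mem (g g' : Matrix (Fin (m + 1)) (Fin (m + 1)) F) (h : g * g'ᵀ = 1) :
    fromBlocks g 0 0 g' ∈ symplecticGroup (Fin (m + 1)) F := by
  rw [SymplecticGroup.mem_iff]
  have h' : g' * gᵀ = 1 := by
    have := congrArg transpose h
    simpa [transpose_mul] using this
  simp [J, fromBlocks_transpose, fromBlocks_multiply, h, h']

/-- The elements of the root-type subgroup. -/
def xx (a : F × (Fin (m + 1) → F)) : symplecticGroup (Fin (m + 1)) F :=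
  ⟨fromBlocks 1 (symB a.1 a.2) 0 1, upper_mem _ (symB_transpose _ _)⟩

theorem xx_add (a a' : F × (Fin (m + 1) → F)) : xx (a + a') = xx a * xx a' := by
  apply Subtype.ext
  simp [xx, fromBlocks_multiply, symB_add, add_comm]

/-- Elements of the Levi subgroup. -/
def levi (g g' : Matrix (Fin (m + 1)) (Fin (m + 1)) F) (h : g * g'ᵀ = 1) :
    symplecticGroup (Fin (m + 1)) F :=
  ⟨fromBlocks g 0 0 g', levi_mem g g' h⟩

theorem levi_conj (g g' : Matrix (Fin (m + 1)) (Fin (m + 1)) F) (h : g * g'ᵀ = 1)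
    (a a' : F × (Fin (m + 1) → F)) (ha : g * symB a.1 a.2 * gᵀ = symB a'.1 a'.2) :
    levi g g' h * xx a = xx a' * levi g g' h := by
  apply Subtype.ext
  have h1 : gᵀ * g' = 1 := by
    have h2 : g'ᵀ * g = 1 := mul_eq_one_comm.mp h
    have := congrArg transpose h2
    simpa [transpose_mul] using this
  have h3 : symB a'.1 a'.2 * g' = g * symB a.1 a.2 := by
    rw [← ha, Matrix.mul_assoc, h1, Matrix.mul_one]
  simp [levi, xx, fromBlocks_multiply, h3]

/-- The diagonal entries of a torus element. -/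
def dd (t : F) : Fin (m + 1) → F := Fin.cons t (fun _ => 1)

theorem dd_mul (t t' : F) : (dd t : Fin (m + 1) → F) * dd t' = dd (t * t') := by
  funext i
  refine Fin.cases ?_ (fun j => ?_) i <;> simp [dd]

theorem dd_one : (dd 1 : Fin (m + 1) → F) = 1 := by
  funext i
  refine Fin.cases ?_ (fun j => ?_) i <;> simp [dd]

/-- Torus element. -/
def hh (t : Fˣ) : symplecticGroup (Fin (m + 1)) F :=
  levi (diagonal (dd (t : F))) (diagonal (dd ((t⁻¹ : Fˣ) : F))) (by
    rw [diagonal_transpose, diagonal_mul_diagonal]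
    have : (fun i : Fin (m + 1) => (dd (t : F) : Fin (m + 1) → F) i * dd ((t⁻¹ : Fˣ) : F) i)
        = 1 := by
      have h2 := dd_mul (m := m) (t : F) ((t⁻¹ : Fˣ) : F)
      rw [Units.mul_inv, dd_one] at h2
      exact h2
    rw [this]
    exact diagonal_one)

theorem dd_ee (t : F) : (dd t : Fin (m + 1) → F) * ee F m = t • ee F m := by
  funext i
  refine Fin.cases ?_ (fun j => ?_) i <;> simp [dd, ee]

theorem hh_conj (t : Fˣ) (c : F) (b : Fin (m + 1) → F) :
    hh t * xx (c, b) = xx (c * (t : F) ^ 2, (t : F) • (dd (t : F) * b)) * hh t := by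
  apply levi_conj
  simp only [symB]
  ext i j
  simp only [Matrix.mul_apply, Matrix.add_apply, Matrix.smul_apply, vecMulVec_apply, smul_eq_mul, diagonal_transpose,
    Pi.mul_apply, Pi.smul_apply, diagonal_apply]
  simp [Finset.sum_ite_eq, Finset.sum_ite_eq', mul_ite]
  simp only [ee, dd, Pi.single_apply]
  refine Fin.cases ?_ (fun i' => ?_) i <;> refine Fin.cases ?_ (fun j' => ?_) j <;>
    simp [Fin.succ_ne_zero] <;> ring

/-- The vector of the Levi unipotent element: `0` in the first coordinate. -/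
def wt (w : Fin m → F) : Fin (m + 1) → F := Fin.cons 0 w

theorem wt_ee (w : Fin m → F) : wt w ⬝ᵥ ee F m = 0 := by
  simp [wt, ee, dotProduct, Fin.sum_univ_succ]

/-- Levi unipotent element. -/
def nn (w : Fin m → F) : symplecticGroup (Fin (m + 1)) F :=
  levi (1 + vecMulVec (ee F m) (wt w)) (1 - vecMulVec (wt w) (ee F m)) (by
    rw [transpose_sub, transpose_one, transpose_vecMulVec, Matrix.add_mul, Matrix.mul_sub,
      Matrix.mul_sub, Matrix.one_mul, Matrix.mul_one, Matrix.one_mul]
    have : vecMulVec (ee F m) (wt w) * vecMulVec (ee F m) (wt w) = 0 := by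
      ext i j
      simp only [Matrix.mul_apply, vecMulVec_apply, Matrix.zero_apply]
      have h2 : ∑ k, ee F m i * wt w k * (ee F m k * wt w j)
          = ee F m i * (wt w ⬝ᵥ ee F m) * wt w j := by
        simp only [dotProduct, Finset.mul_sum, Finset.sum_mul]
        refine Finset.sum_congr rfl (fun k _ => ?_)
        ring
      rw [h2, wt_ee]
      ring
    rw [this]
    simp)

theorem nn_conj (w : Fin m → F) (c : F) (b : Fin (m + 1) → F) :
    nn w * xx (c, b) = xx (c + 2 * (wt w ⬝ᵥ b), b) * nn w := by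
  apply levi_conj
  have h1 : (1 + vecMulVec (ee F m) (wt w)) *ᵥ ee F m = ee F m := by
    rw [Matrix.add_mulVec, Matrix.one_mulVec, vecMulVec_mulVec, wt_ee]
    simp
  have h2 : (1 + vecMulVec (ee F m) (wt w)) *ᵥ b = b + (wt w ⬝ᵥ b) • ee F m := by
    rw [Matrix.add_mulVec, Matrix.one_mulVec, vecMulVec_mulVec, op_smul_eq_smul]
  generalize 1 + vecMulVec (ee F m) (wt w) = G at h1 h2
  have key : ∀ u v : Fin (m + 1) → F, G * vecMulVec u v * Gᵀ = vecMulVec (G *ᵥ u) (G *ᵥ v) := by
    intro u v
    rw [mul_vecMulVec, vecMulVec_mul, vecMul_transpose]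
  simp only [symB, Matrix.mul_add, Matrix.add_mul, Matrix.mul_smul, Matrix.smul_mul, key, h1, h2]
  ext i j
  simp only [Matrix.add_apply, Matrix.smul_apply, vecMulVec_apply, smul_eq_mul, Pi.add_apply,
    Pi.smul_apply]
  ring

theorem xx_not_central :
    ∃ g : symplecticGroup (Fin (m + 1)) F, g * xx ((1 : F), 0) ≠ xx ((1 : F), 0) * g := by
  have hE : (symB (1 : F) (0 : Fin (m + 1) → F))ᵀ = symB (1 : F) 0 := symB_transpose _ _
  refine ⟨⟨fromBlocks 1 0 (symB (1 : F) 0) 1, lower_mem _ hE⟩, ?_⟩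
  intro h
  have h1 := congrArg (fun g : symplecticGroup (Fin (m + 1)) F =>
    (g : Matrix (Fin (m + 1) ⊕ Fin (m + 1)) (Fin (m + 1) ⊕ Fin (m + 1)) F)
      (Sum.inr 0) (Sum.inr 0)) h
  simp [xx, fromBlocks_multiply, symB, ee, Matrix.mul_apply, vecMulVec_apply, Pi.single_apply] at h1


/-- The additive action of the index `(t, w)` on the subgroup. -/
def sg (t : Fˣ) (w : Fin m → F) : (F × (Fin (m + 1) → F)) →+ (F × (Fin (m + 1) → F)) :=
  AddMonoidHom.mk' (fun a => ((a.1 + 2 * (wt w ⬝ᵥ a.2)) * (t : F) ^ 2,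
      (t : F) • (dd (t : F) * a.2))) (by
    intro a a'
    ext i
    · simp only [Prod.fst_add, Prod.snd_add, dotProduct_add]
      ring
    · simp only [Prod.snd_add, Pi.add_apply, Pi.smul_apply, Pi.mul_apply, smul_eq_mul]
      ring)

theorem sg_conj (t : Fˣ) (w : Fin m → F) (a : F × (Fin (m + 1) → F)) :
    (hh t * nn w) * xx a * (hh t * nn w)⁻¹ = xx (sg t w a) := by
  rw [mul_inv_eq_iff_eq_mul]
  obtain ⟨c, b⟩ := a
  calc hh t * nn w * xx (c, b) = hh t * (nn w * xx (c, b)) := by group
    _ = hh t * (xx (c + 2 * (wt w ⬝ᵥ b), b) * nn w) := by rw [nn_conj]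
    _ = (hh t * xx (c + 2 * (wt w ⬝ᵥ b), b)) * nn w := by group
    _ = xx (sg t w (c, b)) * hh t * nn w := by rw [hh_conj]; rfl
    _ = xx (sg t w (c, b)) * (hh t * nn w) := by group

section main

variable [Fintype F] {L : Type*} [Field L] [IsAlgClosed L] {d : ℕ}

/-- The bound for representations over an algebraically closed field. -/
theorem card_le_of_rep (h2 : (2 : F) ≠ 0)
    (hp : ((ringChar F : ℕ) : L) ≠ 0)
    (π : symplecticGroup (Fin (m + 1)) F →* Module.End L (Fin d → L))
    (hπ : ∀ g, π g = 1 → g ∈ Subgroup.center (symplecticGroup (Fin (m + 1)) F)) :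
    Fintype.card F ^ m * (Fintype.card F - 1) / 2 ≤ d := by
  classical
  -- a character nontrivial on the root group
  have hz : π (xx ((1 : F), 0)) ≠ 1 := by
    intro h1
    obtain ⟨g, hg⟩ := xx_not_central (F := F) (m := m)
    exact hg ((Subgroup.mem_center_iff.mp (hπ _ h1)) g)
  have hpz : (ringChar F) • (((1 : F), 0) : F × (Fin (m + 1) → F)) = 0 := by
    ext i
    · simp
    · simp
  obtain ⟨v, μ, hv0, hv, hμz⟩ := exists_char π xx xx_add ((1 : F), 0) (ringChar F) hp hpz hz
  -- the set of squares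
  obtain ⟨S, hSmem⟩ : ∃ S : Finset F, ∀ x, x ∈ S ↔ ∃ t : Fˣ, (t : F) ^ 2 = x :=
    ⟨(Finset.univ : Finset Fˣ).image (fun t => (t : F) ^ 2), by simp⟩
  have hS : ∀ s : S, ∃ t : Fˣ, (t : F) ^ 2 = s := fun s => (hSmem _).mp s.2
  choose r hr using hS
  have hcardS : Fintype.card F - 1 ≤ 2 * S.card := by
    rw [← Fintype.card_units, ← Finset.card_univ]
    refine (Finset.card_le_mul_card_image (f := fun t : Fˣ => (t : F) ^ 2)
      (Finset.univ : Finset Fˣ) 2 ?_).trans ?_
    · intro a ha
      obtain ⟨t₀, -, rfl⟩ := Finset.mem_image.mp ha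
      have : (Finset.univ.filter (fun x : Fˣ => (x : F) ^ 2 = (t₀ : F) ^ 2))
          ⊆ ({t₀, -t₀} : Finset Fˣ) := by
        intro x hx
        have hx' := (Finset.mem_filter.mp hx).2
        rcases sq_eq_sq_iff_eq_or_eq_neg.mp hx' with h | h
        · simp [Units.ext h]
        · have : x = -t₀ := Units.ext (by simpa using h)
          simp [this]
      exact (Finset.card_le_card this).trans Finset.card_le_two
    · refine Nat.mul_le_mul_left 2 (Finset.card_le_card ?_)
      intro x hx
      obtain ⟨t, -, rfl⟩ := Finset.mem_image.mp hx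
      exact (hSmem _).mpr ⟨t, rfl⟩
  -- cancellation in characters
  have hcancel : ∀ a b : F × (Fin (m + 1) → F), μ (a + b) = μ a → μ b = 1 := by
    intro a b hab
    rw [AddChar.map_add_eq_mul] at hab
    have hne : μ a ≠ 0 := (μ.val_isUnit a).ne_zero
    exact mul_left_cancel₀ hne (by rw [hab, mul_one])
  have hsg : ∀ (t : Fˣ) (w : Fin m → F) (c : F) (b : Fin (m + 1) → F),
      sg t w (c, b) = ((c + 2 * (wt w ⬝ᵥ b)) * (t : F) ^ 2, (t : F) • (dd (t : F) * b)) :=
    fun _ _ _ _ => rfl
  -- the index set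
  have hinj : Function.Injective
      (fun i : S × (Fin m → F) => μ.compAddMonoidHom (sg (r i.1) i.2)) := by
    rintro ⟨s, w⟩ ⟨s', w'⟩ hij
    have hval : ∀ a, μ (sg (r s) w a) = μ (sg (r s') w' a) := fun a =>
      congrArg (fun χ : AddChar (F × (Fin (m + 1) → F)) L => χ a) hij
    have hss : s = s' := by
      by_contra hne
      have hne' : (s : F) - s' ≠ 0 := sub_ne_zero.mpr (fun h => hne (Subtype.ext h))
      have h1 := hval (((s : F) - s')⁻¹, 0)
      simp only [hsg, dotProduct_zero, mul_zero, add_zero, smul_zero, hr] at h1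
      apply hμz
      apply hcancel (((s : F) - s')⁻¹ * s', 0)
      have h3 : (((s : F) - s')⁻¹ * s', (0 : Fin (m + 1) → F)) + ((1 : F), 0)
          = (((s : F) - s')⁻¹ * s, 0) := by
        ext i
        · simp only [Prod.fst_add]
          field_simp
          ring
        · simp
      rw [h3, h1]
    subst hss
    have hww : w = w' := by
      by_contra hne
      obtain ⟨j, hj⟩ := Function.ne_iff.mp hne
      have hj' : w j - w' j ≠ 0 := sub_ne_zero.mpr hj
      have ht : ((r s : Fˣ) : F) ^ 2 ≠ 0 := pow_ne_zero _ (r s).ne_zero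
      set y : F := (2 * (w j - w' j) * ((r s : Fˣ) : F) ^ 2)⁻¹ with hy
      have h1 := hval (0, Pi.single j.succ y)
      simp only [hsg, dotProduct_single] at h1
      have hwt : ∀ u : Fin m → F, wt u j.succ = u j := fun u => by simp [wt]
      rw [hwt, hwt] at h1
      apply hμz
      apply hcancel ((0 + 2 * (w' j * y)) * ((r s : Fˣ) : F) ^ 2, _)
      have h3 : (((0 + 2 * (w' j * y)) * ((r s : Fˣ) : F) ^ 2,
          ((r s : Fˣ) : F) • (dd ((r s : Fˣ) : F) * Pi.single j.succ y)) :
            F × (Fin (m + 1) → F)) + ((1 : F), 0)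
          = ((0 + 2 * (w j * y)) * ((r s : Fˣ) : F) ^ 2,
          ((r s : Fˣ) : F) • (dd ((r s : Fˣ) : F) * Pi.single j.succ y)) := by
        ext i
        · simp only [Prod.fst_add, hy]
          field_simp
          ring
        · simp
      rw [h3, h1]
    rw [hww]
  have hcard := card_le_of_orbit π xx v hv0 μ hv
    (fun i : S × (Fin m → F) => hh (r i.1) * nn i.2) (fun i a => sg (r i.1) i.2 a)
    (fun i a => sg_conj (r i.1) i.2 a)
    (fun i : S × (Fin m → F) => μ.compAddMonoidHom (sg (r i.1) i.2)) (fun _ _ => rfl) hinj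
  rw [Module.finrank_fin_fun, Fintype.card_prod, Fintype.card_coe, Fintype.card_fun,
    Fintype.card_fin] at hcard
  refine Nat.div_le_of_le_mul ?_
  calc Fintype.card F ^ m * (Fintype.card F - 1)
      ≤ Fintype.card F ^ m * (2 * S.card) := Nat.mul_le_mul_left _ hcardS
    _ = 2 * (S.card * Fintype.card F ^ m) := by ring
    _ ≤ 2 * d := Nat.mul_le_mul_left _ hcard

end main

end Cfsg.Agent.Lib.Classical.Lin.CrossSp
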