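import Mathlib
import Cfsg.Agent.Lib.ChevIso.D4Lie

/-!
# Automorphisms of the Lie algebra of type `D₄` scaling root lines
-/

set_option autoImplicit false
set_option linter.unusedSectionVars false
set_option linter.unusedSimpArgs false
set_option linter.unusedVariables false

namespace Cfsg.Agent.Lib.Classical.Lin.D4Tor1

open Cfsg.Lie Matrix Cfsg.Agent.Lib.Chevalley.Reflect Cfsg.Agent.Lib.ChevIso.Bracket
open Cfsg.Agent.Lib.ChevIso.D4Tbl (cl)
open Cfsg.Agent.Lib.ChevIso.D4Lie (aut_root)

variable {F : Type*} [Field F]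

/-- Matrices on the Lie algebra. -/
abbrev M28 (F : Type*) := Matrix chevD4.Idx chevD4.Idx F

/-- Coordinates of the root part. -/
abbrev rc (r : Fin 24) : chevD4.Idx := Sum.inr r
/-- Coordinates of the Cartan part. -/
abbrev hc (i : Fin 4) : chevD4.Idx := Sum.inl i

theorem aut_of_mem {g : GL chevD4.Idx F} (hg : g ∈ chevD4.group F) :
    IsAut chevD4 cl (g : M28 F) := by
  rw [ChevalleyDatum.group] at hg
  induction hg using Subgroup.closure_induction with
  | mem x hx =>
    obtain ⟨r, t, hx⟩ := hx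
    rw [hx]
    exact aut_root r t
  | one => exact IsAut.one
  | mul x y _ _ hx hy => rw [Units.val_mul]; exact hx.mul hy
  | inv x _ hx =>
    exact hx.inv (by rw [← Units.val_mul, mul_inv_cancel, Units.val_one])
      (by rw [← Units.val_mul, inv_mul_cancel, Units.val_one])

/-- The line of `a` is scaled by `k`. -/
def Ln (g : M28 F) (a : chevD4.Idx) (k : F) : Prop :=
  g *ᵥ Pi.single a 1 = k • Pi.single a (1 : F)

lemma vP_single {c : chevD4.Idx} {m : ℤ} :
    vP chevD4 F [(code chevD4 c, m)] = (m : F) • Pi.single c (1 : F) := by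
  funext k
  simp only [vP, List.map_cons, List.map_nil, List.sum_cons, List.sum_nil, add_zero, Pi.smul_apply,
    Pi.single_apply, smul_eq_mul, mul_ite, mul_one, mul_zero]
  by_cases h : k = c
  · subst h; simp
  · have : code chevD4 c ≠ code chevD4 k := fun h' => h (code_inj chevD4 h').symm
    simp [h, this]

theorem Ln.br' {g : M28 F} (hg : IsAut chevD4 cl g) {a b c : chevD4.Idx} {k k' : F} (h : Ln g a k)
    (h' : Ln g b k') {m : F} (hm : m ≠ 0)
    (hc : vP chevD4 F (cB chevD4 cl (code chevD4 a) (code chevD4 b)) = m • Pi.single c (1 : F)) :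
    Ln g c (k * k') := by
  have h1 := hg (Pi.single a 1) (Pi.single b 1)
  rw [brL_single, hc, h, h'] at h1
  simp only [map_smul, LinearMap.smul_apply, brL_single, hc, Matrix.mulVec_smul, smul_smul] at h1
  have h2 : m • (g *ᵥ Pi.single c 1) = m • ((k * k') • Pi.single c (1 : F)) := by
    rw [h1, smul_smul]
    ring_nf
  exact smul_right_injective _ hm h2

theorem Ln.br {g : M28 F} (hg : IsAut chevD4 cl g) {a b c : chevD4.Idx} {k k' : F} (h : Ln g a k)
    (h' : Ln g b k') {m : ℤ} (hm : m = 1 ∨ m = -1)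
    (hc : cB chevD4 cl (code chevD4 a) (code chevD4 b) = [(code chevD4 c, m)]) :
    Ln g c (k * k') := by
  refine Ln.br' hg h h' (m := (m : F)) ?_ (by rw [hc, vP_single])
  rcases hm with rfl | rfl <;> simp

lemma vP_h {i : chevD4.Idx} {L : List (ℕ × ℤ)} (j : ℕ) (hL : ∀ p ∈ L, p.2 = 0 ∨ p = (code chevD4 i, 1))
    (hn : (L.filter (fun p => p.2 ≠ 0)) = [(code chevD4 i, 1)]) :
    vP chevD4 F L = Pi.single i (1 : F) := by
  have key : ∀ L' : List (ℕ × ℤ), vP chevD4 F L' = vP chevD4 F (L'.filter (fun p => p.2 ≠ 0)) := by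
    intro L'
    induction L' with
    | nil => rfl
    | cons p L' ih =>
      funext k
      have e := congrFun ih k
      simp only [vP, List.map_cons, List.sum_cons] at e ⊢
      by_cases hp : p.2 = 0
      · simp only [List.filter_cons, hp]
        simp only [ne_eq, not_true_eq_false, decide_false, Bool.false_eq_true, if_false]
        rw [e]
        simp
      · simp only [List.filter_cons, hp, ne_eq, not_false_eq_true, decide_true, if_true,
          List.map_cons, List.sum_cons, e]
  rw [key, hn, vP_single]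
  simp

theorem Ln.unique {g : M28 F} {a : chevD4.Idx} {k k' : F} (h : Ln g a k) (h' : Ln g a k') : k = k' := by
  have h1 := h.symm.trans h'
  have := congrFun h1 a
  simpa using this

theorem Ln.ne_zero {g : GL chevD4.Idx F} {a : chevD4.Idx} {k : F} (h : Ln (g : M28 F) a k) : k ≠ 0 := by
  rintro rfl
  have h1 : ((g⁻¹ : GL chevD4.Idx F) : M28 F) *ᵥ ((g : M28 F) *ᵥ Pi.single a 1) = Pi.single a 1 := by
    rw [Matrix.mulVec_mulVec, ← Units.val_mul, inv_mul_cancel, Units.val_one, Matrix.one_mulVec]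
  rw [h, zero_smul, Matrix.mulVec_zero] at h1
  have := congrFun h1 a
  simp at this

/-- The twelve root lines generate. -/
theorem eq_one_of_lines {g : M28 F} (hg : IsAut chevD4 cl g)
    (h18 : Ln g (rc 18) 1) (h19 : Ln g (rc 19) 1) (h13 : Ln g (rc 13) 1) (h16 : Ln g (rc 16) 1)
    (h12 : Ln g (rc 12) 1) (h15 : Ln g (rc 15) 1) (h5 : Ln g (rc 5) 1) (h4 : Ln g (rc 4) 1)
    (h10 : Ln g (rc 10) 1) (h7 : Ln g (rc 7) 1) (h11 : Ln g (rc 11) 1) (h8 : Ln g (rc 8) 1) :
    g = 1 := by
  have t : ∀ {a b c : chevD4.Idx} {m : ℤ}, Ln g a 1 → Ln g b 1 → (m = 1 ∨ m = -1) →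
      cB chevD4 cl (code chevD4 a) (code chevD4 b) = [(code chevD4 c, m)] → Ln g c 1 := by
    intro a b c m ha hb hm hc
    have := Ln.br hg ha hb hm hc
    rwa [mul_one] at this
  have h14 : Ln g (rc 14) 1 := t h19 h5 (m := 1) (by simp) (by decide +kernel)
  have h9 : Ln g (rc 9) 1 := t h18 h4 (m := 1) (by simp) (by decide +kernel)
  have h21 : Ln g (rc 21) 1 := t h19 h13 (m := -1) (by simp) (by decide +kernel)
  have h20 : Ln g (rc 20) 1 := t h19 h12 (m := -1) (by simp) (by decide +kernel)
  have h17 : Ln g (rc 17) 1 := t h16 h12 (m := -1) (by simp) (by decide +kernel)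
  have h22 : Ln g (rc 22) 1 := t h21 h12 (m := -1) (by simp) (by decide +kernel)
  have h23 : Ln g (rc 23) 1 := t h22 h14 (m := -1) (by simp) (by decide +kernel)
  have h2 : Ln g (rc 2) 1 := t h4 h10 (m := 1) (by simp) (by decide +kernel)
  have h3 : Ln g (rc 3) 1 := t h4 h11 (m := 1) (by simp) (by decide +kernel)
  have h6 : Ln g (rc 6) 1 := t h7 h11 (m := 1) (by simp) (by decide +kernel)
  have h1 : Ln g (rc 1) 1 := t h2 h11 (m := 1) (by simp) (by decide +kernel)
  have h0 : Ln g (rc 0) 1 := t h1 h9 (m := 1) (by simp) (by decide +kernel)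
  have t' : ∀ {a b c : chevD4.Idx}, Ln g a 1 → Ln g b 1 →
      vP chevD4 F (cB chevD4 cl (code chevD4 a) (code chevD4 b)) = Pi.single c (1 : F) → Ln g c 1 := by
    intro a b c ha hb hc
    have := Ln.br' hg ha hb (m := 1) one_ne_zero (by rw [hc, one_smul])
    rwa [mul_one] at this
  have c0 : Ln g (hc 0) 1 := t' h18 h5 (vP_h 0 (by decide +kernel) (by decide +kernel))
  have c1 : Ln g (hc 1) 1 := t' h14 h9 (vP_h 0 (by decide +kernel) (by decide +kernel))
  have c2 : Ln g (hc 2) 1 := t' h13 h10 (vP_h 0 (by decide +kernel) (by decide +kernel))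
  have c3 : Ln g (hc 3) 1 := t' h12 h11 (vP_h 0 (by decide +kernel) (by decide +kernel))
  have hall : ∀ a : chevD4.Idx, Ln g a 1 := by
    intro a
    rcases a with i | s
    · change Fin 4 at i
      fin_cases i
      exacts [c0, c1, c2, c3]
    · change Fin 24 at s
      fin_cases s
      exacts [h0, h1, h2, h3, h4, h5, h6, h7, h8, h9, h10, h11, h12, h13, h14, h15, h16, h17, h18,
        h19, h20, h21, h22, h23]
  ext i j
  have := congrFun (hall j) i
  rw [Matrix.mulVec_single_one, one_smul] at this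
  simpa [Matrix.one_apply, Pi.single_apply, eq_comm] using this

end Cfsg.Agent.Lib.Classical.Lin.D4Tor1
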