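import Mathlib
import Cfsg.Agent.Lib.Classical.Lin.D4Tor1
import Cfsg.Agent.Lib.Twisted.D4Torus

/-!
# Elements of `³D₄(q)` commuting with a torus element: the semilinear map
-/

set_option autoImplicit false
set_option linter.unusedSectionVars false
set_option linter.unusedSimpArgs false
set_option linter.unusedVariables false

namespace Cfsg.Agent.Lib.Classical.Lin.D4Tor2

open Cfsg.Lie Matrix Cfsg.Agent.Lib.Chevalley.Reflect Cfsg.Agent.Lib.ChevIso.Bracket
open Cfsg.Agent.Lib.ChevIso.D4Tbl (cl)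
open Cfsg.Agent.Lib.ChevBN.Rel
open Cfsg.Agent.Lib.Classical.Lin.D4Tor1

section Map

variable {D : ChevalleyDatum} {K E : Type*} [Field K] [Field E]

theorem chainSum_map' (f : K →+* E) (l : List (ℕ × ℤ)) (t : K) :
    f ((l.map fun km => ((km.2 : ℤ) : K) * t ^ km.1).sum) =
      (l.map fun km => ((km.2 : ℤ) : E) * (f t) ^ km.1).sum := by
  induction l with
  | nil => simp
  | cons a l ih => simp [ih]

theorem xMat_map' (f : K →+* E) (r : Fin D.nroots) (t : K) :
    (D.xMat K r t).map f = D.xMat E r (f t) := by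
  ext row col
  simp only [Matrix.map_apply, ChevalleyDatum.xMat, Matrix.of_apply]
  rcases col with i | s
  · rcases row with i' | u
    · simp only
      split_ifs <;> simp
    · simp only
      split_ifs <;> simp
  · simp only
    split_ifs with h1 h2
    · rcases row with i' | u
      · simp
      · simp only
        split_ifs <;> simp
    · rcases row with i' | u
      · simp
      · simp only
        split_ifs <;> simp
    · rcases row with i' | u
      · simp
      · simp only [map_add, chainSum_map']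
        split_ifs <;> simp

/-- The entrywise map on `GL`. -/
noncomputable abbrev mp (f : K →+* E) : GL D.Idx K →* GL D.Idx E := Matrix.GeneralLinearGroup.map f

theorem mp_coe (f : K →+* E) (g : GL D.Idx K) :
    ((mp f g : GL D.Idx E) : Matrix D.Idx D.Idx E) = (g : Matrix D.Idx D.Idx K).map f := rfl

theorem mp_mem (f : K →+* E) {g : GL D.Idx K} (hg : g ∈ D.group K) : mp f g ∈ D.group E := by
  rw [ChevalleyDatum.group] at hg
  induction hg using Subgroup.closure_induction with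
  | mem x hx =>
    obtain ⟨r, t, hx⟩ := hx
    apply Subgroup.subset_closure
    refine ⟨r, f t, ?_⟩
    rw [mp_coe, hx, xMat_map']
  | one => simp
  | mul x y _ _ hx hy => rw [map_mul]; exact Subgroup.mul_mem _ hx hy
  | inv x _ hx => rw [map_inv]; exact Subgroup.inv_mem _ hx

theorem mp_inj (f : K →+* E) : Function.Injective (mp f : GL D.Idx K →* GL D.Idx E) := by
  intro a b h
  apply Units.ext
  ext i j
  have := congrArg (fun m : GL D.Idx E => (m : Matrix D.Idx D.Idx E) i j) h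
  exact f.injective this

end Map

variable {K E : Type*} [Field K] [Field E] (ι : K →+* E) (φ : K →+* K) (ψ : E →+* E)
  (u : GL chevD4.Idx K) (C : GL chevD4.Idx E) (μ : Fin 24 → E)

/-- The semilinear map. -/
noncomputable def Sg (w : chevD4.Idx → E) : chevD4.Idx → E :=
  ((mp ι u : GL chevD4.Idx E) : M28 E) *ᵥ (ψ ∘ w)

theorem Sg_smul (c : E) (w : chevD4.Idx → E) : Sg ι ψ u (c • w) = ψ c • Sg ι ψ u w := by
  have : ψ ∘ (c • w) = ψ c • (ψ ∘ w) := by
    funext a
    simp
  rw [Sg, this, Matrix.mulVec_smul, Sg]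

theorem Sg_comm (hι : ∀ t, ι (φ t) = ψ (ι t)) {g : GL chevD4.Idx K}
    (hg : u * mp φ g * u⁻¹ = g) (w : chevD4.Idx → E) :
    ((mp ι g : GL chevD4.Idx E) : M28 E) *ᵥ Sg ι ψ u w =
      Sg ι ψ u (((mp ι g : GL chevD4.Idx E) : M28 E) *ᵥ w) := by
  have h1 : g * u = u * mp φ g := by
    nth_rewrite 1 [← hg]
    group
  have h2 : mp ι g * mp ι u = mp ι u * mp ψ (mp ι g) := by
    have e : mp ι (mp φ g) = mp ψ (mp ι g) := by
      apply Units.ext
      ext i j
      exact hι _
    rw [← map_mul, h1, map_mul, e]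
  have h3 := congrArg (fun m : GL chevD4.Idx E => (m : M28 E)) h2
  simp only [Units.val_mul] at h3
  have h4 : ψ ∘ (((mp ι g : GL chevD4.Idx E) : M28 E) *ᵥ w) =
      ((mp ψ (mp ι g) : GL chevD4.Idx E) : M28 E) *ᵥ (ψ ∘ w) := by
    funext a
    exact RingHom.map_mulVec ψ _ w a
  rw [Sg, Sg, h4, Matrix.mulVec_mulVec, h3, Matrix.mulVec_mulVec]

/-- The conjugate. -/
noncomputable def cj (g : GL chevD4.Idx K) : GL chevD4.Idx E := C * mp ι g * C⁻¹

theorem pull {g : GL chevD4.Idx K} {a : chevD4.Idx} {k : E} (h : Ln (cj ι C g : M28 E) a k) :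
    ((mp ι g : GL chevD4.Idx E) : M28 E) *ᵥ (((C⁻¹ : GL chevD4.Idx E) : M28 E) *ᵥ Pi.single a 1) =
      k • (((C⁻¹ : GL chevD4.Idx E) : M28 E) *ᵥ Pi.single a 1) := by
  have h1 : mp ι g * C⁻¹ = C⁻¹ * cj ι C g := by
    simp only [cj]
    group
  have h2 := congrArg (fun m : GL chevD4.Idx E => (m : M28 E)) h1
  simp only [Units.val_mul] at h2
  rw [Matrix.mulVec_mulVec, h2, ← Matrix.mulVec_mulVec, h, Matrix.mulVec_smul]

theorem push {g : GL chevD4.Idx K} {w : chevD4.Idx → E} {k : E}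
    (h : ((mp ι g : GL chevD4.Idx E) : M28 E) *ᵥ w = k • w) :
    (cj ι C g : M28 E) *ᵥ ((C : M28 E) *ᵥ w) = k • ((C : M28 E) *ᵥ w) := by
  have h1 : cj ι C g * C = C * mp ι g := by
    simp only [cj]
    group
  have h2 := congrArg (fun m : GL chevD4.Idx E => (m : M28 E)) h1
  simp only [Units.val_mul] at h2
  rw [Matrix.mulVec_mulVec, h2, ← Matrix.mulVec_mulVec, h, Matrix.mulVec_smul]

/-- The diagonal entries with one on the Cartan part. -/
def mt (a : chevD4.Idx) : E := Sum.elim (fun _ => (1 : E)) μ a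

theorem dgMat_eq : dgMat chevD4 μ = Matrix.diagonal (mt μ) := rfl

theorem dg_mulVec (w : chevD4.Idx → E) (a : chevD4.Idx) :
    (dgMat chevD4 μ *ᵥ w) a = mt μ a * w a := by
  rw [dgMat_eq, Matrix.mulVec_diagonal]

theorem dg_line (r : Fin 24) : Ln (dgMat chevD4 μ) (rc r) (μ r) := by
  funext a
  rw [dg_mulVec]
  by_cases h : a = rc r
  · subst h
    simp only [Pi.single_eq_same, Pi.smul_apply, smul_eq_mul, mul_one]
    rfl
  · simp [Pi.single_apply, h]

/-- The simple lines. -/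
def Simple (r : Fin 24) : Prop := ∀ a, a ≠ rc r → mt μ a ≠ μ r

variable {ι φ ψ u C μ}

theorem line_of_comm {m : M28 E} (hm : m * dgMat chevD4 μ = dgMat chevD4 μ * m) {r : Fin 24}
    (hr : Simple μ r) : Ln m (rc r) (m (rc r) (rc r)) := by
  funext a
  rw [Matrix.mulVec_single_one]
  by_cases h : a = rc r
  · subst h
    simp
  · have e := congrFun (congrFun hm a) (rc r)
    rw [dgMat_eq, Matrix.mul_diagonal, Matrix.diagonal_mul] at e
    have h2 : m a (rc r) * (μ r - mt μ a) = 0 := by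
      have e' : m a (rc r) * μ r = mt μ a * m a (rc r) := e
      linear_combination e'
    have h3 : μ r - mt μ a ≠ 0 := sub_ne_zero.2 (hr a h).symm
    have h4 := (mul_eq_zero.1 h2).resolve_right h3
    simp [Pi.single_apply, h, h4]

theorem cycle (hι : ∀ t, ι (φ t) = ψ (ι t)) {x g : GL chevD4.Idx K}
    (hx : u * mp φ x * u⁻¹ = x) (hg : u * mp φ g * u⁻¹ = g)
    (hC : (cj ι C x : M28 E) = dgMat chevD4 μ) {r r' : Fin 24} (hr' : Simple μ r')
    (hψ : ψ (μ r) = μ r') {k k' : E} (h1 : Ln (cj ι C g : M28 E) (rc r) k)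
    (h2 : Ln (cj ι C g : M28 E) (rc r') k') : k' = ψ k := by
  have hxl : Ln (cj ι C x : M28 E) (rc r) (μ r) := by
    rw [hC]
    exact dg_line μ r
  set Er : chevD4.Idx → E := ((C⁻¹ : GL chevD4.Idx E) : M28 E) *ᵥ Pi.single (rc r) 1 with hEr
  have hEr0 : Er ≠ 0 := by
    intro h0
    have h3 : ((C : GL chevD4.Idx E) : M28 E) *ᵥ Er = Pi.single (rc r) 1 := by
      rw [hEr, Matrix.mulVec_mulVec, ← Units.val_mul, mul_inv_cancel, Units.val_one, Matrix.one_mulVec]
    rw [h0, Matrix.mulVec_zero] at h3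
    have := congrFun h3 (rc r)
    simp at this
  set W : chevD4.Idx → E := Sg ι ψ u Er with hW
  have hW0 : W ≠ 0 := by
    intro h0
    apply hEr0
    have h3 : ((((mp ι u : GL chevD4.Idx E)⁻¹ : GL chevD4.Idx E) : M28 E) *ᵥ W) = ψ ∘ Er := by
      rw [hW, Sg, Matrix.mulVec_mulVec, ← Units.val_mul, inv_mul_cancel, Units.val_one, Matrix.one_mulVec]
    rw [h0, Matrix.mulVec_zero] at h3
    funext a
    have := congrFun h3 a
    simpa using this.symm
  have hWx : ((mp ι x : GL chevD4.Idx E) : M28 E) *ᵥ W = ψ (μ r) • W := by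
    rw [hW, Sg_comm ι φ ψ u hι hx, pull ι C hxl, Sg_smul]
  have hWg : ((mp ι g : GL chevD4.Idx E) : M28 E) *ᵥ W = ψ k • W := by
    rw [hW, Sg_comm ι φ ψ u hι hg, pull ι C h1, Sg_smul]
  set V : chevD4.Idx → E := (C : M28 E) *ᵥ W with hV
  have hV0 : V ≠ 0 := by
    intro h0
    apply hW0
    have h3 : ((C⁻¹ : GL chevD4.Idx E) : M28 E) *ᵥ V = W := by
      rw [hV, Matrix.mulVec_mulVec, ← Units.val_mul, inv_mul_cancel, Units.val_one, Matrix.one_mulVec]
    rw [← h3, h0, Matrix.mulVec_zero]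
  have hVx := push ι C hWx
  rw [hC, hψ, ← hV] at hVx
  have hVa : ∀ a, a ≠ rc r' → V a = 0 := by
    intro a ha
    have e := congrFun hVx a
    rw [dg_mulVec, Pi.smul_apply, smul_eq_mul] at e
    have h3 : (mt μ a - μ r') * V a = 0 := by
      linear_combination e
    exact (mul_eq_zero.1 h3).resolve_left (sub_ne_zero.2 (hr' a ha))
  have hVe : V = V (rc r') • Pi.single (rc r') 1 := by
    funext a
    by_cases h : a = rc r'
    · subst h
      simp
    · simp [hVa a h, Pi.single_apply, h]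
  have hVr : V (rc r') ≠ 0 := by
    intro h0
    apply hV0
    rw [hVe, h0, zero_smul]
  have hVg := push ι C hWg
  rw [← hV] at hVg
  have e1 : (cj ι C g : M28 E) *ᵥ V = V (rc r') • (k' • Pi.single (rc r') 1) := by
    nth_rewrite 1 [hVe]
    rw [Matrix.mulVec_smul, h2]
  have e2 := congrFun (e1.symm.trans hVg) (rc r')
  simp only [Pi.smul_apply, Pi.single_eq_same, smul_eq_mul, mul_one] at e2
  have e3 : V (rc r') * (k' - ψ k) = 0 := by
    linear_combination e2
  exact sub_eq_zero.1 ((mul_eq_zero.1 e3).resolve_left hVr)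

/-- The conclusion for an element commuting with the torus element. -/
theorem key (hι : ∀ t, ι (φ t) = ψ (ι t)) {x g : GL chevD4.Idx K}
    (hx : u * mp φ x * u⁻¹ = x) (hg : u * mp φ g * u⁻¹ = g) (hgG : g ∈ chevD4.group K)
    (hCG : C ∈ chevD4.group E) (hcomm : g * x = x * g)
    (hC : (cj ι C x : M28 E) = dgMat chevD4 μ)
    (s18 : Simple μ 18) (s19 : Simple μ 19) (s13 : Simple μ 13) (s16 : Simple μ 16)
    (s12 : Simple μ 12) (s15 : Simple μ 15) (s5 : Simple μ 5) (s4 : Simple μ 4)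
    (s10 : Simple μ 10) (s7 : Simple μ 7) (s11 : Simple μ 11) (s8 : Simple μ 8)
    (c1 : ψ (μ 18) = μ 16) (c2 : ψ (μ 16) = μ 12) (c3 : ψ (μ 12) = μ 19) (c4 : ψ (μ 19) = μ 13)
    (c5 : ψ (μ 13) = μ 15) (c6 : ψ (μ 5) = μ 7) (c7 : ψ (μ 7) = μ 11) (c8 : ψ (μ 11) = μ 4)
    (c9 : ψ (μ 4) = μ 10) (c10 : ψ (μ 10) = μ 8) :
    ∃ k : E, Ln (cj ι C g : M28 E) (rc 18) k ∧ k * ψ k = ψ (ψ (ψ k)) * ψ (ψ (ψ (ψ k))) ∧
      (k = 1 → g = 1) := by
  set m : M28 E := (cj ι C g : M28 E) with hm
  have hcm : m * dgMat chevD4 μ = dgMat chevD4 μ * m := by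
    have h1 : cj ι C g * cj ι C x = cj ι C x * cj ι C g := by
      simp only [cj]
      have e : mp ι g * mp ι x = mp ι x * mp ι g := by
        rw [← map_mul, hcomm, map_mul]
      calc C * mp ι g * C⁻¹ * (C * mp ι x * C⁻¹) = C * (mp ι g * mp ι x) * C⁻¹ := by group
        _ = C * (mp ι x * mp ι g) * C⁻¹ := by rw [e]
        _ = C * mp ι x * C⁻¹ * (C * mp ι g * C⁻¹) := by group
    have h2 := congrArg (fun m : GL chevD4.Idx E => (m : M28 E)) h1
    simp only [Units.val_mul, hC] at h2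
    exact h2
  have hAut : IsAut chevD4 cl m := by
    apply aut_of_mem
    rw [cj]
    exact Subgroup.mul_mem _ (Subgroup.mul_mem _ hCG (mp_mem ι hgG)) (Subgroup.inv_mem _ hCG)
  have L18 := line_of_comm hcm s18
  have L19 := line_of_comm hcm s19
  have L13 := line_of_comm hcm s13
  have L16 := line_of_comm hcm s16
  have L12 := line_of_comm hcm s12
  have L15 := line_of_comm hcm s15
  have L5 := line_of_comm hcm s5
  have L4 := line_of_comm hcm s4
  have L10 := line_of_comm hcm s10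
  have L7 := line_of_comm hcm s7
  have L11 := line_of_comm hcm s11
  have L8 := line_of_comm hcm s8
  set k := m (rc 18) (rc 18) with hk
  have e16 : m (rc 16) (rc 16) = ψ k := cycle hι hx hg hC s16 c1 L18 L16
  have e12 : m (rc 12) (rc 12) = ψ (ψ k) := by
    rw [← e16]
    exact cycle hι hx hg hC s12 c2 L16 L12
  have e19 : m (rc 19) (rc 19) = ψ (ψ (ψ k)) := by
    rw [← e12]
    exact cycle hι hx hg hC s19 c3 L12 L19
  have e13 : m (rc 13) (rc 13) = ψ (ψ (ψ (ψ k))) := by
    rw [← e19]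
    exact cycle hι hx hg hC s13 c4 L19 L13
  have e15 : m (rc 15) (rc 15) = ψ (ψ (ψ (ψ (ψ k)))) := by
    rw [← e13]
    exact cycle hι hx hg hC s15 c5 L13 L15
  have e7 : m (rc 7) (rc 7) = ψ (m (rc 5) (rc 5)) := cycle hι hx hg hC s7 c6 L5 L7
  have e11 : m (rc 11) (rc 11) = ψ (ψ (m (rc 5) (rc 5))) := by
    rw [← e7]
    exact cycle hι hx hg hC s11 c7 L7 L11
  have e4 : m (rc 4) (rc 4) = ψ (ψ (ψ (m (rc 5) (rc 5)))) := by
    rw [← e11]
    exact cycle hι hx hg hC s4 c8 L11 L4
  have e10 : m (rc 10) (rc 10) = ψ (ψ (ψ (ψ (m (rc 5) (rc 5))))) := by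
    rw [← e4]
    exact cycle hι hx hg hC s10 c9 L4 L10
  have e8 : m (rc 8) (rc 8) = ψ (ψ (ψ (ψ (ψ (m (rc 5) (rc 5)))))) := by
    rw [← e10]
    exact cycle hι hx hg hC s8 c10 L10 L8
  have hrel : k * ψ k = ψ (ψ (ψ k)) * ψ (ψ (ψ (ψ k))) := by
    have h1 : Ln m (rc 21) (k * m (rc 16) (rc 16)) :=
      Ln.br hAut L18 L16 (m := -1) (by simp) (by decide +kernel)
    have h2 : Ln m (rc 21) (m (rc 19) (rc 19) * m (rc 13) (rc 13)) :=
      Ln.br hAut L19 L13 (m := -1) (by simp) (by decide +kernel)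
    have := Ln.unique h1 h2
    rwa [e16, e19, e13] at this
  refine ⟨k, L18, hrel, fun hk1 => ?_⟩
  have hne19 : m (rc 19) (rc 19) ≠ 0 := Ln.ne_zero (g := cj ι C g) L19
  have hh0 : Ln m (hc 0) (k * m (rc 5) (rc 5)) :=
    Ln.br' hAut L18 L5 (m := 1) one_ne_zero (by
      rw [one_smul]
      exact vP_h 0 (by decide +kernel) (by decide +kernel))
  have h19' : Ln m (rc 19) ((k * m (rc 5) (rc 5)) * m (rc 19) (rc 19)) :=
    Ln.br hAut hh0 L19 (m := 1) (by simp) (by decide +kernel)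
  have h5k : k * m (rc 5) (rc 5) = 1 := by
    have := Ln.unique h19' L19
    exact mul_right_cancel₀ hne19 (by rw [this, one_mul])
  have h5 : m (rc 5) (rc 5) = 1 := by
    rw [hk1, one_mul] at h5k
    exact h5k
  have hone : m = 1 := by
    rw [hk1] at L18
    rw [e16, hk1, map_one] at L16
    rw [e12, hk1, map_one, map_one] at L12
    rw [e19, hk1, map_one, map_one, map_one] at L19
    rw [e13, hk1, map_one, map_one, map_one, map_one] at L13
    rw [e15, hk1, map_one, map_one, map_one, map_one, map_one] at L15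
    rw [h5] at L5
    rw [e7, h5, map_one] at L7
    rw [e11, h5, map_one, map_one] at L11
    rw [e4, h5, map_one, map_one, map_one] at L4
    rw [e10, h5, map_one, map_one, map_one, map_one] at L10
    rw [e8, h5, map_one, map_one, map_one, map_one, map_one] at L8
    exact eq_one_of_lines hAut L18 L19 L13 L16 L12 L15 L5 L4 L10 L7 L11 L8
  have h1 : cj ι C g = 1 := Units.ext hone
  have h2 : mp ι g = 1 := by
    have : C * mp ι g * C⁻¹ = 1 := h1
    have h3 : C⁻¹ * (C * mp ι g * C⁻¹) * C = mp ι g := by group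
    rw [← h3, this]
    group
  exact mp_inj ι (by rw [h2, map_one])

end Cfsg.Agent.Lib.Classical.Lin.D4Tor2
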