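import Mathlib
import Cfsg.Agent.Lib.Classical.Lin.D4Tor2
import Cfsg.Agent.Lib.Chevalley.SL2Root

/-!
# The Levi subgroup of the central node of `D₄`: diagonalising a torus element
-/

set_option autoImplicit false
set_option linter.unusedSectionVars false
set_option linter.unusedSimpArgs false
set_option linter.unusedVariables false
set_option maxRecDepth 100000

namespace Cfsg.Agent.Lib.Classical.Lin.D4Tor3

open Cfsg.Lie Matrix Cfsg.Agent.Lib.Chevalley.Reflect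
open Cfsg.Agent.Lib.ChevBN.Elem Cfsg.Agent.Lib.ChevBN.Rel Cfsg.Agent.Lib.ChevBN.Table
open Cfsg.Agent.Lib.ChevBN.FastData (tbl_chevD4)
open Cfsg.Agent.Lib.Chevalley.Tbl.D4 (sys)
open Cfsg.Agent.Lib.Chevalley.SL2Hom
open Cfsg.Agent.Lib.Classical.Lin.D4Tor1 Cfsg.Agent.Lib.Classical.Lin.D4Tor2
open Cfsg.Agent.Lib.Twisted

variable {E : Type*} [Field E]

/-- The root elements. -/
noncomputable abbrev XE (r : ℕ) (t : E) : GL chevD4.Idx E := X (sys (F := E)).toAddRel r t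

theorem e_neg14 : chevD4.neg 14 = 9 := by decide +kernel

theorem hrel14 : Rel (XE (E := E) 14) (XE (E := E) 9) := by
  have h := Cfsg.Agent.Lib.Chevalley.SL2Root.rel (sys (F := E)) tbl_chevD4
    (by decide +kernel) (by decide +kernel) (r := 14) (by decide +kernel)
  rwa [e_neg14] at h

/-- The homomorphism from `SL₂`. -/
noncomputable def rho : SpecialLinearGroup (Fin 2) E →* GL chevD4.Idx E := hom (hrel14 (E := E))

theorem rho_X (t : E) : rho (X t : SpecialLinearGroup (Fin 2) E) = XE 14 t := hom_X hrel14 t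
theorem rho_Y (t : E) : rho (Y t : SpecialLinearGroup (Fin 2) E) = XE 9 t := hom_Y hrel14 t

theorem hG_eq (a : E) : hG (sys (F := E)).toAddRel 14 a =
    rho (X a * Y (-a⁻¹) * X a * (X (-1) * Y 1 * X (-1))) := by
  simp only [map_mul, rho_X, rho_Y]
  rw [hG, nG, nG, e_neg14]
  simp

/-- The main computation. -/
theorem levi {d : GL chevD4.Idx E} {v e₁ e₂ : E} (hv : v = e₁ * e₂) (he₁ : e₁ ≠ 0) (he₂ : e₂ ≠ 0)
    (hf : e₁ ≠ e₂) (h14 : ∀ t, d * XE 14 t * d⁻¹ = XE 14 (v * t))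
    (h9 : ∀ t, d * XE 9 t * d⁻¹ = XE 9 (v⁻¹ * t)) :
    (XE 9 ((e₂ - 1) * (e₁ - e₂) / e₁) * XE 14 (e₁ / (e₁ - e₂)) * XE 9 ((e₂ - 1) / e₁)) *
        (d * (XE 9 (e₁ + e₂ - v - 1) * XE 14 1)) *
        (XE 9 ((e₂ - 1) * (e₁ - e₂) / e₁) * XE 14 (e₁ / (e₁ - e₂)) * XE 9 ((e₂ - 1) / e₁))⁻¹ =
      d * hG (sys (F := E)).toAddRel 14 e₂⁻¹ := by
  have hf' : e₁ - e₂ ≠ 0 := sub_ne_zero.2 hf
  have hvne : v ≠ 0 := by rw [hv]; exact mul_ne_zero he₁ he₂
  set p := (e₂ - 1) * (e₁ - e₂) / e₁ with hp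
  set b := e₁ / (e₁ - e₂) with hb
  set r := (e₂ - 1) / e₁ with hr
  have c1 : XE 9 p = d * XE 9 (v * p) * d⁻¹ := by
    rw [h9, ← mul_assoc, inv_mul_cancel₀ hvne, one_mul]
  have c2 : XE 14 b = d * XE 14 (v⁻¹ * b) * d⁻¹ := by
    rw [h14, ← mul_assoc, mul_inv_cancel₀ hvne, one_mul]
  have c3 : XE 9 r = d * XE 9 (v * r) * d⁻¹ := by
    rw [h9, ← mul_assoc, inv_mul_cancel₀ hvne, one_mul]
  have hC : XE 9 p * XE 14 b * XE 9 r * d = d * (XE 9 (v * p) * XE 14 (v⁻¹ * b) * XE 9 (v * r)) := by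
    rw [c1, c2, c3]
    group
  have hinv : (XE 9 p * XE 14 b * XE 9 r)⁻¹ = XE 9 (-r) * XE 14 (-b) * XE 9 (-p) := by
    rw [← y_neg hrel14, ← x_neg hrel14, ← y_neg hrel14]
    group
  have hW : XE 9 (v * p) * XE 14 (v⁻¹ * b) * XE 9 (v * r) * (XE 9 (e₁ + e₂ - v - 1) * XE 14 1) *
      (XE 9 (-r) * XE 14 (-b) * XE 9 (-p)) = hG (sys (F := E)).toAddRel 14 e₂⁻¹ := by
    rw [hG_eq, ← rho_Y (v * p), ← rho_X (v⁻¹ * b), ← rho_Y (v * r), ← rho_Y (e₁ + e₂ - v - 1),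
      ← rho_X 1, ← rho_Y (-r), ← rho_X (-b), ← rho_Y (-p)]
    simp only [← map_mul]
    congr 1
    apply Subtype.ext
    simp only [coe_mul', X_coe, Y_coe]
    ext i j
    fin_cases i <;> fin_cases j <;>
      simp [Matrix.mul_apply, Fin.sum_univ_two, hp, hb, hr, hv] <;> field_simp <;> ring
  calc XE 9 p * XE 14 b * XE 9 r * (d * (XE 9 (e₁ + e₂ - v - 1) * XE 14 1)) * (XE 9 p * XE 14 b * XE 9 r)⁻¹
      = (XE 9 p * XE 14 b * XE 9 r * d) * (XE 9 (e₁ + e₂ - v - 1) * XE 14 1) * (XE 9 p * XE 14 b * XE 9 r)⁻¹ := by group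
    _ = d * (XE 9 (v * p) * XE 14 (v⁻¹ * b) * XE 9 (v * r) * (XE 9 (e₁ + e₂ - v - 1) * XE 14 1) *
        (XE 9 (-r) * XE 14 (-b) * XE 9 (-p))) := by
        rw [hC, hinv]
        group
    _ = d * hG (sys (F := E)).toAddRel 14 e₂⁻¹ := by rw [hW]

/-! ### Diagonal elements -/

/-- Root coefficients. -/
def nn (s i : ℕ) : ℤ := cr chevD4 s i

theorem tbl1 : ∀ s : Fin 24, chevD4.cartan 1 s = - nn s 0 + 2 * nn s 1 - nn s 2 - nn s 3 := by
  decide +kernel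
theorem tbl0 : ∀ s : Fin 24, chevD4.cartan 0 s = 2 * nn s 0 - nn s 1 := by decide +kernel
theorem tbl2 : ∀ s : Fin 24, chevD4.cartan 2 s = - nn s 1 + 2 * nn s 2 := by decide +kernel
theorem tbl3 : ∀ s : Fin 24, chevD4.cartan 3 s = - nn s 1 + 2 * nn s 3 := by decide +kernel
theorem tblA : ∀ s : Fin 24, Ad chevD4 (cr chevD4 14) s = chevD4.cartan 1 s := by decide +kernel

theorem vec_add {M : Type*} [AddCommGroup M] (A B G H : M) (n0 n1 n2 n3 : ℤ) :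
    (- n0 + 2 * n1 - n2 - n3) • A + (2 * n0 - n1) • B + (- n1 + 2 * n2) • G + (- n1 + 2 * n3) • H =
      n0 • (- A + B + B) + n1 • (A + A - B - G - H) + n2 • (- A + G + G) + n3 • (- A + H + H) := by
  module

theorem vec_id {U : Type*} [CommGroup U] (A B G H : U) (n0 n1 n2 n3 : ℤ) :
    A ^ (- n0 + 2 * n1 - n2 - n3) * B ^ (2 * n0 - n1) * G ^ (- n1 + 2 * n2) * H ^ (- n1 + 2 * n3) =
      (A⁻¹ * B * B) ^ n0 * (A * A / B / G / H) ^ n1 * (A⁻¹ * G * G) ^ n2 * (A⁻¹ * H * H) ^ n3 :=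
  vec_add (Additive.ofMul A) (Additive.ofMul B) (Additive.ofMul G) (Additive.ofMul H) n0 n1 n2 n3

/-- The exponent of a root. -/
def EE (Q : ℤ) (s : ℕ) : ℤ := nn s 0 + nn s 1 * (Q ^ 3 - 1) + nn s 2 * Q ^ 4 + nn s 3 * Q ^ 2

theorem diag_form (c1 a : Eˣ) (D : ℕ → E) (hD1 : D 1 = c1) (hD : ∀ j, D j ≠ 0) (B G H : Eˣ) (hB : D 0 = B)
    (hG' : D 2 = G) (hH : D 3 = H) :
    (((torJ (sys (F := E)).toAddRel [1, 0, 2, 3] D * hG (sys (F := E)).toAddRel 14 (a : E) :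
      GL chevD4.Idx E)) : M28 E) =
    dgMat chevD4 (fun s : Fin 24 => ((((c1 * a) ^ (chevD4.cartan 1 s) * B ^ (chevD4.cartan 0 s) *
      G ^ (chevD4.cartan 2 s) * H ^ (chevD4.cartan 3 s) : Eˣ)) : E)) := by
  have h1 := Cfsg.Agent.Lib.ChevBN.Torus.coe_list_prod (sys (F := E)) D [1, 0, 2, 3] (by
    intro j hj
    refine ⟨?_, hD j⟩
    simp only [List.mem_cons, List.not_mem_nil, or_false] at hj
    rcases hj with rfl | rfl | rfl | rfl <;> decide +kernel)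
  have h2 := Cfsg.Agent.Lib.ChevBN.Torus.coe_hG_all (sys (F := E)) tbl_chevD4 (r := 14) (by decide +kernel)
    (c := (a : E)) (Units.ne_zero a)
  rw [Units.val_mul, h2]
  have e : ((torJ (sys (F := E)).toAddRel [1, 0, 2, 3] D : GL chevD4.Idx E) : M28 E) =
      dgMat chevD4 (fun s : Fin chevD4.nroots =>
        ([1, 0, 2, 3].map fun j => D j ^ chevD4.cartan j s).prod) := h1
  rw [e, dgMat_mul]
  congr 1
  refine funext (fun s : Fin 24 => ?_)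
  show (([1, 0, 2, 3] : List ℕ).map fun j => D j ^ chevD4.cartan j (s : ℕ)).prod *
    ((a : E) ^ Ad chevD4 (cr chevD4 14) (s : ℕ)) = _
  simp only [List.map_cons, List.map_nil, List.prod_cons, List.prod_nil, mul_one,
    hD1, hB, hG', hH]
  rw [tblA s]
  simp only [Units.val_mul, Units.val_zpow_eq_zpow_val, mul_zpow]
  ring

end Cfsg.Agent.Lib.Classical.Lin.D4Tor3
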