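import Mathlib
import Cfsg.Agent.Lib.Classical.Lin.D4Tor3

/-!
# The torus element of `³D₄(q)` of order `(q³ - 1)(q + 1)`
-/

set_option autoImplicit false
set_option linter.unusedSectionVars false
set_option linter.unusedSimpArgs false
set_option linter.unusedVariables false
set_option maxRecDepth 100000

namespace Cfsg.Agent.Lib.Classical.Lin.D4Tor4

open Cfsg.Lie Matrix Cfsg.Agent.Lib.Chevalley.Reflect Cfsg.Agent.Lib.Chevalley.Graph
open Cfsg.Agent.Lib.ChevBN.Elem Cfsg.Agent.Lib.ChevBN.Rel Cfsg.Agent.Lib.ChevBN.Table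
open Cfsg.Agent.Lib.ChevBN.FastData (tbl_chevD4)
open Cfsg.Agent.Lib.Chevalley.Tbl.D4 (sys colOK cols)
open Cfsg.Agent.Lib.Twisted
open Cfsg.Agent.Lib.Twisted.D4 (ρ0 ε0 frobDat dP φU Φ₀ Φ₀_ker exists_Θ X9_mem X14_mem inst)
open Cfsg.Agent.Lib.Classical.Lin.D4Tor1 Cfsg.Agent.Lib.Classical.Lin.D4Tor2
open Cfsg.Agent.Lib.Classical.Lin.D4Tor3

variable {K E : Type*} [Field K] [Field E]

/-- The twisting data with an explicit conjugating element. -/
theorem exists_T_u (φ : K →+* K) : ∃ (T : Tw (sys (F := K)).toAddRel) (u : GL chevD4.Idx K),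
    T.ρ = ρ0 ∧ (∀ r t, T.τ r t = ((ε0 r : ℤ) : K) * φ t) ∧ ∀ g, T.s g = u * mp φ g * u⁻¹ := by
  have hA := (sys (F := K)).toAddRel
  have h := frobDat
  obtain ⟨u, h1, -⟩ := exists_conj (F := K) (sys (F := K)).toAddRel colOK h.hf h.hg h.hinv h.hw
  have hs : ∀ r < chevD4.nroots, ∀ t : K, u * fmap φ (X (sys (F := K)).toAddRel r t) * u⁻¹ =
      X (sys (F := K)).toAddRel (ρ0 r) ((ε0 r : K) * φ t) := by
    intro r hr t
    rw [fmap_X, (h1 r hr).2.2]
    rfl
  have hmul : ∀ a b : GL chevD4.Idx K, u * fmap φ (a * b) * u⁻¹ = (u * fmap φ a * u⁻¹) * (u * fmap φ b * u⁻¹) := by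
    intro a b
    rw [map_mul]
    group
  have hG := group_eq (sys (F := K)).toAddRel
  have hε : ∀ r < chevD4.nroots, (((ε0 r : ℤ) : K) = 1 ∨ ((ε0 r : ℤ) : K) = -1) := by
    intro r hr
    rcases (h1 r hr).2.1 with e | e
    · left; show (((Tr.find (0, 0) Cfsg.Agent.Lib.Chevalley.Tbl.D4.P1.wT r).2 : ℤ) : K) = 1; simp [e]
    · right; show (((Tr.find (0, 0) Cfsg.Agent.Lib.Chevalley.Tbl.D4.P1.wT r).2 : ℤ) : K) = -1; simp [e]
  refine ⟨{ s := fun g => u * fmap φ g * u⁻¹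
            ρ := ρ0
            τ := fun r t => ((ε0 r : ℤ) : K) * φ t
            s_mem := ?_
            s_mul := fun a _ b _ => hmul a b
            ρ_lt := fun r hr => (h1 r hr).1
            s_X := hs
            ρ_pos := h.hpos
            ρ_neg := fun r hr => (h.hneg r hr).1
            τ_ne := ?_
            τ_inv := ?_ }, u, rfl, fun r t => rfl, fun g => rfl⟩
  · intro a ha
    rw [hG] at ha ⊢
    refine gen_induction (sys (F := K)).toAddRel
      (P := fun a => u * fmap φ a * u⁻¹ ∈ gen (sys (F := K)).toAddRel {r | r < chevD4.nroots}) ?_ ?_ ?_ ha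
    · simp only [map_one]
      simp
    · intro r hr t
      rw [hs r hr t]
      exact X_mem_gen (sys (F := K)).toAddRel (Ψ := {r | r < chevD4.nroots}) (h1 r hr).1 _
    · intro a b ha hb
      rw [hmul]
      exact Subgroup.mul_mem _ ha hb
  · intro r hr t ht
    refine mul_ne_zero ?_ ((map_ne_zero φ).mpr ht)
    rcases hε r hr with e | e <;> simp [e]
  · intro r hr c hc
    show ((ε0 (chevD4.neg r) : ℤ) : K) * φ (-c⁻¹) = -((((ε0 r : ℤ) : K) * φ c)⁻¹)
    have e0 : ε0 (chevD4.neg r) = ε0 r := (h.hneg r hr).2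
    rw [e0, map_neg, map_inv₀]
    rcases hε r hr with e | e <;> simp [e]

theorem mp_X (ι : K →+* E) (r : ℕ) (t : K) :
    mp ι (X (sys (F := K)).toAddRel r t) = X (sys (F := E)).toAddRel r (ι t) := by
  apply Units.ext
  show (chevD4.x K r t).map ι = chevD4.x E r (ι t)
  unfold ChevalleyDatum.x
  split_ifs with h
  · exact xMat_map' ι _ _
  · simp

theorem mp_hG (ι : K →+* E) (r : ℕ) (t : K) :
    mp ι (hG (sys (F := K)).toAddRel r t) = hG (sys (F := E)).toAddRel r (ι t) := by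
  simp only [hG, nG, map_mul, mp_X, map_neg, map_inv₀, map_one]

theorem mp_torJ (ι : K →+* E) (J : List ℕ) (d : ℕ → K) :
    mp ι (torJ (sys (F := K)).toAddRel J d) = torJ (sys (F := E)).toAddRel J (fun j => ι (d j)) := by
  induction J with
  | nil => simp
  | cons a J ih => simp only [torJ_cons, map_mul, mp_hG, ih]

section Main

variable (ι : K →+* E) {φ : K →+* K} {ψ : E →+* E} {q : ℕ} [Fintype K]
  (hφ : ∀ t, φ t = t ^ q) (hψ : ∀ z, ψ z = z ^ q) (hι : ∀ t, ι (φ t) = ψ (ι t))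
  (hφ3 : ∀ t, φ (φ (φ t)) = t)
  {T : Tw (sys (F := K)).toAddRel} (hρ : T.ρ = ρ0) (hτ : ∀ r t, T.τ r t = ((ε0 r : ℤ) : K) * φ t)
  (ξ : Eˣ) (hN : ξ ^ (((q : ℤ) ^ 3 - 1) * ((q : ℤ) + 1)) = 1) (hne : ξ ^ ((q : ℤ) ^ 3 - 1) ≠ 1)
  (desc : ∀ z : E, ψ (ψ (ψ z)) = z → ∃ t : K, ι t = z)

include hψ in
theorem psi_zpow (k : ℤ) : ψ ((ξ ^ k : Eˣ) : E) = ((ξ ^ ((q : ℤ) * k) : Eˣ) : E) := by
  rw [hψ, ← Units.val_pow_eq_pow_val, ← zpow_natCast, ← _root_.zpow_mul, mul_comm]

include hN in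
theorem zeq {a b c : ℤ} (h : a - b = ((q : ℤ) ^ 3 - 1) * ((q : ℤ) + 1) * c) : ξ ^ a = ξ ^ b := by
  have e : a = b + ((q : ℤ) ^ 3 - 1) * ((q : ℤ) + 1) * c := by linarith
  rw [e, _root_.zpow_add, _root_.zpow_mul, hN, _root_.one_zpow, mul_one]

include hφ hψ hι hφ3 hρ hτ hN hne desc in
theorem exists_x :
    ∃ (x : GL chevD4.Idx K) (C : GL chevD4.Idx E), x ∈ twistedD4 K q ∧ C ∈ chevD4.group E ∧
      (cj ι C x : M28 E) = dgMat chevD4 (fun s : Fin 24 => ((ξ ^ EE (q : ℤ) s : Eˣ) : E)) := by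
  classical
  set Q : ℤ := (q : ℤ) with hQ
  set M : ℤ := Q ^ 2 + Q + 1 with hM
  have hz := fun {a b c : ℤ} => zeq (ξ := ξ) (q := q) hN (a := a) (b := b) (c := c)
  have hp := psi_zpow (ξ := ξ) (ψ := ψ) (q := q) hψ
  set e2 : Eˣ := ξ ^ M with he2
  set e1 : Eˣ := ξ ^ (Q * M) with he1
  have hpe2 : ψ (e2 : E) = e1 := hp M
  have hpe1 : ψ (e1 : E) = e2 := by
    rw [he1, hp, he2]
    exact congrArg _ (hz (c := 1) (by rw [hM]; ring))
  have hne12 : (e1 : E) ≠ e2 := by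
    intro h
    apply hne
    have h1 : e1 = e2 := Units.ext h
    have h2 : ξ ^ (Q ^ 3 - 1) = e1 * e2⁻¹ := by
      rw [he1, he2, ← _root_.zpow_neg, ← _root_.zpow_add]
      congr 1
      rw [hM]
      ring
    rw [h2, h1, mul_inv_cancel]
  -- descending
  have hd1 : ∀ z : E, ψ z = z → ∃ t : K, φ t = t ∧ ι t = z := by
    intro z hz'
    obtain ⟨t, ht⟩ := desc z (by rw [hz', hz', hz'])
    refine ⟨t, ι.injective ?_, ht⟩
    rw [hι, ht, hz']
  obtain ⟨τ₀, hτ₀f, hτ₀⟩ := hd1 ((e1 : E) + e2) (by rw [map_add, hpe1, hpe2, add_comm])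
  obtain ⟨v₀, hv₀f, hv₀⟩ := hd1 ((e1 : E) * e2) (by rw [map_mul, hpe1, hpe2, mul_comm])
  set Θ : Eˣ := ξ ^ (-(Q * (Q + 1))) with hΘ
  obtain ⟨θ₀, hθ₀⟩ := desc (Θ : E) (by
    rw [hΘ, hp, hp, hp]
    exact congrArg _ (hz (c := -Q) (by ring)))
  have hθ₀ne : θ₀ ≠ 0 := by
    rintro rfl
    rw [map_zero] at hθ₀
    exact Units.ne_zero _ hθ₀.symm
  have hv₀ne : v₀ ≠ 0 := by
    rintro rfl
    rw [map_zero] at hv₀
    exact mul_ne_zero (Units.ne_zero e1) (Units.ne_zero e2) hv₀.symm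
  -- the torus element
  let f : Kˣ × fixU φ → Kˣ × fixU φ := fun a => ((Φ₀ φ a).1, ⟨(Φ₀ φ a).2, by
    rw [mem_fixU]
    change φ ((((a.2 : Kˣ) ^ 2 * (a.1 * φU φ a.1 * φU φ (φU φ a.1))⁻¹ : Kˣ)) : K) =
      (((a.2 : Kˣ) ^ 2 * (a.1 * φU φ a.1 * φU φ (φU φ a.1))⁻¹ : Kˣ) : K)
    have hc : φ (((a.2 : Kˣ)) : K) = ((a.2 : Kˣ) : K) := mem_fixU.1 a.2.2
    have h3 := hφ3 (a.1 : K)
    simp only [Units.val_mul, Units.val_pow_eq_pow_val, Units.val_inv_eq_inv_val, map_mul, map_pow,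
      map_inv₀, hc, h3, Units.coe_map, MonoidHom.coe_coe]
    ring⟩)
  have hfinj : Function.Injective f := by
    intro a b hab
    have e1 := congrArg Prod.fst hab
    have e2 := congrArg (fun x => ((x.2 : fixU φ) : Kˣ)) hab
    have h1 : Φ₀ φ a = Φ₀ φ b := Prod.ext e1 e2
    exact (MonoidHom.ker_eq_bot_iff _).1 (Φ₀_ker hφ3) h1
  have hfsurj : Function.Surjective f := Finite.injective_iff_surjective.1 hfinj
  obtain ⟨⟨t, c⟩, hf⟩ := hfsurj (Units.mk0 θ₀ hθ₀ne, ⟨Units.mk0 v₀ hv₀ne, by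
    rw [mem_fixU]
    exact hv₀f⟩)
  have hcf : φ ((c : Kˣ) : K) = ((c : Kˣ) : K) := mem_fixU.1 c.2
  have hf1 : t ^ 2 * (c : Kˣ)⁻¹ = Units.mk0 θ₀ hθ₀ne := congrArg Prod.fst hf
  have hf2 : (c : Kˣ) ^ 2 * (t * φU φ t * φU φ (φU φ t))⁻¹ = Units.mk0 v₀ hv₀ne :=
    congrArg (fun x => ((x.2 : fixU φ) : Kˣ)) hf
  have hI := inst hρ hτ hφ3 hφ
  obtain ⟨h, hh⟩ := exists_Θ hφ hφ3 hρ hτ hI (t, c)
  set d : GL chevD4.Idx K := torJ (sys (F := K)).toAddRel [1, 0, 2, 3]
    (dP φ (t : K) (((c : Kˣ)) : K)) with hd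
  have hdG : d ∈ twistedD4 K q := by
    rw [hd]
    have := h.2.2
    rwa [hh] at this
  set b₀ : K := τ₀ - v₀ - 1 with hb₀
  have hb₀f : φ b₀ = b₀ := by
    rw [hb₀, map_sub, map_sub, map_one, hτ₀f, hv₀f]
  have h1f : φ (1 : K) = 1 := map_one φ
  refine ⟨d * (X (sys (F := K)).toAddRel 9 b₀ * X (sys (F := K)).toAddRel 14 1),
    XE 9 (((e2 : E) - 1) * ((e1 : E) - e2) / e1) * XE 14 ((e1 : E) / ((e1 : E) - e2)) *
      XE 9 (((e2 : E) - 1) / e1), ?_, ?_, ?_⟩
  · exact Subgroup.mul_mem _ hdG (Subgroup.mul_mem _ (X9_mem hφ hb₀f) (X14_mem hφ h1f))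
  · refine Subgroup.mul_mem _ (Subgroup.mul_mem _ ?_ ?_) ?_ <;>
      exact Tw.X_mem_group (hA := (sys (F := E)).toAddRel) (by decide +kernel) _
  · -- the diagonal form
    set D : ℕ → E := fun j => ι (dP φ (t : K) (((c : Kˣ)) : K) j) with hD
    have hdE : mp ι d = torJ (sys (F := E)).toAddRel [1, 0, 2, 3] D := by
      rw [hd, mp_torJ]
    have hDne : ∀ j, D j ≠ 0 := by
      intro j
      rw [hD]
      simp only [dP]
      split_ifs <;> simp
    have hD1 : D 1 = ι ((c : Kˣ) : K) := by simp [hD, dP]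
    have hD0 : D 0 = ι (t : K) := by simp [hD, dP]
    have hD2 : D 2 = ι (φ (t : K)) := by simp [hD, dP]
    have hD3 : D 3 = ι (φ (φ (t : K))) := by simp [hD, dP]
    have hval : D 1 ^ 2 * (D 0 * D 2 * D 3)⁻¹ = (e1 : E) * e2 := by
      rw [hD1, hD0, hD2, hD3, ← hv₀, ← map_mul, ← map_mul, ← map_inv₀, ← map_pow, ← map_mul]
      congr 1
      have := congrArg (fun u : Kˣ => (u : K)) hf2
      simpa using this
    have hDv : (D 1 ^ 2 * (D 0 * D 2 * D 3)⁻¹) ≠ 0 := by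
      rw [hval]
      exact mul_ne_zero (Units.ne_zero e1) (Units.ne_zero e2)
    have hconj14 : ∀ u : E, mp ι d * XE 14 u * (mp ι d)⁻¹ = XE 14 (((e1 : E) * e2) * u) := by
      intro u
      rw [hdE]
      have := torJ_conj (sys (F := E)) (J := [1, 0, 2, 3]) (by decide) (d := D) (fun i _ => hDne i)
        (r := 14) (by decide +kernel) u
      rw [this, ← hval]
      congr 1
      simp only [List.map_cons, List.map_nil, List.prod_cons, List.prod_nil, mul_one]
      rw [show chevD4.cartan 1 14 = 2 by decide +kernel, show chevD4.cartan 0 14 = -1 by decide +kernel,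
        show chevD4.cartan 2 14 = -1 by decide +kernel, show chevD4.cartan 3 14 = -1 by decide +kernel]
      have h0 := hDne 0
      have h2 := hDne 2
      have h3 := hDne 3
      field_simp
    have hconj9 : ∀ u : E, mp ι d * XE 9 u * (mp ι d)⁻¹ = XE 9 (((e1 : E) * e2)⁻¹ * u) := by
      intro u
      rw [hdE]
      have := torJ_conj (sys (F := E)) (J := [1, 0, 2, 3]) (by decide) (d := D) (fun i _ => hDne i)
        (r := 9) (by decide +kernel) u
      rw [this, ← hval]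
      congr 1
      simp only [List.map_cons, List.map_nil, List.prod_cons, List.prod_nil, mul_one]
      rw [show chevD4.cartan 1 9 = -2 by decide +kernel, show chevD4.cartan 0 9 = 1 by decide +kernel,
        show chevD4.cartan 2 9 = 1 by decide +kernel, show chevD4.cartan 3 9 = 1 by decide +kernel]
      have h0 := hDne 0
      have h1 := hDne 1
      have h2 := hDne 2
      have h3 := hDne 3
      field_simp
    have hL := levi (d := mp ι d) (v := (e1 : E) * e2) (e₁ := e1) (e₂ := e2) rfl (Units.ne_zero e1)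
      (Units.ne_zero e2) hne12 hconj14 hconj9
    have hy : mp ι (X (sys (F := K)).toAddRel 9 b₀ * X (sys (F := K)).toAddRel 14 1) =
        XE 9 ((e1 : E) + e2 - (e1 : E) * e2 - 1) * XE 14 1 := by
      rw [map_mul, mp_X, mp_X, map_one, hb₀, map_sub, map_sub, map_one, hτ₀, hv₀]
    have hcj : cj ι (XE 9 (((e2 : E) - 1) * ((e1 : E) - e2) / e1) * XE 14 ((e1 : E) / ((e1 : E) - e2)) *
        XE 9 (((e2 : E) - 1) / e1)) (d * (X (sys (F := K)).toAddRel 9 b₀ * X (sys (F := K)).toAddRel 14 1)) =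
        mp ι d * hG (sys (F := E)).toAddRel 14 (e2 : E)⁻¹ := by
      rw [cj, map_mul, hy]
      exact hL
    rw [hcj, hdE]
    have hform := diag_form (E := E) (Units.map (ι : K →* E) c.1) e2⁻¹ D (by rw [hD1]; rfl) hDne
      (Units.map (ι : K →* E) t) (Units.map (ι : K →* E) (φU φ t))
      (Units.map (ι : K →* E) (φU φ (φU φ t))) (by rw [hD0]; rfl) (by rw [hD2]; rfl) (by rw [hD3]; rfl)
    rw [Units.val_inv_eq_inv_val] at hform
    rw [hform]
    congr 1
    refine funext (fun s : Fin 24 => ?_)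
    congr 1
    -- the values
    set c1 : Eˣ := Units.map (ι : K →* E) c.1 with hc1
    set B : Eˣ := Units.map (ι : K →* E) t with hB
    set G : Eˣ := Units.map (ι : K →* E) (φU φ t) with hG'
    set H : Eˣ := Units.map (ι : K →* E) (φU φ (φU φ t)) with hH
    have r1 : B * B * c1⁻¹ = Θ := by
      apply Units.ext
      have := congrArg (fun u : Kˣ => ι (u : K)) hf1
      simp only [Units.val_mul, Units.val_pow_eq_pow_val, Units.val_inv_eq_inv_val, Units.val_mk0,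
        map_mul, map_pow, map_inv₀] at this
      simp only [Units.val_mul, Units.val_inv_eq_inv_val, hB, hc1, Units.coe_map, MonoidHom.coe_coe]
      rw [← hθ₀, ← this]
      ring
    have r2 : G * G * c1⁻¹ = ξ ^ (Q * (-(Q * (Q + 1)))) := by
      apply Units.ext
      rw [← hp, ← hΘ, ← hθ₀, ← hι]
      have := congrArg (fun u : Kˣ => ι (φ (u : K))) hf1
      simp only [Units.val_mul, Units.val_pow_eq_pow_val, Units.val_inv_eq_inv_val, Units.val_mk0,
        map_mul, map_pow, map_inv₀, hcf] at this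
      simp only [Units.val_mul, Units.val_inv_eq_inv_val, hG', hc1, Units.coe_map, MonoidHom.coe_coe]
      rw [← this]
      ring
    have r3 : H * H * c1⁻¹ = ξ ^ (Q * (Q * (-(Q * (Q + 1))))) := by
      apply Units.ext
      rw [← hp, ← hp, ← hΘ, ← hθ₀, ← hι, ← hι]
      have := congrArg (fun u : Kˣ => ι (φ (φ (u : K)))) hf1
      simp only [Units.val_mul, Units.val_pow_eq_pow_val, Units.val_inv_eq_inv_val, Units.val_mk0,
        map_mul, map_pow, map_inv₀, hcf] at this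
      simp only [Units.val_mul, Units.val_inv_eq_inv_val, hH, hc1, Units.coe_map, MonoidHom.coe_coe]
      rw [← this]
      ring
    have r4 : c1 ^ 2 * (B * G * H)⁻¹ = e1 * e2 := by
      apply Units.ext
      have := congrArg (fun u : Kˣ => ι (u : K)) hf2
      simp only [Units.val_mul, Units.val_pow_eq_pow_val, Units.val_inv_eq_inv_val, Units.val_mk0,
        map_mul, map_pow, map_inv₀] at this
      simp only [Units.val_mul, Units.val_pow_eq_pow_val, Units.val_inv_eq_inv_val, hB, hG', hH, hc1,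
        Units.coe_map, MonoidHom.coe_coe]
      rw [← hv₀, ← this]
      rfl
    have P0 : (c1 * e2⁻¹)⁻¹ * B * B = ξ ^ (1 : ℤ) := by
      have : (c1 * e2⁻¹)⁻¹ * B * B = (B * B * c1⁻¹) * e2 := by
        rw [_root_.mul_inv_rev, inv_inv]
        ac_rfl
      rw [this, r1, hΘ, he2, ← _root_.zpow_add]
      congr 1
      rw [hM]
      ring
    have P1 : (c1 * e2⁻¹) * (c1 * e2⁻¹) / B / G / H = ξ ^ (Q ^ 3 - 1) := by
      have : (c1 * e2⁻¹) * (c1 * e2⁻¹) / B / G / H = (c1 ^ 2 * (B * G * H)⁻¹) * (e2⁻¹ * e2⁻¹) := by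
        simp only [div_eq_mul_inv, _root_.mul_inv_rev, sq]
        ac_rfl
      rw [this, r4, he1, he2, ← _root_.zpow_neg, ← _root_.zpow_add, ← _root_.zpow_add, ← _root_.zpow_add]
      congr 1
      rw [hM]
      ring
    have P2 : (c1 * e2⁻¹)⁻¹ * G * G = ξ ^ (Q ^ 4) := by
      have : (c1 * e2⁻¹)⁻¹ * G * G = (G * G * c1⁻¹) * e2 := by
        rw [_root_.mul_inv_rev, inv_inv]
        ac_rfl
      rw [this, r2, he2, ← _root_.zpow_add]
      exact hz (c := -1) (by rw [hM]; ring)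
    have P3 : (c1 * e2⁻¹)⁻¹ * H * H = ξ ^ (Q ^ 2) := by
      have : (c1 * e2⁻¹)⁻¹ * H * H = (H * H * c1⁻¹) * e2 := by
        rw [_root_.mul_inv_rev, inv_inv]
        ac_rfl
      rw [this, r3, he2, ← _root_.zpow_add]
      exact hz (c := -1) (by rw [hM]; ring)
    rw [tbl1 s, tbl0 s, tbl2 s, tbl3 s, vec_id, P0, P1, P2, P3, ← _root_.zpow_mul, ← _root_.zpow_mul, ← _root_.zpow_mul,
      ← _root_.zpow_mul, ← _root_.zpow_add, ← _root_.zpow_add, ← _root_.zpow_add]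
    congr 1
    rw [EE]
    ring

end Main

end Cfsg.Agent.Lib.Classical.Lin.D4Tor4
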