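import Mathlib
import Cfsg.Agent.Lib.Classical.Lin.D4Tor4

/-!
# Arithmetic of the exponents of the torus element of `³D₄(q)`
-/

set_option autoImplicit false
set_option linter.unusedSectionVars false
set_option linter.unusedSimpArgs false
set_option linter.unusedVariables false
set_option maxRecDepth 100000

namespace Cfsg.Agent.Lib.Classical.Lin.D4Tor5

open Cfsg.Lie Cfsg.Agent.Lib.Classical.Lin.D4Tor3

/-- The order of the torus. -/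
def NN (Q : ℤ) : ℤ := (Q ^ 3 - 1) * (Q + 1)

theorem nd3 {n D : ℤ} (k : ℤ) (hn : 0 < n) (h1 : n * k < D) (h2 : D < n * (k + 1)) : ¬ n ∣ D := by
  rintro ⟨c, rfl⟩
  have h3 : k < c := lt_of_mul_lt_mul_left h1 hn.le
  have h4 : c < k + 1 := lt_of_mul_lt_mul_left h2 hn.le
  omega

theorem E0 (Q : ℤ) : EE Q 0 = (1) + (-1) * Q ^ 2 + (-2) * Q ^ 3 + (-1) * Q ^ 4 := by
  have h : nn 0 0 = -1 ∧ nn 0 1 = -2 ∧ nn 0 2 = -1 ∧ nn 0 3 = -1 := by decide +kernel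
  rw [EE, h.1, h.2.1, h.2.2.1, h.2.2.2]
  ring

theorem E1 (Q : ℤ) : EE Q 1 = (-1) * Q ^ 2 + (-1) * Q ^ 3 + (-1) * Q ^ 4 := by
  have h : nn 1 0 = -1 ∧ nn 1 1 = -1 ∧ nn 1 2 = -1 ∧ nn 1 3 = -1 := by decide +kernel
  rw [EE, h.1, h.2.1, h.2.2.1, h.2.2.2]
  ring

theorem E2 (Q : ℤ) : EE Q 2 = (-1) * Q ^ 3 + (-1) * Q ^ 4 := by
  have h : nn 2 0 = -1 ∧ nn 2 1 = -1 ∧ nn 2 2 = -1 ∧ nn 2 3 = 0 := by decide +kernel
  rw [EE, h.1, h.2.1, h.2.2.1, h.2.2.2]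
  ring

theorem E3 (Q : ℤ) : EE Q 3 = (-1) * Q ^ 2 + (-1) * Q ^ 3 := by
  have h : nn 3 0 = -1 ∧ nn 3 1 = -1 ∧ nn 3 2 = 0 ∧ nn 3 3 = -1 := by decide +kernel
  rw [EE, h.1, h.2.1, h.2.2.1, h.2.2.2]
  ring

theorem E4 (Q : ℤ) : EE Q 4 = (-1) * Q ^ 3 := by
  have h : nn 4 0 = -1 ∧ nn 4 1 = -1 ∧ nn 4 2 = 0 ∧ nn 4 3 = 0 := by decide +kernel
  rw [EE, h.1, h.2.1, h.2.2.1, h.2.2.2]
  ring

theorem E5 (Q : ℤ) : EE Q 5 = (-1) := by
  have h : nn 5 0 = -1 ∧ nn 5 1 = 0 ∧ nn 5 2 = 0 ∧ nn 5 3 = 0 := by decide +kernel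
  rw [EE, h.1, h.2.1, h.2.2.1, h.2.2.2]
  ring

theorem E6 (Q : ℤ) : EE Q 6 = (1) + (-1) * Q ^ 2 + (-1) * Q ^ 3 + (-1) * Q ^ 4 := by
  have h : nn 6 0 = 0 ∧ nn 6 1 = -1 ∧ nn 6 2 = -1 ∧ nn 6 3 = -1 := by decide +kernel
  rw [EE, h.1, h.2.1, h.2.2.1, h.2.2.2]
  ring

theorem E7 (Q : ℤ) : EE Q 7 = (1) + (-1) * Q ^ 3 + (-1) * Q ^ 4 := by
  have h : nn 7 0 = 0 ∧ nn 7 1 = -1 ∧ nn 7 2 = -1 ∧ nn 7 3 = 0 := by decide +kernel
  rw [EE, h.1, h.2.1, h.2.2.1, h.2.2.2]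
  ring

theorem E8 (Q : ℤ) : EE Q 8 = (1) + (-1) * Q ^ 2 + (-1) * Q ^ 3 := by
  have h : nn 8 0 = 0 ∧ nn 8 1 = -1 ∧ nn 8 2 = 0 ∧ nn 8 3 = -1 := by decide +kernel
  rw [EE, h.1, h.2.1, h.2.2.1, h.2.2.2]
  ring

theorem E9 (Q : ℤ) : EE Q 9 = (1) + (-1) * Q ^ 3 := by
  have h : nn 9 0 = 0 ∧ nn 9 1 = -1 ∧ nn 9 2 = 0 ∧ nn 9 3 = 0 := by decide +kernel
  rw [EE, h.1, h.2.1, h.2.2.1, h.2.2.2]
  ring

theorem E10 (Q : ℤ) : EE Q 10 = (-1) * Q ^ 4 := by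
  have h : nn 10 0 = 0 ∧ nn 10 1 = 0 ∧ nn 10 2 = -1 ∧ nn 10 3 = 0 := by decide +kernel
  rw [EE, h.1, h.2.1, h.2.2.1, h.2.2.2]
  ring

theorem E11 (Q : ℤ) : EE Q 11 = (-1) * Q ^ 2 := by
  have h : nn 11 0 = 0 ∧ nn 11 1 = 0 ∧ nn 11 2 = 0 ∧ nn 11 3 = -1 := by decide +kernel
  rw [EE, h.1, h.2.1, h.2.2.1, h.2.2.2]
  ring

theorem E12 (Q : ℤ) : EE Q 12 = (1) * Q ^ 2 := by
  have h : nn 12 0 = 0 ∧ nn 12 1 = 0 ∧ nn 12 2 = 0 ∧ nn 12 3 = 1 := by decide +kernel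
  rw [EE, h.1, h.2.1, h.2.2.1, h.2.2.2]
  ring

theorem E13 (Q : ℤ) : EE Q 13 = (1) * Q ^ 4 := by
  have h : nn 13 0 = 0 ∧ nn 13 1 = 0 ∧ nn 13 2 = 1 ∧ nn 13 3 = 0 := by decide +kernel
  rw [EE, h.1, h.2.1, h.2.2.1, h.2.2.2]
  ring

theorem E14 (Q : ℤ) : EE Q 14 = (-1) + (1) * Q ^ 3 := by
  have h : nn 14 0 = 0 ∧ nn 14 1 = 1 ∧ nn 14 2 = 0 ∧ nn 14 3 = 0 := by decide +kernel
  rw [EE, h.1, h.2.1, h.2.2.1, h.2.2.2]
  ring

theorem E15 (Q : ℤ) : EE Q 15 = (-1) + (1) * Q ^ 2 + (1) * Q ^ 3 := by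
  have h : nn 15 0 = 0 ∧ nn 15 1 = 1 ∧ nn 15 2 = 0 ∧ nn 15 3 = 1 := by decide +kernel
  rw [EE, h.1, h.2.1, h.2.2.1, h.2.2.2]
  ring

theorem E16 (Q : ℤ) : EE Q 16 = (-1) + (1) * Q ^ 3 + (1) * Q ^ 4 := by
  have h : nn 16 0 = 0 ∧ nn 16 1 = 1 ∧ nn 16 2 = 1 ∧ nn 16 3 = 0 := by decide +kernel
  rw [EE, h.1, h.2.1, h.2.2.1, h.2.2.2]
  ring

theorem E17 (Q : ℤ) : EE Q 17 = (-1) + (1) * Q ^ 2 + (1) * Q ^ 3 + (1) * Q ^ 4 := by
  have h : nn 17 0 = 0 ∧ nn 17 1 = 1 ∧ nn 17 2 = 1 ∧ nn 17 3 = 1 := by decide +kernel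
  rw [EE, h.1, h.2.1, h.2.2.1, h.2.2.2]
  ring

theorem E18 (Q : ℤ) : EE Q 18 = (1) := by
  have h : nn 18 0 = 1 ∧ nn 18 1 = 0 ∧ nn 18 2 = 0 ∧ nn 18 3 = 0 := by decide +kernel
  rw [EE, h.1, h.2.1, h.2.2.1, h.2.2.2]
  ring

theorem E19 (Q : ℤ) : EE Q 19 = (1) * Q ^ 3 := by
  have h : nn 19 0 = 1 ∧ nn 19 1 = 1 ∧ nn 19 2 = 0 ∧ nn 19 3 = 0 := by decide +kernel
  rw [EE, h.1, h.2.1, h.2.2.1, h.2.2.2]
  ring

theorem E20 (Q : ℤ) : EE Q 20 = (1) * Q ^ 2 + (1) * Q ^ 3 := by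
  have h : nn 20 0 = 1 ∧ nn 20 1 = 1 ∧ nn 20 2 = 0 ∧ nn 20 3 = 1 := by decide +kernel
  rw [EE, h.1, h.2.1, h.2.2.1, h.2.2.2]
  ring

theorem E21 (Q : ℤ) : EE Q 21 = (1) * Q ^ 3 + (1) * Q ^ 4 := by
  have h : nn 21 0 = 1 ∧ nn 21 1 = 1 ∧ nn 21 2 = 1 ∧ nn 21 3 = 0 := by decide +kernel
  rw [EE, h.1, h.2.1, h.2.2.1, h.2.2.2]
  ring

theorem E22 (Q : ℤ) : EE Q 22 = (1) * Q ^ 2 + (1) * Q ^ 3 + (1) * Q ^ 4 := by
  have h : nn 22 0 = 1 ∧ nn 22 1 = 1 ∧ nn 22 2 = 1 ∧ nn 22 3 = 1 := by decide +kernel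
  rw [EE, h.1, h.2.1, h.2.2.1, h.2.2.2]
  ring

theorem E23 (Q : ℤ) : EE Q 23 = (-1) + (1) * Q ^ 2 + (2) * Q ^ 3 + (1) * Q ^ 4 := by
  have h : nn 23 0 = 1 ∧ nn 23 1 = 2 ∧ nn 23 2 = 1 ∧ nn 23 3 = 1 := by decide +kernel
  rw [EE, h.1, h.2.1, h.2.2.1, h.2.2.2]
  ring

theorem sp18 {Q : ℤ} (hQ : 3 ≤ Q) : (∀ s : Fin 24, s ≠ 18 → ¬ NN Q ∣ EE Q 18 - EE Q s) ∧ ¬ NN Q ∣ EE Q 18 := by
  have f2 : 3 * Q ≤ Q ^ 2 := by nlinarith
  have f3 : 3 * Q ^ 2 ≤ Q ^ 3 := by nlinarith [sq_nonneg Q]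
  have f4 : 3 * Q ^ 3 ≤ Q ^ 4 := by nlinarith [pow_pos (show (0 : ℤ) < Q by linarith) 3]
  have hN : 0 < NN Q := by rw [NN]; nlinarith
  refine ⟨fun s hs => ?_, ?_⟩
  · fin_cases s
    · change ¬ NN Q ∣ EE Q 18 - EE Q 0; rw [E18, E0]; exact nd3 (1) hN (by rw [NN]; linarith) (by rw [NN]; linarith)
    · change ¬ NN Q ∣ EE Q 18 - EE Q 1; rw [E18, E1]; exact nd3 (1) hN (by rw [NN]; linarith) (by rw [NN]; linarith)
    · change ¬ NN Q ∣ EE Q 18 - EE Q 2; rw [E18, E2]; exact nd3 (1) hN (by rw [NN]; linarith) (by rw [NN]; linarith)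
    · change ¬ NN Q ∣ EE Q 18 - EE Q 3; rw [E18, E3]; exact nd3 (0) hN (by rw [NN]; linarith) (by rw [NN]; linarith)
    · change ¬ NN Q ∣ EE Q 18 - EE Q 4; rw [E18, E4]; exact nd3 (0) hN (by rw [NN]; linarith) (by rw [NN]; linarith)
    · change ¬ NN Q ∣ EE Q 18 - EE Q 5; rw [E18, E5]; exact nd3 (0) hN (by rw [NN]; linarith) (by rw [NN]; linarith)
    · change ¬ NN Q ∣ EE Q 18 - EE Q 6; rw [E18, E6]; exact nd3 (1) hN (by rw [NN]; linarith) (by rw [NN]; linarith)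
    · change ¬ NN Q ∣ EE Q 18 - EE Q 7; rw [E18, E7]; exact nd3 (1) hN (by rw [NN]; linarith) (by rw [NN]; linarith)
    · change ¬ NN Q ∣ EE Q 18 - EE Q 8; rw [E18, E8]; exact nd3 (0) hN (by rw [NN]; linarith) (by rw [NN]; linarith)
    · change ¬ NN Q ∣ EE Q 18 - EE Q 9; rw [E18, E9]; exact nd3 (0) hN (by rw [NN]; linarith) (by rw [NN]; linarith)
    · change ¬ NN Q ∣ EE Q 18 - EE Q 10; rw [E18, E10]; exact nd3 (0) hN (by rw [NN]; linarith) (by rw [NN]; linarith)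
    · change ¬ NN Q ∣ EE Q 18 - EE Q 11; rw [E18, E11]; exact nd3 (0) hN (by rw [NN]; linarith) (by rw [NN]; linarith)
    · change ¬ NN Q ∣ EE Q 18 - EE Q 12; rw [E18, E12]; exact nd3 (-1) hN (by rw [NN]; linarith) (by rw [NN]; linarith)
    · change ¬ NN Q ∣ EE Q 18 - EE Q 13; rw [E18, E13]; exact nd3 (-1) hN (by rw [NN]; linarith) (by rw [NN]; linarith)
    · change ¬ NN Q ∣ EE Q 18 - EE Q 14; rw [E18, E14]; exact nd3 (-1) hN (by rw [NN]; linarith) (by rw [NN]; linarith)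
    · change ¬ NN Q ∣ EE Q 18 - EE Q 15; rw [E18, E15]; exact nd3 (-1) hN (by rw [NN]; linarith) (by rw [NN]; linarith)
    · change ¬ NN Q ∣ EE Q 18 - EE Q 16; rw [E18, E16]; exact nd3 (-2) hN (by rw [NN]; linarith) (by rw [NN]; linarith)
    · change ¬ NN Q ∣ EE Q 18 - EE Q 17; rw [E18, E17]; exact nd3 (-2) hN (by rw [NN]; linarith) (by rw [NN]; linarith)
    · exact absurd rfl hs
    · change ¬ NN Q ∣ EE Q 18 - EE Q 19; rw [E18, E19]; exact nd3 (-1) hN (by rw [NN]; linarith) (by rw [NN]; linarith)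
    · change ¬ NN Q ∣ EE Q 18 - EE Q 20; rw [E18, E20]; exact nd3 (-1) hN (by rw [NN]; linarith) (by rw [NN]; linarith)
    · change ¬ NN Q ∣ EE Q 18 - EE Q 21; rw [E18, E21]; exact nd3 (-2) hN (by rw [NN]; linarith) (by rw [NN]; linarith)
    · change ¬ NN Q ∣ EE Q 18 - EE Q 22; rw [E18, E22]; exact nd3 (-2) hN (by rw [NN]; linarith) (by rw [NN]; linarith)
    · change ¬ NN Q ∣ EE Q 18 - EE Q 23; rw [E18, E23]; exact nd3 (-2) hN (by rw [NN]; linarith) (by rw [NN]; linarith)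
  · rw [E18]; exact nd3 (0) hN (by rw [NN]; linarith) (by rw [NN]; linarith)

theorem sp19 {Q : ℤ} (hQ : 3 ≤ Q) : (∀ s : Fin 24, s ≠ 19 → ¬ NN Q ∣ EE Q 19 - EE Q s) ∧ ¬ NN Q ∣ EE Q 19 := by
  have f2 : 3 * Q ≤ Q ^ 2 := by nlinarith
  have f3 : 3 * Q ^ 2 ≤ Q ^ 3 := by nlinarith [sq_nonneg Q]
  have f4 : 3 * Q ^ 3 ≤ Q ^ 4 := by nlinarith [pow_pos (show (0 : ℤ) < Q by linarith) 3]
  have hN : 0 < NN Q := by rw [NN]; nlinarith
  refine ⟨fun s hs => ?_, ?_⟩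
  · fin_cases s
    · change ¬ NN Q ∣ EE Q 19 - EE Q 0; rw [E19, E0]; exact nd3 (1) hN (by rw [NN]; linarith) (by rw [NN]; linarith)
    · change ¬ NN Q ∣ EE Q 19 - EE Q 1; rw [E19, E1]; exact nd3 (1) hN (by rw [NN]; linarith) (by rw [NN]; linarith)
    · change ¬ NN Q ∣ EE Q 19 - EE Q 2; rw [E19, E2]; exact nd3 (1) hN (by rw [NN]; linarith) (by rw [NN]; linarith)
    · change ¬ NN Q ∣ EE Q 19 - EE Q 3; rw [E19, E3]; exact nd3 (0) hN (by rw [NN]; linarith) (by rw [NN]; linarith)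
    · change ¬ NN Q ∣ EE Q 19 - EE Q 4; rw [E19, E4]; exact nd3 (0) hN (by rw [NN]; linarith) (by rw [NN]; linarith)
    · change ¬ NN Q ∣ EE Q 19 - EE Q 5; rw [E19, E5]; exact nd3 (0) hN (by rw [NN]; linarith) (by rw [NN]; linarith)
    · change ¬ NN Q ∣ EE Q 19 - EE Q 6; rw [E19, E6]; exact nd3 (1) hN (by rw [NN]; linarith) (by rw [NN]; linarith)
    · change ¬ NN Q ∣ EE Q 19 - EE Q 7; rw [E19, E7]; exact nd3 (1) hN (by rw [NN]; linarith) (by rw [NN]; linarith)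
    · change ¬ NN Q ∣ EE Q 19 - EE Q 8; rw [E19, E8]; exact nd3 (0) hN (by rw [NN]; linarith) (by rw [NN]; linarith)
    · change ¬ NN Q ∣ EE Q 19 - EE Q 9; rw [E19, E9]; exact nd3 (0) hN (by rw [NN]; linarith) (by rw [NN]; linarith)
    · change ¬ NN Q ∣ EE Q 19 - EE Q 10; rw [E19, E10]; exact nd3 (1) hN (by rw [NN]; linarith) (by rw [NN]; linarith)
    · change ¬ NN Q ∣ EE Q 19 - EE Q 11; rw [E19, E11]; exact nd3 (0) hN (by rw [NN]; linarith) (by rw [NN]; linarith)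
    · change ¬ NN Q ∣ EE Q 19 - EE Q 12; rw [E19, E12]; exact nd3 (0) hN (by rw [NN]; linarith) (by rw [NN]; linarith)
    · change ¬ NN Q ∣ EE Q 19 - EE Q 13; rw [E19, E13]; exact nd3 (-1) hN (by rw [NN]; linarith) (by rw [NN]; linarith)
    · change ¬ NN Q ∣ EE Q 19 - EE Q 14; rw [E19, E14]; exact nd3 (0) hN (by rw [NN]; linarith) (by rw [NN]; linarith)
    · change ¬ NN Q ∣ EE Q 19 - EE Q 15; rw [E19, E15]; exact nd3 (-1) hN (by rw [NN]; linarith) (by rw [NN]; linarith)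
    · change ¬ NN Q ∣ EE Q 19 - EE Q 16; rw [E19, E16]; exact nd3 (-1) hN (by rw [NN]; linarith) (by rw [NN]; linarith)
    · change ¬ NN Q ∣ EE Q 19 - EE Q 17; rw [E19, E17]; exact nd3 (-1) hN (by rw [NN]; linarith) (by rw [NN]; linarith)
    · change ¬ NN Q ∣ EE Q 19 - EE Q 18; rw [E19, E18]; exact nd3 (0) hN (by rw [NN]; linarith) (by rw [NN]; linarith)
    · exact absurd rfl hs
    · change ¬ NN Q ∣ EE Q 19 - EE Q 20; rw [E19, E20]; exact nd3 (-1) hN (by rw [NN]; linarith) (by rw [NN]; linarith)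
    · change ¬ NN Q ∣ EE Q 19 - EE Q 21; rw [E19, E21]; exact nd3 (-1) hN (by rw [NN]; linarith) (by rw [NN]; linarith)
    · change ¬ NN Q ∣ EE Q 19 - EE Q 22; rw [E19, E22]; exact nd3 (-1) hN (by rw [NN]; linarith) (by rw [NN]; linarith)
    · change ¬ NN Q ∣ EE Q 19 - EE Q 23; rw [E19, E23]; exact nd3 (-2) hN (by rw [NN]; linarith) (by rw [NN]; linarith)
  · rw [E19]; exact nd3 (0) hN (by rw [NN]; linarith) (by rw [NN]; linarith)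

theorem sp13 {Q : ℤ} (hQ : 3 ≤ Q) : (∀ s : Fin 24, s ≠ 13 → ¬ NN Q ∣ EE Q 13 - EE Q s) ∧ ¬ NN Q ∣ EE Q 13 := by
  have f2 : 3 * Q ≤ Q ^ 2 := by nlinarith
  have f3 : 3 * Q ^ 2 ≤ Q ^ 3 := by nlinarith [sq_nonneg Q]
  have f4 : 3 * Q ^ 3 ≤ Q ^ 4 := by nlinarith [pow_pos (show (0 : ℤ) < Q by linarith) 3]
  have hN : 0 < NN Q := by rw [NN]; nlinarith
  refine ⟨fun s hs => ?_, ?_⟩
  · fin_cases s
    · change ¬ NN Q ∣ EE Q 13 - EE Q 0; rw [E13, E0]; exact nd3 (2) hN (by rw [NN]; linarith) (by rw [NN]; linarith)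
    · change ¬ NN Q ∣ EE Q 13 - EE Q 1; rw [E13, E1]; exact nd3 (1) hN (by rw [NN]; linarith) (by rw [NN]; linarith)
    · change ¬ NN Q ∣ EE Q 13 - EE Q 2; rw [E13, E2]; exact nd3 (1) hN (by rw [NN]; linarith) (by rw [NN]; linarith)
    · change ¬ NN Q ∣ EE Q 13 - EE Q 3; rw [E13, E3]; exact nd3 (1) hN (by rw [NN]; linarith) (by rw [NN]; linarith)
    · change ¬ NN Q ∣ EE Q 13 - EE Q 4; rw [E13, E4]; exact nd3 (1) hN (by rw [NN]; linarith) (by rw [NN]; linarith)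
    · change ¬ NN Q ∣ EE Q 13 - EE Q 5; rw [E13, E5]; exact nd3 (0) hN (by rw [NN]; linarith) (by rw [NN]; linarith)
    · change ¬ NN Q ∣ EE Q 13 - EE Q 6; rw [E13, E6]; exact nd3 (1) hN (by rw [NN]; linarith) (by rw [NN]; linarith)
    · change ¬ NN Q ∣ EE Q 13 - EE Q 7; rw [E13, E7]; exact nd3 (1) hN (by rw [NN]; linarith) (by rw [NN]; linarith)
    · change ¬ NN Q ∣ EE Q 13 - EE Q 8; rw [E13, E8]; exact nd3 (1) hN (by rw [NN]; linarith) (by rw [NN]; linarith)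
    · change ¬ NN Q ∣ EE Q 13 - EE Q 9; rw [E13, E9]; exact nd3 (1) hN (by rw [NN]; linarith) (by rw [NN]; linarith)
    · change ¬ NN Q ∣ EE Q 13 - EE Q 10; rw [E13, E10]; exact nd3 (1) hN (by rw [NN]; linarith) (by rw [NN]; linarith)
    · change ¬ NN Q ∣ EE Q 13 - EE Q 11; rw [E13, E11]; exact nd3 (0) hN (by rw [NN]; linarith) (by rw [NN]; linarith)
    · change ¬ NN Q ∣ EE Q 13 - EE Q 12; rw [E13, E12]; exact nd3 (0) hN (by rw [NN]; linarith) (by rw [NN]; linarith)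
    · exact absurd rfl hs
    · change ¬ NN Q ∣ EE Q 13 - EE Q 14; rw [E13, E14]; exact nd3 (0) hN (by rw [NN]; linarith) (by rw [NN]; linarith)
    · change ¬ NN Q ∣ EE Q 13 - EE Q 15; rw [E13, E15]; exact nd3 (0) hN (by rw [NN]; linarith) (by rw [NN]; linarith)
    · change ¬ NN Q ∣ EE Q 13 - EE Q 16; rw [E13, E16]; exact nd3 (-1) hN (by rw [NN]; linarith) (by rw [NN]; linarith)
    · change ¬ NN Q ∣ EE Q 13 - EE Q 17; rw [E13, E17]; exact nd3 (-1) hN (by rw [NN]; linarith) (by rw [NN]; linarith)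
    · change ¬ NN Q ∣ EE Q 13 - EE Q 18; rw [E13, E18]; exact nd3 (0) hN (by rw [NN]; linarith) (by rw [NN]; linarith)
    · change ¬ NN Q ∣ EE Q 13 - EE Q 19; rw [E13, E19]; exact nd3 (0) hN (by rw [NN]; linarith) (by rw [NN]; linarith)
    · change ¬ NN Q ∣ EE Q 13 - EE Q 20; rw [E13, E20]; exact nd3 (0) hN (by rw [NN]; linarith) (by rw [NN]; linarith)
    · change ¬ NN Q ∣ EE Q 13 - EE Q 21; rw [E13, E21]; exact nd3 (-1) hN (by rw [NN]; linarith) (by rw [NN]; linarith)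
    · change ¬ NN Q ∣ EE Q 13 - EE Q 22; rw [E13, E22]; exact nd3 (-1) hN (by rw [NN]; linarith) (by rw [NN]; linarith)
    · change ¬ NN Q ∣ EE Q 13 - EE Q 23; rw [E13, E23]; exact nd3 (-1) hN (by rw [NN]; linarith) (by rw [NN]; linarith)
  · rw [E13]; exact nd3 (0) hN (by rw [NN]; linarith) (by rw [NN]; linarith)

theorem sp16 {Q : ℤ} (hQ : 3 ≤ Q) : (∀ s : Fin 24, s ≠ 16 → ¬ NN Q ∣ EE Q 16 - EE Q s) ∧ ¬ NN Q ∣ EE Q 16 := by
  have f2 : 3 * Q ≤ Q ^ 2 := by nlinarith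
  have f3 : 3 * Q ^ 2 ≤ Q ^ 3 := by nlinarith [sq_nonneg Q]
  have f4 : 3 * Q ^ 3 ≤ Q ^ 4 := by nlinarith [pow_pos (show (0 : ℤ) < Q by linarith) 3]
  have hN : 0 < NN Q := by rw [NN]; nlinarith
  refine ⟨fun s hs => ?_, ?_⟩
  · fin_cases s
    · change ¬ NN Q ∣ EE Q 16 - EE Q 0; rw [E16, E0]; exact nd3 (2) hN (by rw [NN]; linarith) (by rw [NN]; linarith)
    · change ¬ NN Q ∣ EE Q 16 - EE Q 1; rw [E16, E1]; exact nd3 (2) hN (by rw [NN]; linarith) (by rw [NN]; linarith)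
    · change ¬ NN Q ∣ EE Q 16 - EE Q 2; rw [E16, E2]; exact nd3 (2) hN (by rw [NN]; linarith) (by rw [NN]; linarith)
    · change ¬ NN Q ∣ EE Q 16 - EE Q 3; rw [E16, E3]; exact nd3 (1) hN (by rw [NN]; linarith) (by rw [NN]; linarith)
    · change ¬ NN Q ∣ EE Q 16 - EE Q 4; rw [E16, E4]; exact nd3 (1) hN (by rw [NN]; linarith) (by rw [NN]; linarith)
    · change ¬ NN Q ∣ EE Q 16 - EE Q 5; rw [E16, E5]; exact nd3 (1) hN (by rw [NN]; linarith) (by rw [NN]; linarith)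
    · change ¬ NN Q ∣ EE Q 16 - EE Q 6; rw [E16, E6]; exact nd3 (2) hN (by rw [NN]; linarith) (by rw [NN]; linarith)
    · change ¬ NN Q ∣ EE Q 16 - EE Q 7; rw [E16, E7]; exact nd3 (2) hN (by rw [NN]; linarith) (by rw [NN]; linarith)
    · change ¬ NN Q ∣ EE Q 16 - EE Q 8; rw [E16, E8]; exact nd3 (1) hN (by rw [NN]; linarith) (by rw [NN]; linarith)
    · change ¬ NN Q ∣ EE Q 16 - EE Q 9; rw [E16, E9]; exact nd3 (1) hN (by rw [NN]; linarith) (by rw [NN]; linarith)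
    · change ¬ NN Q ∣ EE Q 16 - EE Q 10; rw [E16, E10]; exact nd3 (1) hN (by rw [NN]; linarith) (by rw [NN]; linarith)
    · change ¬ NN Q ∣ EE Q 16 - EE Q 11; rw [E16, E11]; exact nd3 (1) hN (by rw [NN]; linarith) (by rw [NN]; linarith)
    · change ¬ NN Q ∣ EE Q 16 - EE Q 12; rw [E16, E12]; exact nd3 (0) hN (by rw [NN]; linarith) (by rw [NN]; linarith)
    · change ¬ NN Q ∣ EE Q 16 - EE Q 13; rw [E16, E13]; exact nd3 (0) hN (by rw [NN]; linarith) (by rw [NN]; linarith)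
    · change ¬ NN Q ∣ EE Q 16 - EE Q 14; rw [E16, E14]; exact nd3 (0) hN (by rw [NN]; linarith) (by rw [NN]; linarith)
    · change ¬ NN Q ∣ EE Q 16 - EE Q 15; rw [E16, E15]; exact nd3 (0) hN (by rw [NN]; linarith) (by rw [NN]; linarith)
    · exact absurd rfl hs
    · change ¬ NN Q ∣ EE Q 16 - EE Q 17; rw [E16, E17]; exact nd3 (-1) hN (by rw [NN]; linarith) (by rw [NN]; linarith)
    · change ¬ NN Q ∣ EE Q 16 - EE Q 18; rw [E16, E18]; exact nd3 (1) hN (by rw [NN]; linarith) (by rw [NN]; linarith)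
    · change ¬ NN Q ∣ EE Q 16 - EE Q 19; rw [E16, E19]; exact nd3 (0) hN (by rw [NN]; linarith) (by rw [NN]; linarith)
    · change ¬ NN Q ∣ EE Q 16 - EE Q 20; rw [E16, E20]; exact nd3 (0) hN (by rw [NN]; linarith) (by rw [NN]; linarith)
    · change ¬ NN Q ∣ EE Q 16 - EE Q 21; rw [E16, E21]; exact nd3 (-1) hN (by rw [NN]; linarith) (by rw [NN]; linarith)
    · change ¬ NN Q ∣ EE Q 16 - EE Q 22; rw [E16, E22]; exact nd3 (-1) hN (by rw [NN]; linarith) (by rw [NN]; linarith)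
    · change ¬ NN Q ∣ EE Q 16 - EE Q 23; rw [E16, E23]; exact nd3 (-1) hN (by rw [NN]; linarith) (by rw [NN]; linarith)
  · rw [E16]; exact nd3 (1) hN (by rw [NN]; linarith) (by rw [NN]; linarith)

theorem sp12 {Q : ℤ} (hQ : 3 ≤ Q) : (∀ s : Fin 24, s ≠ 12 → ¬ NN Q ∣ EE Q 12 - EE Q s) ∧ ¬ NN Q ∣ EE Q 12 := by
  have f2 : 3 * Q ≤ Q ^ 2 := by nlinarith
  have f3 : 3 * Q ^ 2 ≤ Q ^ 3 := by nlinarith [sq_nonneg Q]
  have f4 : 3 * Q ^ 3 ≤ Q ^ 4 := by nlinarith [pow_pos (show (0 : ℤ) < Q by linarith) 3]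
  have hN : 0 < NN Q := by rw [NN]; nlinarith
  refine ⟨fun s hs => ?_, ?_⟩
  · fin_cases s
    · change ¬ NN Q ∣ EE Q 12 - EE Q 0; rw [E12, E0]; exact nd3 (1) hN (by rw [NN]; linarith) (by rw [NN]; linarith)
    · change ¬ NN Q ∣ EE Q 12 - EE Q 1; rw [E12, E1]; exact nd3 (1) hN (by rw [NN]; linarith) (by rw [NN]; linarith)
    · change ¬ NN Q ∣ EE Q 12 - EE Q 2; rw [E12, E2]; exact nd3 (1) hN (by rw [NN]; linarith) (by rw [NN]; linarith)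
    · change ¬ NN Q ∣ EE Q 12 - EE Q 3; rw [E12, E3]; exact nd3 (0) hN (by rw [NN]; linarith) (by rw [NN]; linarith)
    · change ¬ NN Q ∣ EE Q 12 - EE Q 4; rw [E12, E4]; exact nd3 (0) hN (by rw [NN]; linarith) (by rw [NN]; linarith)
    · change ¬ NN Q ∣ EE Q 12 - EE Q 5; rw [E12, E5]; exact nd3 (0) hN (by rw [NN]; linarith) (by rw [NN]; linarith)
    · change ¬ NN Q ∣ EE Q 12 - EE Q 6; rw [E12, E6]; exact nd3 (1) hN (by rw [NN]; linarith) (by rw [NN]; linarith)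
    · change ¬ NN Q ∣ EE Q 12 - EE Q 7; rw [E12, E7]; exact nd3 (1) hN (by rw [NN]; linarith) (by rw [NN]; linarith)
    · change ¬ NN Q ∣ EE Q 12 - EE Q 8; rw [E12, E8]; exact nd3 (0) hN (by rw [NN]; linarith) (by rw [NN]; linarith)
    · change ¬ NN Q ∣ EE Q 12 - EE Q 9; rw [E12, E9]; exact nd3 (0) hN (by rw [NN]; linarith) (by rw [NN]; linarith)
    · change ¬ NN Q ∣ EE Q 12 - EE Q 10; rw [E12, E10]; exact nd3 (0) hN (by rw [NN]; linarith) (by rw [NN]; linarith)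
    · change ¬ NN Q ∣ EE Q 12 - EE Q 11; rw [E12, E11]; exact nd3 (0) hN (by rw [NN]; linarith) (by rw [NN]; linarith)
    · exact absurd rfl hs
    · change ¬ NN Q ∣ EE Q 12 - EE Q 13; rw [E12, E13]; exact nd3 (-1) hN (by rw [NN]; linarith) (by rw [NN]; linarith)
    · change ¬ NN Q ∣ EE Q 12 - EE Q 14; rw [E12, E14]; exact nd3 (-1) hN (by rw [NN]; linarith) (by rw [NN]; linarith)
    · change ¬ NN Q ∣ EE Q 12 - EE Q 15; rw [E12, E15]; exact nd3 (-1) hN (by rw [NN]; linarith) (by rw [NN]; linarith)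
    · change ¬ NN Q ∣ EE Q 12 - EE Q 16; rw [E12, E16]; exact nd3 (-1) hN (by rw [NN]; linarith) (by rw [NN]; linarith)
    · change ¬ NN Q ∣ EE Q 12 - EE Q 17; rw [E12, E17]; exact nd3 (-2) hN (by rw [NN]; linarith) (by rw [NN]; linarith)
    · change ¬ NN Q ∣ EE Q 12 - EE Q 18; rw [E12, E18]; exact nd3 (0) hN (by rw [NN]; linarith) (by rw [NN]; linarith)
    · change ¬ NN Q ∣ EE Q 12 - EE Q 19; rw [E12, E19]; exact nd3 (-1) hN (by rw [NN]; linarith) (by rw [NN]; linarith)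
    · change ¬ NN Q ∣ EE Q 12 - EE Q 20; rw [E12, E20]; exact nd3 (-1) hN (by rw [NN]; linarith) (by rw [NN]; linarith)
    · change ¬ NN Q ∣ EE Q 12 - EE Q 21; rw [E12, E21]; exact nd3 (-1) hN (by rw [NN]; linarith) (by rw [NN]; linarith)
    · change ¬ NN Q ∣ EE Q 12 - EE Q 22; rw [E12, E22]; exact nd3 (-2) hN (by rw [NN]; linarith) (by rw [NN]; linarith)
    · change ¬ NN Q ∣ EE Q 12 - EE Q 23; rw [E12, E23]; exact nd3 (-2) hN (by rw [NN]; linarith) (by rw [NN]; linarith)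
  · rw [E12]; exact nd3 (0) hN (by rw [NN]; linarith) (by rw [NN]; linarith)

theorem sp15 {Q : ℤ} (hQ : 3 ≤ Q) : (∀ s : Fin 24, s ≠ 15 → ¬ NN Q ∣ EE Q 15 - EE Q s) ∧ ¬ NN Q ∣ EE Q 15 := by
  have f2 : 3 * Q ≤ Q ^ 2 := by nlinarith
  have f3 : 3 * Q ^ 2 ≤ Q ^ 3 := by nlinarith [sq_nonneg Q]
  have f4 : 3 * Q ^ 3 ≤ Q ^ 4 := by nlinarith [pow_pos (show (0 : ℤ) < Q by linarith) 3]
  have hN : 0 < NN Q := by rw [NN]; nlinarith
  refine ⟨fun s hs => ?_, ?_⟩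
  · fin_cases s
    · change ¬ NN Q ∣ EE Q 15 - EE Q 0; rw [E15, E0]; exact nd3 (1) hN (by rw [NN]; linarith) (by rw [NN]; linarith)
    · change ¬ NN Q ∣ EE Q 15 - EE Q 1; rw [E15, E1]; exact nd3 (1) hN (by rw [NN]; linarith) (by rw [NN]; linarith)
    · change ¬ NN Q ∣ EE Q 15 - EE Q 2; rw [E15, E2]; exact nd3 (1) hN (by rw [NN]; linarith) (by rw [NN]; linarith)
    · change ¬ NN Q ∣ EE Q 15 - EE Q 3; rw [E15, E3]; exact nd3 (0) hN (by rw [NN]; linarith) (by rw [NN]; linarith)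
    · change ¬ NN Q ∣ EE Q 15 - EE Q 4; rw [E15, E4]; exact nd3 (0) hN (by rw [NN]; linarith) (by rw [NN]; linarith)
    · change ¬ NN Q ∣ EE Q 15 - EE Q 5; rw [E15, E5]; exact nd3 (0) hN (by rw [NN]; linarith) (by rw [NN]; linarith)
    · change ¬ NN Q ∣ EE Q 15 - EE Q 6; rw [E15, E6]; exact nd3 (1) hN (by rw [NN]; linarith) (by rw [NN]; linarith)
    · change ¬ NN Q ∣ EE Q 15 - EE Q 7; rw [E15, E7]; exact nd3 (1) hN (by rw [NN]; linarith) (by rw [NN]; linarith)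
    · change ¬ NN Q ∣ EE Q 15 - EE Q 8; rw [E15, E8]; exact nd3 (0) hN (by rw [NN]; linarith) (by rw [NN]; linarith)
    · change ¬ NN Q ∣ EE Q 15 - EE Q 9; rw [E15, E9]; exact nd3 (0) hN (by rw [NN]; linarith) (by rw [NN]; linarith)
    · change ¬ NN Q ∣ EE Q 15 - EE Q 10; rw [E15, E10]; exact nd3 (1) hN (by rw [NN]; linarith) (by rw [NN]; linarith)
    · change ¬ NN Q ∣ EE Q 15 - EE Q 11; rw [E15, E11]; exact nd3 (0) hN (by rw [NN]; linarith) (by rw [NN]; linarith)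
    · change ¬ NN Q ∣ EE Q 15 - EE Q 12; rw [E15, E12]; exact nd3 (0) hN (by rw [NN]; linarith) (by rw [NN]; linarith)
    · change ¬ NN Q ∣ EE Q 15 - EE Q 13; rw [E15, E13]; exact nd3 (-1) hN (by rw [NN]; linarith) (by rw [NN]; linarith)
    · change ¬ NN Q ∣ EE Q 15 - EE Q 14; rw [E15, E14]; exact nd3 (0) hN (by rw [NN]; linarith) (by rw [NN]; linarith)
    · exact absurd rfl hs
    · change ¬ NN Q ∣ EE Q 15 - EE Q 16; rw [E15, E16]; exact nd3 (-1) hN (by rw [NN]; linarith) (by rw [NN]; linarith)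
    · change ¬ NN Q ∣ EE Q 15 - EE Q 17; rw [E15, E17]; exact nd3 (-1) hN (by rw [NN]; linarith) (by rw [NN]; linarith)
    · change ¬ NN Q ∣ EE Q 15 - EE Q 18; rw [E15, E18]; exact nd3 (0) hN (by rw [NN]; linarith) (by rw [NN]; linarith)
    · change ¬ NN Q ∣ EE Q 15 - EE Q 19; rw [E15, E19]; exact nd3 (0) hN (by rw [NN]; linarith) (by rw [NN]; linarith)
    · change ¬ NN Q ∣ EE Q 15 - EE Q 20; rw [E15, E20]; exact nd3 (-1) hN (by rw [NN]; linarith) (by rw [NN]; linarith)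
    · change ¬ NN Q ∣ EE Q 15 - EE Q 21; rw [E15, E21]; exact nd3 (-1) hN (by rw [NN]; linarith) (by rw [NN]; linarith)
    · change ¬ NN Q ∣ EE Q 15 - EE Q 22; rw [E15, E22]; exact nd3 (-1) hN (by rw [NN]; linarith) (by rw [NN]; linarith)
    · change ¬ NN Q ∣ EE Q 15 - EE Q 23; rw [E15, E23]; exact nd3 (-2) hN (by rw [NN]; linarith) (by rw [NN]; linarith)
  · rw [E15]; exact nd3 (0) hN (by rw [NN]; linarith) (by rw [NN]; linarith)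

theorem sp5 {Q : ℤ} (hQ : 3 ≤ Q) : (∀ s : Fin 24, s ≠ 5 → ¬ NN Q ∣ EE Q 5 - EE Q s) ∧ ¬ NN Q ∣ EE Q 5 := by
  have f2 : 3 * Q ≤ Q ^ 2 := by nlinarith
  have f3 : 3 * Q ^ 2 ≤ Q ^ 3 := by nlinarith [sq_nonneg Q]
  have f4 : 3 * Q ^ 3 ≤ Q ^ 4 := by nlinarith [pow_pos (show (0 : ℤ) < Q by linarith) 3]
  have hN : 0 < NN Q := by rw [NN]; nlinarith
  refine ⟨fun s hs => ?_, ?_⟩
  · fin_cases s
    · change ¬ NN Q ∣ EE Q 5 - EE Q 0; rw [E5, E0]; exact nd3 (1) hN (by rw [NN]; linarith) (by rw [NN]; linarith)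
    · change ¬ NN Q ∣ EE Q 5 - EE Q 1; rw [E5, E1]; exact nd3 (1) hN (by rw [NN]; linarith) (by rw [NN]; linarith)
    · change ¬ NN Q ∣ EE Q 5 - EE Q 2; rw [E5, E2]; exact nd3 (1) hN (by rw [NN]; linarith) (by rw [NN]; linarith)
    · change ¬ NN Q ∣ EE Q 5 - EE Q 3; rw [E5, E3]; exact nd3 (0) hN (by rw [NN]; linarith) (by rw [NN]; linarith)
    · change ¬ NN Q ∣ EE Q 5 - EE Q 4; rw [E5, E4]; exact nd3 (0) hN (by rw [NN]; linarith) (by rw [NN]; linarith)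
    · exact absurd rfl hs
    · change ¬ NN Q ∣ EE Q 5 - EE Q 6; rw [E5, E6]; exact nd3 (1) hN (by rw [NN]; linarith) (by rw [NN]; linarith)
    · change ¬ NN Q ∣ EE Q 5 - EE Q 7; rw [E5, E7]; exact nd3 (1) hN (by rw [NN]; linarith) (by rw [NN]; linarith)
    · change ¬ NN Q ∣ EE Q 5 - EE Q 8; rw [E5, E8]; exact nd3 (0) hN (by rw [NN]; linarith) (by rw [NN]; linarith)
    · change ¬ NN Q ∣ EE Q 5 - EE Q 9; rw [E5, E9]; exact nd3 (0) hN (by rw [NN]; linarith) (by rw [NN]; linarith)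
    · change ¬ NN Q ∣ EE Q 5 - EE Q 10; rw [E5, E10]; exact nd3 (0) hN (by rw [NN]; linarith) (by rw [NN]; linarith)
    · change ¬ NN Q ∣ EE Q 5 - EE Q 11; rw [E5, E11]; exact nd3 (0) hN (by rw [NN]; linarith) (by rw [NN]; linarith)
    · change ¬ NN Q ∣ EE Q 5 - EE Q 12; rw [E5, E12]; exact nd3 (-1) hN (by rw [NN]; linarith) (by rw [NN]; linarith)
    · change ¬ NN Q ∣ EE Q 5 - EE Q 13; rw [E5, E13]; exact nd3 (-1) hN (by rw [NN]; linarith) (by rw [NN]; linarith)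
    · change ¬ NN Q ∣ EE Q 5 - EE Q 14; rw [E5, E14]; exact nd3 (-1) hN (by rw [NN]; linarith) (by rw [NN]; linarith)
    · change ¬ NN Q ∣ EE Q 5 - EE Q 15; rw [E5, E15]; exact nd3 (-1) hN (by rw [NN]; linarith) (by rw [NN]; linarith)
    · change ¬ NN Q ∣ EE Q 5 - EE Q 16; rw [E5, E16]; exact nd3 (-2) hN (by rw [NN]; linarith) (by rw [NN]; linarith)
    · change ¬ NN Q ∣ EE Q 5 - EE Q 17; rw [E5, E17]; exact nd3 (-2) hN (by rw [NN]; linarith) (by rw [NN]; linarith)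
    · change ¬ NN Q ∣ EE Q 5 - EE Q 18; rw [E5, E18]; exact nd3 (-1) hN (by rw [NN]; linarith) (by rw [NN]; linarith)
    · change ¬ NN Q ∣ EE Q 5 - EE Q 19; rw [E5, E19]; exact nd3 (-1) hN (by rw [NN]; linarith) (by rw [NN]; linarith)
    · change ¬ NN Q ∣ EE Q 5 - EE Q 20; rw [E5, E20]; exact nd3 (-1) hN (by rw [NN]; linarith) (by rw [NN]; linarith)
    · change ¬ NN Q ∣ EE Q 5 - EE Q 21; rw [E5, E21]; exact nd3 (-2) hN (by rw [NN]; linarith) (by rw [NN]; linarith)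
    · change ¬ NN Q ∣ EE Q 5 - EE Q 22; rw [E5, E22]; exact nd3 (-2) hN (by rw [NN]; linarith) (by rw [NN]; linarith)
    · change ¬ NN Q ∣ EE Q 5 - EE Q 23; rw [E5, E23]; exact nd3 (-2) hN (by rw [NN]; linarith) (by rw [NN]; linarith)
  · rw [E5]; exact nd3 (-1) hN (by rw [NN]; linarith) (by rw [NN]; linarith)

theorem sp4 {Q : ℤ} (hQ : 3 ≤ Q) : (∀ s : Fin 24, s ≠ 4 → ¬ NN Q ∣ EE Q 4 - EE Q s) ∧ ¬ NN Q ∣ EE Q 4 := by
  have f2 : 3 * Q ≤ Q ^ 2 := by nlinarith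
  have f3 : 3 * Q ^ 2 ≤ Q ^ 3 := by nlinarith [sq_nonneg Q]
  have f4 : 3 * Q ^ 3 ≤ Q ^ 4 := by nlinarith [pow_pos (show (0 : ℤ) < Q by linarith) 3]
  have hN : 0 < NN Q := by rw [NN]; nlinarith
  refine ⟨fun s hs => ?_, ?_⟩
  · fin_cases s
    · change ¬ NN Q ∣ EE Q 4 - EE Q 0; rw [E4, E0]; exact nd3 (1) hN (by rw [NN]; linarith) (by rw [NN]; linarith)
    · change ¬ NN Q ∣ EE Q 4 - EE Q 1; rw [E4, E1]; exact nd3 (0) hN (by rw [NN]; linarith) (by rw [NN]; linarith)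
    · change ¬ NN Q ∣ EE Q 4 - EE Q 2; rw [E4, E2]; exact nd3 (0) hN (by rw [NN]; linarith) (by rw [NN]; linarith)
    · change ¬ NN Q ∣ EE Q 4 - EE Q 3; rw [E4, E3]; exact nd3 (0) hN (by rw [NN]; linarith) (by rw [NN]; linarith)
    · exact absurd rfl hs
    · change ¬ NN Q ∣ EE Q 4 - EE Q 5; rw [E4, E5]; exact nd3 (-1) hN (by rw [NN]; linarith) (by rw [NN]; linarith)
    · change ¬ NN Q ∣ EE Q 4 - EE Q 6; rw [E4, E6]; exact nd3 (0) hN (by rw [NN]; linarith) (by rw [NN]; linarith)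
    · change ¬ NN Q ∣ EE Q 4 - EE Q 7; rw [E4, E7]; exact nd3 (0) hN (by rw [NN]; linarith) (by rw [NN]; linarith)
    · change ¬ NN Q ∣ EE Q 4 - EE Q 8; rw [E4, E8]; exact nd3 (0) hN (by rw [NN]; linarith) (by rw [NN]; linarith)
    · change ¬ NN Q ∣ EE Q 4 - EE Q 9; rw [E4, E9]; exact nd3 (-1) hN (by rw [NN]; linarith) (by rw [NN]; linarith)
    · change ¬ NN Q ∣ EE Q 4 - EE Q 10; rw [E4, E10]; exact nd3 (0) hN (by rw [NN]; linarith) (by rw [NN]; linarith)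
    · change ¬ NN Q ∣ EE Q 4 - EE Q 11; rw [E4, E11]; exact nd3 (-1) hN (by rw [NN]; linarith) (by rw [NN]; linarith)
    · change ¬ NN Q ∣ EE Q 4 - EE Q 12; rw [E4, E12]; exact nd3 (-1) hN (by rw [NN]; linarith) (by rw [NN]; linarith)
    · change ¬ NN Q ∣ EE Q 4 - EE Q 13; rw [E4, E13]; exact nd3 (-2) hN (by rw [NN]; linarith) (by rw [NN]; linarith)
    · change ¬ NN Q ∣ EE Q 4 - EE Q 14; rw [E4, E14]; exact nd3 (-1) hN (by rw [NN]; linarith) (by rw [NN]; linarith)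
    · change ¬ NN Q ∣ EE Q 4 - EE Q 15; rw [E4, E15]; exact nd3 (-1) hN (by rw [NN]; linarith) (by rw [NN]; linarith)
    · change ¬ NN Q ∣ EE Q 4 - EE Q 16; rw [E4, E16]; exact nd3 (-2) hN (by rw [NN]; linarith) (by rw [NN]; linarith)
    · change ¬ NN Q ∣ EE Q 4 - EE Q 17; rw [E4, E17]; exact nd3 (-2) hN (by rw [NN]; linarith) (by rw [NN]; linarith)
    · change ¬ NN Q ∣ EE Q 4 - EE Q 18; rw [E4, E18]; exact nd3 (-1) hN (by rw [NN]; linarith) (by rw [NN]; linarith)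
    · change ¬ NN Q ∣ EE Q 4 - EE Q 19; rw [E4, E19]; exact nd3 (-1) hN (by rw [NN]; linarith) (by rw [NN]; linarith)
    · change ¬ NN Q ∣ EE Q 4 - EE Q 20; rw [E4, E20]; exact nd3 (-1) hN (by rw [NN]; linarith) (by rw [NN]; linarith)
    · change ¬ NN Q ∣ EE Q 4 - EE Q 21; rw [E4, E21]; exact nd3 (-2) hN (by rw [NN]; linarith) (by rw [NN]; linarith)
    · change ¬ NN Q ∣ EE Q 4 - EE Q 22; rw [E4, E22]; exact nd3 (-2) hN (by rw [NN]; linarith) (by rw [NN]; linarith)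
    · change ¬ NN Q ∣ EE Q 4 - EE Q 23; rw [E4, E23]; exact nd3 (-2) hN (by rw [NN]; linarith) (by rw [NN]; linarith)
  · rw [E4]; exact nd3 (-1) hN (by rw [NN]; linarith) (by rw [NN]; linarith)

theorem sp10 {Q : ℤ} (hQ : 3 ≤ Q) : (∀ s : Fin 24, s ≠ 10 → ¬ NN Q ∣ EE Q 10 - EE Q s) ∧ ¬ NN Q ∣ EE Q 10 := by
  have f2 : 3 * Q ≤ Q ^ 2 := by nlinarith
  have f3 : 3 * Q ^ 2 ≤ Q ^ 3 := by nlinarith [sq_nonneg Q]
  have f4 : 3 * Q ^ 3 ≤ Q ^ 4 := by nlinarith [pow_pos (show (0 : ℤ) < Q by linarith) 3]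
  have hN : 0 < NN Q := by rw [NN]; nlinarith
  refine ⟨fun s hs => ?_, ?_⟩
  · fin_cases s
    · change ¬ NN Q ∣ EE Q 10 - EE Q 0; rw [E10, E0]; exact nd3 (0) hN (by rw [NN]; linarith) (by rw [NN]; linarith)
    · change ¬ NN Q ∣ EE Q 10 - EE Q 1; rw [E10, E1]; exact nd3 (0) hN (by rw [NN]; linarith) (by rw [NN]; linarith)
    · change ¬ NN Q ∣ EE Q 10 - EE Q 2; rw [E10, E2]; exact nd3 (0) hN (by rw [NN]; linarith) (by rw [NN]; linarith)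
    · change ¬ NN Q ∣ EE Q 10 - EE Q 3; rw [E10, E3]; exact nd3 (-1) hN (by rw [NN]; linarith) (by rw [NN]; linarith)
    · change ¬ NN Q ∣ EE Q 10 - EE Q 4; rw [E10, E4]; exact nd3 (-1) hN (by rw [NN]; linarith) (by rw [NN]; linarith)
    · change ¬ NN Q ∣ EE Q 10 - EE Q 5; rw [E10, E5]; exact nd3 (-1) hN (by rw [NN]; linarith) (by rw [NN]; linarith)
    · change ¬ NN Q ∣ EE Q 10 - EE Q 6; rw [E10, E6]; exact nd3 (0) hN (by rw [NN]; linarith) (by rw [NN]; linarith)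
    · change ¬ NN Q ∣ EE Q 10 - EE Q 7; rw [E10, E7]; exact nd3 (0) hN (by rw [NN]; linarith) (by rw [NN]; linarith)
    · change ¬ NN Q ∣ EE Q 10 - EE Q 8; rw [E10, E8]; exact nd3 (-1) hN (by rw [NN]; linarith) (by rw [NN]; linarith)
    · change ¬ NN Q ∣ EE Q 10 - EE Q 9; rw [E10, E9]; exact nd3 (-1) hN (by rw [NN]; linarith) (by rw [NN]; linarith)
    · exact absurd rfl hs
    · change ¬ NN Q ∣ EE Q 10 - EE Q 11; rw [E10, E11]; exact nd3 (-1) hN (by rw [NN]; linarith) (by rw [NN]; linarith)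
    · change ¬ NN Q ∣ EE Q 10 - EE Q 12; rw [E10, E12]; exact nd3 (-1) hN (by rw [NN]; linarith) (by rw [NN]; linarith)
    · change ¬ NN Q ∣ EE Q 10 - EE Q 13; rw [E10, E13]; exact nd3 (-2) hN (by rw [NN]; linarith) (by rw [NN]; linarith)
    · change ¬ NN Q ∣ EE Q 10 - EE Q 14; rw [E10, E14]; exact nd3 (-2) hN (by rw [NN]; linarith) (by rw [NN]; linarith)
    · change ¬ NN Q ∣ EE Q 10 - EE Q 15; rw [E10, E15]; exact nd3 (-2) hN (by rw [NN]; linarith) (by rw [NN]; linarith)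
    · change ¬ NN Q ∣ EE Q 10 - EE Q 16; rw [E10, E16]; exact nd3 (-2) hN (by rw [NN]; linarith) (by rw [NN]; linarith)
    · change ¬ NN Q ∣ EE Q 10 - EE Q 17; rw [E10, E17]; exact nd3 (-2) hN (by rw [NN]; linarith) (by rw [NN]; linarith)
    · change ¬ NN Q ∣ EE Q 10 - EE Q 18; rw [E10, E18]; exact nd3 (-1) hN (by rw [NN]; linarith) (by rw [NN]; linarith)
    · change ¬ NN Q ∣ EE Q 10 - EE Q 19; rw [E10, E19]; exact nd3 (-2) hN (by rw [NN]; linarith) (by rw [NN]; linarith)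
    · change ¬ NN Q ∣ EE Q 10 - EE Q 20; rw [E10, E20]; exact nd3 (-2) hN (by rw [NN]; linarith) (by rw [NN]; linarith)
    · change ¬ NN Q ∣ EE Q 10 - EE Q 21; rw [E10, E21]; exact nd3 (-2) hN (by rw [NN]; linarith) (by rw [NN]; linarith)
    · change ¬ NN Q ∣ EE Q 10 - EE Q 22; rw [E10, E22]; exact nd3 (-2) hN (by rw [NN]; linarith) (by rw [NN]; linarith)
    · change ¬ NN Q ∣ EE Q 10 - EE Q 23; rw [E10, E23]; exact nd3 (-3) hN (by rw [NN]; linarith) (by rw [NN]; linarith)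
  · rw [E10]; exact nd3 (-1) hN (by rw [NN]; linarith) (by rw [NN]; linarith)

theorem sp7 {Q : ℤ} (hQ : 3 ≤ Q) : (∀ s : Fin 24, s ≠ 7 → ¬ NN Q ∣ EE Q 7 - EE Q s) ∧ ¬ NN Q ∣ EE Q 7 := by
  have f2 : 3 * Q ≤ Q ^ 2 := by nlinarith
  have f3 : 3 * Q ^ 2 ≤ Q ^ 3 := by nlinarith [sq_nonneg Q]
  have f4 : 3 * Q ^ 3 ≤ Q ^ 4 := by nlinarith [pow_pos (show (0 : ℤ) < Q by linarith) 3]
  have hN : 0 < NN Q := by rw [NN]; nlinarith
  refine ⟨fun s hs => ?_, ?_⟩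
  · fin_cases s
    · change ¬ NN Q ∣ EE Q 7 - EE Q 0; rw [E7, E0]; exact nd3 (0) hN (by rw [NN]; linarith) (by rw [NN]; linarith)
    · change ¬ NN Q ∣ EE Q 7 - EE Q 1; rw [E7, E1]; exact nd3 (0) hN (by rw [NN]; linarith) (by rw [NN]; linarith)
    · change ¬ NN Q ∣ EE Q 7 - EE Q 2; rw [E7, E2]; exact nd3 (0) hN (by rw [NN]; linarith) (by rw [NN]; linarith)
    · change ¬ NN Q ∣ EE Q 7 - EE Q 3; rw [E7, E3]; exact nd3 (-1) hN (by rw [NN]; linarith) (by rw [NN]; linarith)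
    · change ¬ NN Q ∣ EE Q 7 - EE Q 4; rw [E7, E4]; exact nd3 (-1) hN (by rw [NN]; linarith) (by rw [NN]; linarith)
    · change ¬ NN Q ∣ EE Q 7 - EE Q 5; rw [E7, E5]; exact nd3 (-2) hN (by rw [NN]; linarith) (by rw [NN]; linarith)
    · change ¬ NN Q ∣ EE Q 7 - EE Q 6; rw [E7, E6]; exact nd3 (0) hN (by rw [NN]; linarith) (by rw [NN]; linarith)
    · exact absurd rfl hs
    · change ¬ NN Q ∣ EE Q 7 - EE Q 8; rw [E7, E8]; exact nd3 (-1) hN (by rw [NN]; linarith) (by rw [NN]; linarith)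
    · change ¬ NN Q ∣ EE Q 7 - EE Q 9; rw [E7, E9]; exact nd3 (-1) hN (by rw [NN]; linarith) (by rw [NN]; linarith)
    · change ¬ NN Q ∣ EE Q 7 - EE Q 10; rw [E7, E10]; exact nd3 (-1) hN (by rw [NN]; linarith) (by rw [NN]; linarith)
    · change ¬ NN Q ∣ EE Q 7 - EE Q 11; rw [E7, E11]; exact nd3 (-1) hN (by rw [NN]; linarith) (by rw [NN]; linarith)
    · change ¬ NN Q ∣ EE Q 7 - EE Q 12; rw [E7, E12]; exact nd3 (-2) hN (by rw [NN]; linarith) (by rw [NN]; linarith)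
    · change ¬ NN Q ∣ EE Q 7 - EE Q 13; rw [E7, E13]; exact nd3 (-2) hN (by rw [NN]; linarith) (by rw [NN]; linarith)
    · change ¬ NN Q ∣ EE Q 7 - EE Q 14; rw [E7, E14]; exact nd3 (-2) hN (by rw [NN]; linarith) (by rw [NN]; linarith)
    · change ¬ NN Q ∣ EE Q 7 - EE Q 15; rw [E7, E15]; exact nd3 (-2) hN (by rw [NN]; linarith) (by rw [NN]; linarith)
    · change ¬ NN Q ∣ EE Q 7 - EE Q 16; rw [E7, E16]; exact nd3 (-3) hN (by rw [NN]; linarith) (by rw [NN]; linarith)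
    · change ¬ NN Q ∣ EE Q 7 - EE Q 17; rw [E7, E17]; exact nd3 (-3) hN (by rw [NN]; linarith) (by rw [NN]; linarith)
    · change ¬ NN Q ∣ EE Q 7 - EE Q 18; rw [E7, E18]; exact nd3 (-2) hN (by rw [NN]; linarith) (by rw [NN]; linarith)
    · change ¬ NN Q ∣ EE Q 7 - EE Q 19; rw [E7, E19]; exact nd3 (-2) hN (by rw [NN]; linarith) (by rw [NN]; linarith)
    · change ¬ NN Q ∣ EE Q 7 - EE Q 20; rw [E7, E20]; exact nd3 (-2) hN (by rw [NN]; linarith) (by rw [NN]; linarith)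
    · change ¬ NN Q ∣ EE Q 7 - EE Q 21; rw [E7, E21]; exact nd3 (-3) hN (by rw [NN]; linarith) (by rw [NN]; linarith)
    · change ¬ NN Q ∣ EE Q 7 - EE Q 22; rw [E7, E22]; exact nd3 (-3) hN (by rw [NN]; linarith) (by rw [NN]; linarith)
    · change ¬ NN Q ∣ EE Q 7 - EE Q 23; rw [E7, E23]; exact nd3 (-3) hN (by rw [NN]; linarith) (by rw [NN]; linarith)
  · rw [E7]; exact nd3 (-2) hN (by rw [NN]; linarith) (by rw [NN]; linarith)

theorem sp11 {Q : ℤ} (hQ : 3 ≤ Q) : (∀ s : Fin 24, s ≠ 11 → ¬ NN Q ∣ EE Q 11 - EE Q s) ∧ ¬ NN Q ∣ EE Q 11 := by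
  have f2 : 3 * Q ≤ Q ^ 2 := by nlinarith
  have f3 : 3 * Q ^ 2 ≤ Q ^ 3 := by nlinarith [sq_nonneg Q]
  have f4 : 3 * Q ^ 3 ≤ Q ^ 4 := by nlinarith [pow_pos (show (0 : ℤ) < Q by linarith) 3]
  have hN : 0 < NN Q := by rw [NN]; nlinarith
  refine ⟨fun s hs => ?_, ?_⟩
  · fin_cases s
    · change ¬ NN Q ∣ EE Q 11 - EE Q 0; rw [E11, E0]; exact nd3 (1) hN (by rw [NN]; linarith) (by rw [NN]; linarith)
    · change ¬ NN Q ∣ EE Q 11 - EE Q 1; rw [E11, E1]; exact nd3 (1) hN (by rw [NN]; linarith) (by rw [NN]; linarith)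
    · change ¬ NN Q ∣ EE Q 11 - EE Q 2; rw [E11, E2]; exact nd3 (0) hN (by rw [NN]; linarith) (by rw [NN]; linarith)
    · change ¬ NN Q ∣ EE Q 11 - EE Q 3; rw [E11, E3]; exact nd3 (0) hN (by rw [NN]; linarith) (by rw [NN]; linarith)
    · change ¬ NN Q ∣ EE Q 11 - EE Q 4; rw [E11, E4]; exact nd3 (0) hN (by rw [NN]; linarith) (by rw [NN]; linarith)
    · change ¬ NN Q ∣ EE Q 11 - EE Q 5; rw [E11, E5]; exact nd3 (-1) hN (by rw [NN]; linarith) (by rw [NN]; linarith)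
    · change ¬ NN Q ∣ EE Q 11 - EE Q 6; rw [E11, E6]; exact nd3 (1) hN (by rw [NN]; linarith) (by rw [NN]; linarith)
    · change ¬ NN Q ∣ EE Q 11 - EE Q 7; rw [E11, E7]; exact nd3 (0) hN (by rw [NN]; linarith) (by rw [NN]; linarith)
    · change ¬ NN Q ∣ EE Q 11 - EE Q 8; rw [E11, E8]; exact nd3 (0) hN (by rw [NN]; linarith) (by rw [NN]; linarith)
    · change ¬ NN Q ∣ EE Q 11 - EE Q 9; rw [E11, E9]; exact nd3 (0) hN (by rw [NN]; linarith) (by rw [NN]; linarith)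
    · change ¬ NN Q ∣ EE Q 11 - EE Q 10; rw [E11, E10]; exact nd3 (0) hN (by rw [NN]; linarith) (by rw [NN]; linarith)
    · exact absurd rfl hs
    · change ¬ NN Q ∣ EE Q 11 - EE Q 12; rw [E11, E12]; exact nd3 (-1) hN (by rw [NN]; linarith) (by rw [NN]; linarith)
    · change ¬ NN Q ∣ EE Q 11 - EE Q 13; rw [E11, E13]; exact nd3 (-1) hN (by rw [NN]; linarith) (by rw [NN]; linarith)
    · change ¬ NN Q ∣ EE Q 11 - EE Q 14; rw [E11, E14]; exact nd3 (-1) hN (by rw [NN]; linarith) (by rw [NN]; linarith)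
    · change ¬ NN Q ∣ EE Q 11 - EE Q 15; rw [E11, E15]; exact nd3 (-1) hN (by rw [NN]; linarith) (by rw [NN]; linarith)
    · change ¬ NN Q ∣ EE Q 11 - EE Q 16; rw [E11, E16]; exact nd3 (-2) hN (by rw [NN]; linarith) (by rw [NN]; linarith)
    · change ¬ NN Q ∣ EE Q 11 - EE Q 17; rw [E11, E17]; exact nd3 (-2) hN (by rw [NN]; linarith) (by rw [NN]; linarith)
    · change ¬ NN Q ∣ EE Q 11 - EE Q 18; rw [E11, E18]; exact nd3 (-1) hN (by rw [NN]; linarith) (by rw [NN]; linarith)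
    · change ¬ NN Q ∣ EE Q 11 - EE Q 19; rw [E11, E19]; exact nd3 (-1) hN (by rw [NN]; linarith) (by rw [NN]; linarith)
    · change ¬ NN Q ∣ EE Q 11 - EE Q 20; rw [E11, E20]; exact nd3 (-1) hN (by rw [NN]; linarith) (by rw [NN]; linarith)
    · change ¬ NN Q ∣ EE Q 11 - EE Q 21; rw [E11, E21]; exact nd3 (-2) hN (by rw [NN]; linarith) (by rw [NN]; linarith)
    · change ¬ NN Q ∣ EE Q 11 - EE Q 22; rw [E11, E22]; exact nd3 (-2) hN (by rw [NN]; linarith) (by rw [NN]; linarith)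
    · change ¬ NN Q ∣ EE Q 11 - EE Q 23; rw [E11, E23]; exact nd3 (-2) hN (by rw [NN]; linarith) (by rw [NN]; linarith)
  · rw [E11]; exact nd3 (-1) hN (by rw [NN]; linarith) (by rw [NN]; linarith)

theorem sp8 {Q : ℤ} (hQ : 3 ≤ Q) : (∀ s : Fin 24, s ≠ 8 → ¬ NN Q ∣ EE Q 8 - EE Q s) ∧ ¬ NN Q ∣ EE Q 8 := by
  have f2 : 3 * Q ≤ Q ^ 2 := by nlinarith
  have f3 : 3 * Q ^ 2 ≤ Q ^ 3 := by nlinarith [sq_nonneg Q]
  have f4 : 3 * Q ^ 3 ≤ Q ^ 4 := by nlinarith [pow_pos (show (0 : ℤ) < Q by linarith) 3]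
  have hN : 0 < NN Q := by rw [NN]; nlinarith
  refine ⟨fun s hs => ?_, ?_⟩
  · fin_cases s
    · change ¬ NN Q ∣ EE Q 8 - EE Q 0; rw [E8, E0]; exact nd3 (1) hN (by rw [NN]; linarith) (by rw [NN]; linarith)
    · change ¬ NN Q ∣ EE Q 8 - EE Q 1; rw [E8, E1]; exact nd3 (0) hN (by rw [NN]; linarith) (by rw [NN]; linarith)
    · change ¬ NN Q ∣ EE Q 8 - EE Q 2; rw [E8, E2]; exact nd3 (0) hN (by rw [NN]; linarith) (by rw [NN]; linarith)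
    · change ¬ NN Q ∣ EE Q 8 - EE Q 3; rw [E8, E3]; exact nd3 (0) hN (by rw [NN]; linarith) (by rw [NN]; linarith)
    · change ¬ NN Q ∣ EE Q 8 - EE Q 4; rw [E8, E4]; exact nd3 (-1) hN (by rw [NN]; linarith) (by rw [NN]; linarith)
    · change ¬ NN Q ∣ EE Q 8 - EE Q 5; rw [E8, E5]; exact nd3 (-1) hN (by rw [NN]; linarith) (by rw [NN]; linarith)
    · change ¬ NN Q ∣ EE Q 8 - EE Q 6; rw [E8, E6]; exact nd3 (0) hN (by rw [NN]; linarith) (by rw [NN]; linarith)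
    · change ¬ NN Q ∣ EE Q 8 - EE Q 7; rw [E8, E7]; exact nd3 (0) hN (by rw [NN]; linarith) (by rw [NN]; linarith)
    · exact absurd rfl hs
    · change ¬ NN Q ∣ EE Q 8 - EE Q 9; rw [E8, E9]; exact nd3 (-1) hN (by rw [NN]; linarith) (by rw [NN]; linarith)
    · change ¬ NN Q ∣ EE Q 8 - EE Q 10; rw [E8, E10]; exact nd3 (0) hN (by rw [NN]; linarith) (by rw [NN]; linarith)
    · change ¬ NN Q ∣ EE Q 8 - EE Q 11; rw [E8, E11]; exact nd3 (-1) hN (by rw [NN]; linarith) (by rw [NN]; linarith)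
    · change ¬ NN Q ∣ EE Q 8 - EE Q 12; rw [E8, E12]; exact nd3 (-1) hN (by rw [NN]; linarith) (by rw [NN]; linarith)
    · change ¬ NN Q ∣ EE Q 8 - EE Q 13; rw [E8, E13]; exact nd3 (-2) hN (by rw [NN]; linarith) (by rw [NN]; linarith)
    · change ¬ NN Q ∣ EE Q 8 - EE Q 14; rw [E8, E14]; exact nd3 (-1) hN (by rw [NN]; linarith) (by rw [NN]; linarith)
    · change ¬ NN Q ∣ EE Q 8 - EE Q 15; rw [E8, E15]; exact nd3 (-1) hN (by rw [NN]; linarith) (by rw [NN]; linarith)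
    · change ¬ NN Q ∣ EE Q 8 - EE Q 16; rw [E8, E16]; exact nd3 (-2) hN (by rw [NN]; linarith) (by rw [NN]; linarith)
    · change ¬ NN Q ∣ EE Q 8 - EE Q 17; rw [E8, E17]; exact nd3 (-2) hN (by rw [NN]; linarith) (by rw [NN]; linarith)
    · change ¬ NN Q ∣ EE Q 8 - EE Q 18; rw [E8, E18]; exact nd3 (-1) hN (by rw [NN]; linarith) (by rw [NN]; linarith)
    · change ¬ NN Q ∣ EE Q 8 - EE Q 19; rw [E8, E19]; exact nd3 (-1) hN (by rw [NN]; linarith) (by rw [NN]; linarith)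
    · change ¬ NN Q ∣ EE Q 8 - EE Q 20; rw [E8, E20]; exact nd3 (-1) hN (by rw [NN]; linarith) (by rw [NN]; linarith)
    · change ¬ NN Q ∣ EE Q 8 - EE Q 21; rw [E8, E21]; exact nd3 (-2) hN (by rw [NN]; linarith) (by rw [NN]; linarith)
    · change ¬ NN Q ∣ EE Q 8 - EE Q 22; rw [E8, E22]; exact nd3 (-2) hN (by rw [NN]; linarith) (by rw [NN]; linarith)
    · change ¬ NN Q ∣ EE Q 8 - EE Q 23; rw [E8, E23]; exact nd3 (-2) hN (by rw [NN]; linarith) (by rw [NN]; linarith)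
  · rw [E8]; exact nd3 (-1) hN (by rw [NN]; linarith) (by rw [NN]; linarith)

theorem sp_two : ∀ r ∈ ([18, 19, 13, 16, 12, 15, 5, 4, 10, 7, 11, 8] : List ℕ), (∀ s : Fin 24, (s : ℕ) ≠ r → ¬ (21 : ℤ) ∣ EE 2 r - EE 2 s) ∧ ¬ (21 : ℤ) ∣ EE 2 r := by
  decide +kernel

theorem cy18 (Q : ℤ) : Q * EE Q 18 - EE Q 16 = (Q ^ 3 - 1) * (Q + 1) * ((-1)) := by
  rw [E18, E16]
  ring

theorem cy16 (Q : ℤ) : Q * EE Q 16 - EE Q 12 = (Q ^ 3 - 1) * (Q + 1) * ((1) * Q) := by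
  rw [E16, E12]
  ring

theorem cy12 (Q : ℤ) : Q * EE Q 12 - EE Q 19 = (Q ^ 3 - 1) * (Q + 1) * (0) := by
  rw [E12, E19]
  ring

theorem cy19 (Q : ℤ) : Q * EE Q 19 - EE Q 13 = (Q ^ 3 - 1) * (Q + 1) * (0) := by
  rw [E19, E13]
  ring

theorem cy13 (Q : ℤ) : Q * EE Q 13 - EE Q 15 = (Q ^ 3 - 1) * (Q + 1) * ((-1) + (1) * Q) := by
  rw [E13, E15]
  ring

theorem cy5 (Q : ℤ) : Q * EE Q 5 - EE Q 7 = (Q ^ 3 - 1) * (Q + 1) * ((1)) := by
  rw [E5, E7]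
  ring

theorem cy7 (Q : ℤ) : Q * EE Q 7 - EE Q 11 = (Q ^ 3 - 1) * (Q + 1) * ((-1) * Q) := by
  rw [E7, E11]
  ring

theorem cy11 (Q : ℤ) : Q * EE Q 11 - EE Q 4 = (Q ^ 3 - 1) * (Q + 1) * (0) := by
  rw [E11, E4]
  ring

theorem cy4 (Q : ℤ) : Q * EE Q 4 - EE Q 10 = (Q ^ 3 - 1) * (Q + 1) * (0) := by
  rw [E4, E10]
  ring

theorem cy10 (Q : ℤ) : Q * EE Q 10 - EE Q 8 = (Q ^ 3 - 1) * (Q + 1) * ((1) + (-1) * Q) := by
  rw [E10, E8]
  ring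

end Cfsg.Agent.Lib.Classical.Lin.D4Tor5
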