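import Mathlib
import Cfsg.Prelude.Def_ClassicalGeometry
import Cfsg.Agent.Lib.Classical.Lin.Transvections

/-!
# Maximal parabolic subgroups of `GL_n(F)`

`stabP n k F` is the stabiliser in `GL_n(F)` of the span of the first `k` coordinate vectors
(in the sense of `Cfsg.stabilizing`).  We describe it by matrix entries (`mem_stabP_iff`), we
develop the rank-one transvections `tau x ψ = 1 + x ψᵀ`, and prove that `stabP n k F` is a maximal
subgroup of `GL_n(F)` for `0 < k < n`.
-/

set_option autoImplicit false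
set_option linter.unusedSimpArgs false

namespace Cfsg.Agent.Lib.Classical.Lin.Parabolic

open Matrix Cfsg

open scoped MatrixGroups

variable {F : Type*} [Field F]

/-- The span of the first `k` coordinate vectors, as a set. -/
abbrev coord (n k : ℕ) (F : Type*) [Field F] : Set (Fin n → F) :=
  {v : Fin n → F | ∀ i : Fin n, k ≤ (i : ℕ) → v i = 0}

/-- The stabiliser of `coord n k F` in `GL_n(F)`. -/
abbrev stabP (n k : ℕ) (F : Type*) [Field F] : Subgroup (GL (Fin n) F) :=
  stabilizing (glToMat (Fin n) F) (coord n k F)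

variable {n k : ℕ}

theorem single_mem_coord {j : Fin n} (hj : (j : ℕ) < k) (c : F) :
    (Pi.single j c : Fin n → F) ∈ coord n k F := by
  intro l hl
  rw [Pi.single_apply, if_neg]
  rintro rfl
  omega

theorem mulVec_mem_coord {M : Matrix (Fin n) (Fin n) F}
    (h : ∀ i j : Fin n, k ≤ (i : ℕ) → (j : ℕ) < k → M i j = 0) {v : Fin n → F}
    (hv : v ∈ coord n k F) : M *ᵥ v ∈ coord n k F := by
  intro i hi
  simp only [Matrix.mulVec, dotProduct]
  refine Finset.sum_eq_zero fun j _ => ?_
  by_cases hj : (j : ℕ) < k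
  · rw [h i j hi hj, zero_mul]
  · rw [hv j (by omega), mul_zero]

/-- Block-triangular description of the stabiliser. -/
theorem mem_stabP_iff {g : GL (Fin n) F} :
    g ∈ stabP n k F ↔ ∀ i j : Fin n, k ≤ (i : ℕ) → (j : ℕ) < k → (g : Matrix (Fin n) (Fin n) F) i j = 0 := by
  constructor
  · intro hg i j hi hj
    have h2 := (hg _).1 (single_mem_coord (F := F) hj (1 : F)) i hi
    simpa [Matrix.mulVec_single_one] using h2
  · intro h v
    refine ⟨fun hv => mulVec_mem_coord h hv, fun hv => ?_⟩
    -- use the inverse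
    let b : Fin n → ℕ := fun i => if (i : ℕ) < k then 0 else 1
    have hb : (g : Matrix (Fin n) (Fin n) F).BlockTriangular b := by
      intro i j hij
      simp only [b] at hij
      by_cases hj : (j : ℕ) < k
      · by_cases hi : (i : ℕ) < k
        · simp [hi, hj] at hij
        · exact h i j (by omega) hj
      · simp only [hj, if_false] at hij
        split_ifs at hij <;> omega
    have : Invertible (g : Matrix (Fin n) (Fin n) F) := g.invertible
    have hb' := Matrix.blockTriangular_inv_of_blockTriangular hb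
    have hinv : ∀ i j : Fin n, k ≤ (i : ℕ) → (j : ℕ) < k → (g : Matrix (Fin n) (Fin n) F)⁻¹ i j = 0 := by
      intro i j hi hj
      apply hb'
      simp only [b]
      simp [hj, show ¬ (i : ℕ) < k by omega]
    have hv' := mulVec_mem_coord hinv hv
    have e : (g : Matrix (Fin n) (Fin n) F)⁻¹ *ᵥ ((glToMat (Fin n) F) g *ᵥ v) = v := by
      simp [Matrix.mulVec_mulVec, Matrix.nonsing_inv_mul _ ((Matrix.isUnit_iff_isUnit_det _).1 g.isUnit)]
    rwa [e] at hv'

theorem not_mem_stabP_iff {g : GL (Fin n) F} :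
    g ∉ stabP n k F ↔ ∃ i j : Fin n, k ≤ (i : ℕ) ∧ (j : ℕ) < k ∧ (g : Matrix (Fin n) (Fin n) F) i j ≠ 0 := by
  rw [mem_stabP_iff]
  push Not
  rfl

/-! ### Rank one transvections -/

section tau

variable {ι : Type*} [Fintype ι] [DecidableEq ι]

/-- The rank-one transvection `1 + x ψᵀ` (for `ψ ⬝ x = 0`). -/
def tau (x ψ : ι → F) (h : ψ ⬝ᵥ x = 0) : GL ι F where
  val := 1 + vecMulVec x ψ
  inv := 1 - vecMulVec x ψ
  val_inv := by
    rw [mul_sub, add_mul, add_mul]
    simp [vecMulVec_mul_vecMulVec, h]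
  inv_val := by
    rw [mul_add, sub_mul, sub_mul]
    simp [vecMulVec_mul_vecMulVec, h]

@[simp] theorem tau_val (x ψ : ι → F) (h : ψ ⬝ᵥ x = 0) :
    ((tau x ψ h : GL ι F) : Matrix ι ι F) = 1 + vecMulVec x ψ := rfl

theorem tau_inv_val (x ψ : ι → F) (h : ψ ⬝ᵥ x = 0) :
    (((tau x ψ h)⁻¹ : GL ι F) : Matrix ι ι F) = 1 - vecMulVec x ψ := rfl

theorem tau_mulVec (x ψ : ι → F) (h : ψ ⬝ᵥ x = 0) (v : ι → F) :
    ((tau x ψ h : GL ι F) : Matrix ι ι F) *ᵥ v = v + (ψ ⬝ᵥ v) • x := by
  rw [tau_val, Matrix.add_mulVec, Matrix.one_mulVec, vecMulVec_mulVec]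
  congr 1
  ext i
  simp [mul_comm]

theorem vecMul_tau_inv (x ψ : ι → F) (h : ψ ⬝ᵥ x = 0) (w : ι → F) :
    w ᵥ* (((tau x ψ h)⁻¹ : GL ι F) : Matrix ι ι F) = w - (w ⬝ᵥ x) • ψ := by
  rw [tau_inv_val, Matrix.vecMul_sub, Matrix.vecMul_one, vecMul_vecMulVec]

theorem conj_dotProduct (g : GL ι F) (x ψ : ι → F) (h : ψ ⬝ᵥ x = 0) :
    (ψ ᵥ* ((g⁻¹ : GL ι F) : Matrix ι ι F)) ⬝ᵥ ((g : Matrix ι ι F) *ᵥ x) = 0 := by
  rw [← Matrix.dotProduct_mulVec, Matrix.mulVec_mulVec]
  have : ((g⁻¹ : GL ι F) : Matrix ι ι F) * (g : Matrix ι ι F) = 1 := by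
    rw [← Units.val_mul]; simp
  rw [this, Matrix.one_mulVec, h]

/-- Conjugation formula for rank-one transvections. -/
theorem conj_tau (g : GL ι F) (x ψ : ι → F) (h : ψ ⬝ᵥ x = 0) :
    g * tau x ψ h * g⁻¹ = tau ((g : Matrix ι ι F) *ᵥ x) (ψ ᵥ* ((g⁻¹ : GL ι F) : Matrix ι ι F))
      (conj_dotProduct g x ψ h) := by
  apply Units.ext
  have e : (g : Matrix ι ι F) * ((g⁻¹ : GL ι F) : Matrix ι ι F) = 1 := by
    rw [← Units.val_mul]; simp
  simp only [Units.val_mul, tau_val, mul_add, add_mul, mul_one, e, mul_vecMulVec, vecMulVec_mul]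

/-- The matrix transvection `t_ij(c)` as a rank one transvection. -/
theorem toGL_transvection_eq_tau {i j : ι} (hij : i ≠ j) (c : F) :
    Matrix.SpecialLinearGroup.toGL (Matrix.SpecialLinearGroup.transvection hij c) =
      tau (Pi.single i 1) (Pi.single j c) (by rw [single_dotProduct, Pi.single_eq_of_ne hij.symm]; simp) := by
  apply Units.ext
  simp only [Matrix.SpecialLinearGroup.coe_GL_coe_matrix, Matrix.SpecialLinearGroup.transvection_coe,
    tau_val, Matrix.transvection]
  congr 1
  ext a b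
  simp only [vecMulVec_apply, Matrix.single_apply, Pi.single_apply]
  by_cases h1 : a = i
  · subst h1
    by_cases h2 : b = j
    · subst h2; simp
    · simp [h2, Ne.symm h2]
  · simp [h1, Ne.symm h1]

end tau

/-! ### Dilations -/

section dilation

variable {ι : Type*} [Fintype ι] [DecidableEq ι]

/-- The diagonal matrix with `b` at `i` and `1` elsewhere, as an element of `GL`. -/
def dil (i : ι) (b : F) (hb : b ≠ 0) : GL ι F where
  val := diagonal (fun j => if j = i then b else 1)
  inv := diagonal (fun j => if j = i then b⁻¹ else 1)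
  val_inv := by
    rw [diagonal_mul_diagonal, ← diagonal_one]
    congr 1
    ext j
    by_cases h : j = i <;> simp [h, hb]
  inv_val := by
    rw [diagonal_mul_diagonal, ← diagonal_one]
    congr 1
    ext j
    by_cases h : j = i <;> simp [h, hb]

theorem dil_val (i : ι) (b : F) (hb : b ≠ 0) :
    ((dil i b hb : GL ι F) : Matrix ι ι F) = diagonal (fun j => if j = i then b else 1) := rfl

theorem dil_inv_val (i : ι) (b : F) (hb : b ≠ 0) :
    (((dil i b hb)⁻¹ : GL ι F) : Matrix ι ι F) = diagonal (fun j => if j = i then b⁻¹ else 1) := rfl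

theorem det_dil (i : ι) (b : F) (hb : b ≠ 0) :
    ((dil i b hb : GL ι F) : Matrix ι ι F).det = b := by
  rw [dil_val, det_diagonal, Finset.prod_ite_eq' Finset.univ i (fun _ => b)]
  simp

/-- Scaling a transvection by conjugation with a dilation. -/
theorem dil_conj_transvection {i j : ι} (hij : i ≠ j) (c e : F) (he : e ≠ 0) :
    dil i e he * Matrix.SpecialLinearGroup.toGL (Matrix.SpecialLinearGroup.transvection hij c) * (dil i e he)⁻¹ =
      Matrix.SpecialLinearGroup.toGL (Matrix.SpecialLinearGroup.transvection hij (e * c)) := by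
  apply Units.ext
  simp only [Units.val_mul, dil_val, dil_inv_val, Matrix.SpecialLinearGroup.coe_GL_coe_matrix,
    Matrix.SpecialLinearGroup.transvection_coe, Matrix.transvection]
  ext a b
  simp only [Matrix.mul_diagonal, Matrix.diagonal_mul, Matrix.add_apply, Matrix.one_apply, Matrix.single_apply]
  by_cases hai : a = i
  · subst hai
    by_cases hb : b = a
    · subst hb
      simp [hij.symm, he]
    · simp [hb, Ne.symm hb, hij]
  · by_cases hb : b = i
    · subst hb
      simp [hai, he, Ne.symm hai]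
    · simp [hai, hb, Ne.symm hai]

end dilation

/-! ### Membership in `stabP` -/

theorem tau_mem_stabP_of_left {x ψ : Fin n → F} (h : ψ ⬝ᵥ x = 0) (hx : x ∈ coord n k F) :
    tau x ψ h ∈ stabP n k F := by
  rw [mem_stabP_iff]
  intro i j hi hj
  have hij : i ≠ j := by rintro rfl; omega
  simp [vecMulVec_apply, hx i hi, Matrix.one_apply, hij]

theorem tau_mem_stabP_of_right {x ψ : Fin n → F} (h : ψ ⬝ᵥ x = 0)
    (hψ : ∀ j : Fin n, (j : ℕ) < k → ψ j = 0) : tau x ψ h ∈ stabP n k F := by
  rw [mem_stabP_iff]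
  intro i j hi hj
  have hij : i ≠ j := by rintro rfl; omega
  simp [vecMulVec_apply, hψ j hj, Matrix.one_apply, hij]

theorem toGL_transvection_mem_stabP {i j : Fin n} (hij : i ≠ j) (c : F)
    (h : (j : ℕ) < k → (i : ℕ) < k) :
    Matrix.SpecialLinearGroup.toGL (Matrix.SpecialLinearGroup.transvection hij c) ∈ stabP n k F := by
  rw [mem_stabP_iff]
  intro a b ha hb
  have hab : a ≠ b := by rintro rfl; omega
  simp only [Matrix.SpecialLinearGroup.coe_GL_coe_matrix, Matrix.SpecialLinearGroup.transvection_coe,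
    Matrix.transvection, Matrix.add_apply, Matrix.one_apply, hab, if_false, zero_add, Matrix.single_apply]
  rw [if_neg]
  rintro ⟨rfl, rfl⟩
  have := h hb
  omega

theorem dil_mem_stabP (i : Fin n) (b : F) (hb : b ≠ 0) : dil i b hb ∈ stabP n k F := by
  rw [mem_stabP_iff]
  intro a c ha hc
  have hac : a ≠ c := by rintro rfl; omega
  simp [dil_val, Matrix.diagonal_apply, hac]

/-! ### Generation -/

/-- A subgroup of `GL_n` containing all transvections and the dilations at one index is everything. -/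
theorem eq_top_of_transvections {H : Subgroup (GL (Fin n) F)} (i₀ : Fin n)
    (hd : ∀ (b : F) (hb : b ≠ 0), dil i₀ b hb ∈ H)
    (ht : ∀ (i j : Fin n) (hij : i ≠ j) (c : F),
      Matrix.SpecialLinearGroup.toGL (Matrix.SpecialLinearGroup.transvection hij c) ∈ H) :
    H = ⊤ := by
  rw [eq_top_iff]
  intro g _
  have hdet : (g : Matrix (Fin n) (Fin n) F).det ≠ 0 :=
    ((Matrix.isUnit_iff_isUnit_det _).1 g.isUnit).ne_zero
  set D := dil i₀ _ hdet with hD
  have h1 : ((D⁻¹ * g : GL (Fin n) F) : Matrix (Fin n) (Fin n) F).det = 1 := by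
    rw [Units.val_mul, Matrix.det_mul]
    have h2 : ((D⁻¹ : GL (Fin n) F) : Matrix (Fin n) (Fin n) F).det * (g : Matrix (Fin n) (Fin n) F).det = 1 := by
      have h3 : (D : Matrix (Fin n) (Fin n) F).det = (g : Matrix (Fin n) (Fin n) F).det := det_dil _ _ hdet
      rw [← h3, ← Matrix.det_mul, ← Units.val_mul]
      simp
    exact h2
  let M : Matrix.SpecialLinearGroup (Fin n) F := ⟨_, h1⟩
  have hM : Matrix.SpecialLinearGroup.toGL M ∈ H := by
    have hnt : Subsingleton (Fin n) ∨ Nontrivial (Fin n) := subsingleton_or_nontrivial _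
    rcases hnt with hs | hnt
    · -- `n = 1` (since `i₀` exists): `SL` is trivial
      have hM1 : M = 1 := by
        apply Matrix.SpecialLinearGroup.ext
        intro i j
        have hij : i = j := Subsingleton.elim i j
        subst hij
        have hi : i = i₀ := Subsingleton.elim _ _
        subst hi
        have h4 := M.2
        rw [Matrix.det_eq_elem_of_subsingleton _ i] at h4
        simpa using h4
      rw [hM1, map_one]
      exact one_mem _
    · refine Cfsg.Agent.Lib.Classical.Lin.Transvections.transvection_induction (F := F)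
        (fun M => Matrix.SpecialLinearGroup.toGL M ∈ H) ?_ ?_ M
      · exact ht
      · intro A B hA hB
        rw [map_mul]
        exact mul_mem hA hB
  have hg : g = D * Matrix.SpecialLinearGroup.toGL M := by
    have h5 : Matrix.SpecialLinearGroup.toGL M = D⁻¹ * g := Units.ext rfl
    rw [h5]
    group
  rw [hg]
  exact mul_mem (hd _ _) hM

/-! ### Maximality -/

/-- If `τ(x,ψ) ∈ H ≥ stabP` with `x ∉ coord` and `ψ` nonzero on `coord`, then `H` contains a
lower-left transvection. -/
theorem exists_transvection_of_tau {H : Subgroup (GL (Fin n) F)} (hP : stabP n k F ≤ H)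
    {x ψ : Fin n → F} (h : ψ ⬝ᵥ x = 0) (hτ : tau x ψ h ∈ H)
    {a b : Fin n} (ha : (a : ℕ) < k) (hb : k ≤ (b : ℕ)) (hxb : x b ≠ 0) (hψa : ψ a ≠ 0) :
    ∃ c : F, c ≠ 0 ∧ ∃ hba : b ≠ a,
      Matrix.SpecialLinearGroup.toGL (Matrix.SpecialLinearGroup.transvection hba c) ∈ H := by
  have hba : b ≠ a := by rintro rfl; omega
  -- Step 1: clear `x`
  set y : Fin n → F := (-(x b)⁻¹) • (x - Pi.single b (x b)) with hy
  have hyb : y b = 0 := by simp [hy]
  have h1 : (Pi.single b (1 : F) : Fin n → F) ⬝ᵥ y = 0 := by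
    rw [single_dotProduct, hyb]; simp
  set p := tau y (Pi.single b (1 : F)) h1 with hp
  have hpP : p ∈ stabP n k F := tau_mem_stabP_of_right h1 (fun j hj => by
    rw [Pi.single_apply, if_neg]; rintro rfl; omega)
  have hpx : (p : Matrix (Fin n) (Fin n) F) *ᵥ x = Pi.single b (x b) := by
    rw [hp, tau_mulVec, single_dotProduct, one_mul, hy, smul_smul]
    have : x b * -(x b)⁻¹ = -1 := by field_simp
    rw [this]
    simp
  set ψ' : Fin n → F := ψ ᵥ* ((p⁻¹ : GL (Fin n) F) : Matrix (Fin n) (Fin n) F) with hψ'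
  have hψ'a : ψ' a = ψ a := by
    rw [hψ', hp, vecMul_tau_inv]
    simp [Pi.single_apply, hba.symm]
  have h2 := conj_dotProduct p x ψ h
  rw [hpx] at h2
  have hψ'b : ψ' b = 0 := by
    rw [dotProduct_single] at h2
    rcases mul_eq_zero.1 h2 with h3 | h3
    · exact h3
    · exact absurd h3 hxb
  -- Step 2: clear `ψ`
  set θ : Fin n → F := (ψ a)⁻¹ • (ψ' - Pi.single a (ψ a)) with hθ
  have hθa : θ a = 0 := by simp [hθ, hψ'a]
  have hθb : θ b = 0 := by simp [hθ, hψ'b, hba]
  have h3 : θ ⬝ᵥ (Pi.single a (1 : F) : Fin n → F) = 0 := by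
    rw [dotProduct_single, hθa]; simp
  set q := tau (Pi.single a (1 : F)) θ h3 with hq
  have hqP : q ∈ stabP n k F := tau_mem_stabP_of_left h3 (single_mem_coord ha 1)
  have hqx : (q : Matrix (Fin n) (Fin n) F) *ᵥ Pi.single b (x b) = Pi.single b (x b) := by
    rw [hq, tau_mulVec, dotProduct_single, hθb]
    simp
  have hqψ : ψ' ᵥ* ((q⁻¹ : GL (Fin n) F) : Matrix (Fin n) (Fin n) F) = Pi.single a (ψ a) := by
    rw [hq, vecMul_tau_inv, dotProduct_single, mul_one, hψ'a, hθ, smul_smul,
      mul_inv_cancel₀ hψa, one_smul]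
    simp
  -- The conjugate
  have hmem : q * (p * tau x ψ h * p⁻¹) * q⁻¹ ∈ H :=
    mul_mem (mul_mem (hP hqP) (mul_mem (mul_mem (hP hpP) hτ) (inv_mem (hP hpP)))) (inv_mem (hP hqP))
  have hform : ((q * (p * tau x ψ h * p⁻¹) * q⁻¹ : GL (Fin n) F) : Matrix (Fin n) (Fin n) F) =
      1 + vecMulVec (Pi.single b (x b)) (Pi.single a (ψ a)) := by
    rw [conj_tau, conj_tau]
    simp only [tau_val, hpx, hqx, ← hψ', hqψ]
  refine ⟨x b * ψ a, mul_ne_zero hxb hψa, hba, ?_⟩
  convert hmem using 1
  apply Units.ext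
  rw [hform]
  simp only [Matrix.SpecialLinearGroup.coe_GL_coe_matrix, Matrix.SpecialLinearGroup.transvection_coe,
    Matrix.transvection]
  congr 1
  ext i j
  simp only [vecMulVec_apply, Matrix.single_apply, Pi.single_apply]
  by_cases h1 : i = b
  · subst h1
    by_cases h2 : j = a
    · subst h2; simp
    · simp [h2, Ne.symm h2]
  · simp [h1, Ne.symm h1]

/-- A subgroup containing `stabP` and a lower-left transvection is everything. -/
theorem eq_top_of_lowerLeft {H : Subgroup (GL (Fin n) F)} (hP : stabP n k F ≤ H)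
    {a b : Fin n} (ha : (a : ℕ) < k) (hb : k ≤ (b : ℕ)) (hba : b ≠ a) {c : F} (hc : c ≠ 0)
    (ht : Matrix.SpecialLinearGroup.toGL (Matrix.SpecialLinearGroup.transvection hba c) ∈ H) :
    H = ⊤ := by
  -- scaling
  have hscale : ∀ e : F, Matrix.SpecialLinearGroup.toGL (Matrix.SpecialLinearGroup.transvection hba e) ∈ H := by
    intro e
    by_cases he : e = 0
    · subst he
      simp [Matrix.SpecialLinearGroup.transvection_coeff_zero]
    · have he' : e * c⁻¹ ≠ 0 := mul_ne_zero he (inv_ne_zero hc)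
      have hconj := dil_conj_transvection hba c (e * c⁻¹) he'
      rw [mul_assoc e, inv_mul_cancel₀ hc, mul_one] at hconj
      rw [← hconj]
      exact mul_mem (mul_mem (hP (dil_mem_stabP _ _ _)) ht) (inv_mem (hP (dil_mem_stabP _ _ _)))
  -- changing the column
  have hcol : ∀ (a' : Fin n) (_ : (a' : ℕ) < k) (hba' : b ≠ a') (e : F),
      Matrix.SpecialLinearGroup.toGL (Matrix.SpecialLinearGroup.transvection hba' e) ∈ H := by
    intro a' ha' hba' e
    by_cases haa' : a = a'
    · subst haa'
      exact hscale e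
    · rw [Cfsg.Agent.Lib.Classical.Lin.Transvections.transvection_eq_commutator hba' hba haa',
        map_commutatorElement, commutatorElement_def]
      have h1 := hscale e
      have h2 : Matrix.SpecialLinearGroup.toGL (Matrix.SpecialLinearGroup.transvection haa' (1 : F)) ∈ H :=
        hP (toGL_transvection_mem_stabP haa' 1 (fun _ => ha))
      exact mul_mem (mul_mem (mul_mem h1 h2) (inv_mem h1)) (inv_mem h2)
  -- changing the row
  have hrow : ∀ (b' a' : Fin n) (_ : k ≤ (b' : ℕ)) (_ : (a' : ℕ) < k) (hba' : b' ≠ a') (e : F),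
      Matrix.SpecialLinearGroup.toGL (Matrix.SpecialLinearGroup.transvection hba' e) ∈ H := by
    intro b' a' hb' ha' hba' e
    by_cases hbb' : b' = b
    · subst hbb'
      exact hcol a' ha' hba' e
    · have hba2 : b ≠ a' := by rintro rfl; omega
      rw [Cfsg.Agent.Lib.Classical.Lin.Transvections.transvection_eq_commutator hba' hbb' hba2,
        map_commutatorElement, commutatorElement_def]
      have h1 : Matrix.SpecialLinearGroup.toGL (Matrix.SpecialLinearGroup.transvection hbb' e) ∈ H :=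
        hP (toGL_transvection_mem_stabP hbb' e (fun h => by omega))
      have h2 := hcol a' ha' hba2 1
      exact mul_mem (mul_mem (mul_mem h1 h2) (inv_mem h1)) (inv_mem h2)
  refine eq_top_of_transvections a (fun e he => hP (dil_mem_stabP _ _ _)) ?_
  intro i j hij e
  by_cases hj : (j : ℕ) < k
  · by_cases hi : (i : ℕ) < k
    · exact hP (toGL_transvection_mem_stabP hij e (fun _ => hi))
    · exact hrow i j (by omega) hj hij e
  · exact hP (toGL_transvection_mem_stabP hij e (fun h => absurd h hj))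

/-- `stabP n k F` is a maximal subgroup of `GL_n(F)` when `0 < k < n`. -/
theorem isCoatom_stabP (hk0 : 0 < k) (hkn : k < n) : IsCoatom (stabP n k F) := by
  constructor
  · -- proper
    intro htop
    let a : Fin n := ⟨0, by omega⟩
    let b : Fin n := ⟨k, hkn⟩
    have hba : b ≠ a := by
      intro h
      have := congrArg Fin.val h
      simp [a, b] at this
      omega
    have h1 : Matrix.SpecialLinearGroup.toGL (Matrix.SpecialLinearGroup.transvection hba (1 : F)) ∈ stabP n k F := by
      rw [htop]; exact Subgroup.mem_top _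
    rw [mem_stabP_iff] at h1
    have h2 := h1 b a (by simp [b]) (by simpa [a] using hk0)
    simp [Matrix.SpecialLinearGroup.coe_GL_coe_matrix, Matrix.SpecialLinearGroup.transvection_coe,
      Matrix.transvection, Matrix.one_apply, hba] at h2
  · intro H hH
    have hP : stabP n k F ≤ H := hH.le
    obtain ⟨g, hgH, hgP⟩ := SetLike.exists_of_lt hH
    obtain ⟨i₀, j₀, hi₀, hj₀, hg0⟩ := not_mem_stabP_iff.1 hgP
    have hgP' : g⁻¹ ∉ stabP n k F := fun h => hgP (by simpa using inv_mem h)
    obtain ⟨i₁, j₁, hi₁, hj₁, hg1⟩ := not_mem_stabP_iff.1 hgP'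
    -- conjugate the upper-right transvection `t_{j₀ i₁}(1)`
    have hne : j₀ ≠ i₁ := by rintro rfl; omega
    have h0 := toGL_transvection_mem_stabP (F := F) (k := k) hne 1 (fun _ => hj₀)
    have hconj : g * Matrix.SpecialLinearGroup.toGL (Matrix.SpecialLinearGroup.transvection hne (1 : F)) * g⁻¹ ∈ H :=
      mul_mem (mul_mem hgH (hP h0)) (inv_mem hgH)
    rw [toGL_transvection_eq_tau, conj_tau] at hconj
    -- read off the entries
    have hx : ((g : Matrix (Fin n) (Fin n) F) *ᵥ (Pi.single j₀ 1)) i₀ ≠ 0 := by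
      simpa [Matrix.mulVec_single_one] using hg0
    have hψ : ((Pi.single i₁ (1 : F)) ᵥ* ((g⁻¹ : GL (Fin n) F) : Matrix (Fin n) (Fin n) F)) j₁ ≠ 0 := by
      simpa [Matrix.single_one_vecMul] using hg1
    obtain ⟨c, hc, hba, ht⟩ := exists_transvection_of_tau hP _ hconj hj₁ hi₀ hx hψ
    exact eq_top_of_lowerLeft hP hj₁ hi₀ hba hc ht

end Cfsg.Agent.Lib.Classical.Lin.Parabolic
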