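import Mathlib
import Cfsg.Prelude.Def_ClassicalGeometry
import Cfsg.Agent.Lib.Classical.Lin.Parabolic

/-!
# Invariant subspaces of maximal parabolic subgroups, and the transpose-inverse automorphism
-/

set_option autoImplicit false
set_option linter.unusedSimpArgs false

namespace Cfsg.Agent.Lib.Classical.Lin.ParabolicInvariant

open Matrix Cfsg
open Cfsg.Agent.Lib.Classical.Lin.Parabolic

open scoped MatrixGroups

variable {F : Type*} [Field F] {n k m : ℕ}

/-- The span of the first `k` coordinate vectors, as a submodule. -/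
def coordSub (n k : ℕ) (F : Type*) [Field F] : Submodule F (Fin n → F) where
  carrier := coord n k F
  add_mem' := fun {a b} ha hb i hi => by simp [ha i hi, hb i hi]
  zero_mem' := fun i _ => rfl
  smul_mem' := fun c {a} ha i hi => by simp [ha i hi]

theorem mem_coordSub {v : Fin n → F} : v ∈ coordSub n k F ↔ ∀ i : Fin n, k ≤ (i : ℕ) → v i = 0 := Iff.rfl

/-- The coordinate subspace of dimension `k` is linearly equivalent to `F^k`. -/
def coordSubEquiv (hk : k ≤ n) : coordSub n k F ≃ₗ[F] (Fin k → F) where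
  toFun v := fun i => v.1 (Fin.castLE hk i)
  map_add' _ _ := rfl
  map_smul' _ _ := rfl
  invFun w := ⟨fun j => if h : (j : ℕ) < k then w ⟨j, h⟩ else 0, fun i hi => by
    simp only [dif_neg (show ¬ (i : ℕ) < k by omega)]⟩
  left_inv v := by
    ext j
    by_cases h : (j : ℕ) < k
    · simp [h, Fin.castLE]
    · simp [h, v.2 j (by omega)]
  right_inv w := by
    ext i
    simp [Fin.castLE]

theorem finrank_coordSub (hk : k ≤ n) : Module.finrank F (coordSub n k F) = k := by
  rw [(coordSubEquiv hk).finrank_eq]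
  simp

/-- A subspace invariant under a maximal parabolic which is not contained in the coordinate
subspace is everything. -/
theorem invariant_eq_top {X : Submodule F (Fin n → F)}
    (hX : ∀ g ∈ stabP n m F, ∀ v ∈ X, (g : Matrix (Fin n) (Fin n) F) *ᵥ v ∈ X)
    {v : Fin n → F} (hv : v ∈ X) {b : Fin n} (hb : m ≤ (b : ℕ)) (hvb : v b ≠ 0) : X = ⊤ := by
  -- all `y` with `y b = 0` lie in `X`
  have hy : ∀ y : Fin n → F, y b = 0 → y ∈ X := by
    intro y hyb
    set φ : Fin n → F := Pi.single b ((v b)⁻¹) with hφ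
    have h0 : φ ⬝ᵥ y = 0 := by
      rw [hφ, single_dotProduct, hyb, mul_zero]
    have hτ : tau y φ h0 ∈ stabP n m F := tau_mem_stabP_of_right h0 (fun j hj => by
      rw [hφ, Pi.single_apply, if_neg]; rintro rfl; omega)
    have h1 := hX _ hτ v hv
    rw [tau_mulVec, hφ, single_dotProduct, inv_mul_cancel₀ hvb, one_smul] at h1
    simpa using X.sub_mem h1 hv
  rw [eq_top_iff]
  rintro u -
  have hvy : v - Pi.single b (v b) ∈ X := hy _ (by simp)
  have hs : (Pi.single b (v b) : Fin n → F) ∈ X := by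
    simpa using X.sub_mem hv hvy
  have hs1 : (Pi.single b (u b) : Fin n → F) ∈ X := by
    have : (Pi.single b (u b) : Fin n → F) = (u b * (v b)⁻¹) • Pi.single b (v b) := by
      ext j
      by_cases h : j = b
      · subst h; simp [hvb]
      · simp [h]
    rw [this]
    exact X.smul_mem _ hs
  have hu : u - Pi.single b (u b) ∈ X := hy _ (by simp)
  simpa using X.add_mem hu hs1

/-- A nonzero subspace invariant under a maximal parabolic contains the coordinate subspace. -/
theorem coordSub_le_of_invariant {X : Submodule F (Fin n → F)}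
    (hX : ∀ g ∈ stabP n m F, ∀ v ∈ X, (g : Matrix (Fin n) (Fin n) F) *ᵥ v ∈ X)
    {v : Fin n → F} (hv : v ∈ X) (hvm : v ∈ coordSub n m F) {a : Fin n} (hva : v a ≠ 0) :
    coordSub n m F ≤ X := by
  have hy : ∀ y : Fin n → F, y ∈ coordSub n m F → y a = 0 → y ∈ X := by
    intro y hyW hya
    set φ : Fin n → F := Pi.single a ((v a)⁻¹) with hφ
    have h0 : φ ⬝ᵥ y = 0 := by
      rw [hφ, single_dotProduct, hya, mul_zero]
    have hτ : tau y φ h0 ∈ stabP n m F := tau_mem_stabP_of_left h0 hyW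
    have h1 := hX _ hτ v hv
    rw [tau_mulVec, hφ, single_dotProduct, inv_mul_cancel₀ hva, one_smul] at h1
    simpa using X.sub_mem h1 hv
  have ha : (a : ℕ) < m := by
    by_contra h
    exact hva (hvm a (by omega))
  have hsingle : ∀ c : F, (Pi.single a c : Fin n → F) ∈ coordSub n m F := fun c =>
    single_mem_coord ha c
  have hvy : v - Pi.single a (v a) ∈ X :=
    hy _ (Submodule.sub_mem _ hvm (hsingle _)) (by simp)
  have hs : (Pi.single a (v a) : Fin n → F) ∈ X := by
    simpa using X.sub_mem hv hvy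
  intro u hu
  have hs1 : (Pi.single a (u a) : Fin n → F) ∈ X := by
    have : (Pi.single a (u a) : Fin n → F) = (u a * (v a)⁻¹) • Pi.single a (v a) := by
      ext j
      by_cases h : j = a
      · subst h; simp [hva]
      · simp [h]
    rw [this]
    exact X.smul_mem _ hs
  have hu' : u - Pi.single a (u a) ∈ X :=
    hy _ (Submodule.sub_mem _ hu (hsingle _)) (by simp)
  simpa using X.add_mem hu' hs1

/-- The invariant subspaces of a maximal parabolic subgroup. -/
theorem invariant_trichotomy {X : Submodule F (Fin n → F)}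
    (hX : ∀ g ∈ stabP n m F, ∀ v ∈ X, (g : Matrix (Fin n) (Fin n) F) *ᵥ v ∈ X) :
    X = ⊥ ∨ X = coordSub n m F ∨ X = ⊤ := by
  by_cases hle : X ≤ coordSub n m F
  · by_cases hbot : X = ⊥
    · exact Or.inl hbot
    · obtain ⟨v, hv, hv0⟩ := Submodule.exists_mem_ne_zero_of_ne_bot hbot
      obtain ⟨a, ha⟩ : ∃ a, v a ≠ 0 := by
        by_contra h
        push Not at h
        exact hv0 (funext h)
      exact Or.inr (Or.inl (le_antisymm hle (coordSub_le_of_invariant hX hv (hle hv) ha)))
  · obtain ⟨v, hv, hvW⟩ := SetLike.not_le_iff_exists.1 hle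
    rw [mem_coordSub] at hvW
    push Not at hvW
    obtain ⟨b, hb, hvb⟩ := hvW
    exact Or.inr (Or.inr (invariant_eq_top hX hv hb hvb))

/-- The linear automorphism of `F^n` given by an element of `GL_n`. -/
def glEquiv (g : GL (Fin n) F) : (Fin n → F) ≃ₗ[F] (Fin n → F) where
  toFun v := (g : Matrix (Fin n) (Fin n) F) *ᵥ v
  map_add' := Matrix.mulVec_add _
  map_smul' := Matrix.mulVec_smul _
  invFun v := ((g⁻¹ : GL (Fin n) F) : Matrix (Fin n) (Fin n) F) *ᵥ v
  left_inv v := by
    simp only [Matrix.mulVec_mulVec, ← Units.val_mul, inv_mul_cancel, Units.val_one, Matrix.one_mulVec]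
  right_inv v := by
    simp only [Matrix.mulVec_mulVec, ← Units.val_mul, mul_inv_cancel, Units.val_one, Matrix.one_mulVec]

theorem glEquiv_apply (g : GL (Fin n) F) (v : Fin n → F) :
    glEquiv g v = (g : Matrix (Fin n) (Fin n) F) *ᵥ v := rfl

/-- No element of `GL_n` conjugates `stabP n k` onto `stabP n l` when `k ≠ l`, `0 < k < n`, `l ≤ n`. -/
theorem not_conj_stabP (hk0 : 0 < k) (hkn : k < n) {l : ℕ} (hl : l ≤ n) (hkl : k ≠ l)
    (g : GL (Fin n) F) :
    (stabP n k F).map (MulAut.conj g).toMonoidHom ≠ stabP n l F := by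
  intro h
  set X : Submodule F (Fin n → F) := (coordSub n k F).map (glEquiv g : (Fin n → F) →ₗ[F] (Fin n → F)) with hXdef
  have hfin : Module.finrank F X = k := by
    rw [hXdef, LinearEquiv.finrank_map_eq, finrank_coordSub hkn.le]
  have hX : ∀ p ∈ stabP n l F, ∀ v ∈ X, (p : Matrix (Fin n) (Fin n) F) *ᵥ v ∈ X := by
    rintro p hp v ⟨w, hw, rfl⟩
    rw [← h] at hp
    obtain ⟨p', hp', rfl⟩ := hp
    refine ⟨(p' : Matrix (Fin n) (Fin n) F) *ᵥ w, (hp' w).1 hw, ?_⟩
    simp only [LinearEquiv.coe_coe, glEquiv_apply]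
    simp only [MulEquiv.coe_toMonoidHom, MulAut.conj_apply, Units.val_mul, Matrix.mulVec_mulVec]
    have e : (g : Matrix (Fin n) (Fin n) F) * (p' : Matrix (Fin n) (Fin n) F) *
        ((g⁻¹ : GL (Fin n) F) : Matrix (Fin n) (Fin n) F) * (g : Matrix (Fin n) (Fin n) F) =
        (g : Matrix (Fin n) (Fin n) F) * (p' : Matrix (Fin n) (Fin n) F) := by
      have e2 : ((g⁻¹ : GL (Fin n) F) : Matrix (Fin n) (Fin n) F) * (g : Matrix (Fin n) (Fin n) F) = 1 := by
        rw [← Units.val_mul, inv_mul_cancel, Units.val_one]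
      rw [mul_assoc _ _ (g : Matrix (Fin n) (Fin n) F), e2, mul_one]
    rw [e]
  rcases invariant_trichotomy hX with h1 | h1 | h1
  · rw [h1, finrank_bot] at hfin
    omega
  · rw [h1, finrank_coordSub hl] at hfin
    omega
  · rw [h1, finrank_top] at hfin
    simp at hfin
    omega

/-! ### The inverse-transpose-reversal automorphism -/

/-- `g ↦ w (g⁻ᵀ) w⁻¹`, `w` the reversal permutation, as a function on `GL`. -/
def thetaFun (g : GL (Fin n) F) : GL (Fin n) F where
  val := ((g⁻¹ : GL (Fin n) F) : Matrix (Fin n) (Fin n) F)ᵀ.submatrix Fin.revPerm Fin.revPerm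
  inv := (g : Matrix (Fin n) (Fin n) F)ᵀ.submatrix Fin.revPerm Fin.revPerm
  val_inv := by
    rw [Matrix.submatrix_mul_equiv, ← Matrix.transpose_mul, ← Units.val_mul, mul_inv_cancel]
    simp
  inv_val := by
    rw [Matrix.submatrix_mul_equiv, ← Matrix.transpose_mul, ← Units.val_mul, inv_mul_cancel]
    simp

theorem thetaFun_val (g : GL (Fin n) F) (i j : Fin n) :
    (thetaFun g : Matrix (Fin n) (Fin n) F) i j =
      ((g⁻¹ : GL (Fin n) F) : Matrix (Fin n) (Fin n) F) (Fin.rev j) (Fin.rev i) := rfl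

theorem thetaFun_inv_val (g : GL (Fin n) F) (i j : Fin n) :
    (((thetaFun g)⁻¹ : GL (Fin n) F) : Matrix (Fin n) (Fin n) F) i j =
      (g : Matrix (Fin n) (Fin n) F) (Fin.rev j) (Fin.rev i) := rfl

theorem thetaFun_thetaFun (g : GL (Fin n) F) : thetaFun (thetaFun g) = g := by
  apply Units.ext
  ext i j
  rw [thetaFun_val, thetaFun_inv_val, Fin.rev_rev, Fin.rev_rev]

theorem thetaFun_mul (g h : GL (Fin n) F) : thetaFun (g * h) = thetaFun g * thetaFun h := by
  apply Units.ext
  change (((g * h)⁻¹ : GL (Fin n) F) : Matrix (Fin n) (Fin n) F)ᵀ.submatrix Fin.revPerm Fin.revPerm =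
    ((g⁻¹ : GL (Fin n) F) : Matrix (Fin n) (Fin n) F)ᵀ.submatrix Fin.revPerm Fin.revPerm *
    ((h⁻¹ : GL (Fin n) F) : Matrix (Fin n) (Fin n) F)ᵀ.submatrix Fin.revPerm Fin.revPerm
  rw [Matrix.submatrix_mul_equiv, ← Matrix.transpose_mul, ← Units.val_mul, _root_.mul_inv_rev]

/-- `g ↦ w (g⁻ᵀ) w⁻¹` as a group automorphism. -/
def theta (n : ℕ) (F : Type*) [Field F] : GL (Fin n) F ≃* GL (Fin n) F where
  toFun := thetaFun
  invFun := thetaFun
  left_inv := thetaFun_thetaFun
  right_inv := thetaFun_thetaFun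
  map_mul' := thetaFun_mul

theorem thetaFun_mem_stabP (hk : k ≤ n) {g : GL (Fin n) F} (hg : g ∈ stabP n k F) :
    thetaFun g ∈ stabP n (n - k) F := by
  rw [mem_stabP_iff] at hg ⊢
  have hg' : g⁻¹ ∈ stabP n k F := inv_mem (by rwa [mem_stabP_iff])
  rw [mem_stabP_iff] at hg'
  intro i j hi hj
  rw [thetaFun_val]
  apply hg'
  · rw [Fin.val_rev]; omega
  · rw [Fin.val_rev]; omega

/-- `stabP n k` and `stabP n (n-k)` are isomorphic. -/
theorem map_theta_stabP (hk : k ≤ n) :
    (stabP n k F).map (theta n F).toMonoidHom = stabP n (n - k) F := by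
  apply le_antisymm
  · rintro _ ⟨g, hg, rfl⟩
    exact thetaFun_mem_stabP hk hg
  · intro g hg
    refine ⟨thetaFun g, ?_, thetaFun_thetaFun g⟩
    have := thetaFun_mem_stabP (k := n - k) (by omega) hg
    rwa [Nat.sub_sub_self hk] at this

/-- `stabP n k` and `stabP n (n-k)` are isomorphic. -/
theorem stabP_mulEquiv (hk : k ≤ n) : Nonempty (stabP n k F ≃* stabP n (n - k) F) :=
  ⟨((theta n F).subgroupMap (stabP n k F)).trans (MulEquiv.subgroupCongr (map_theta_stabP hk))⟩

end Cfsg.Agent.Lib.Classical.Lin.ParabolicInvariant
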