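import Mathlib

/-!
Linear algebra for integer matrices of finite order: the characteristic polynomial divides a power
of `X ^ e - 1`; a polynomial whose power is a multiple of the characteristic polynomial annihilates
the matrix; the eigenspaces modulo a prime not dividing the order are bounded by the multiplicity of
a cyclotomic factor.
-/

set_option autoImplicit false
set_option linter.style.haveILetI false

namespace Cfsg.Agent.Lib.Classical.Lin.Syl2

open Polynomial Matrix

variable {l : ℕ} {M : Matrix (Fin l) (Fin l) ℤ}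

/-- The characteristic polynomial of a matrix of finite order divides a power of `X ^ e - 1`. -/
theorem charpoly_dvd_pow {e : ℕ} (hM : M ^ e = 1) : M.charpoly ∣ (X ^ e - 1 : ℤ[X]) ^ l := by
  set A : Matrix (Fin l) (Fin l) ℤ[X] := Matrix.scalar (Fin l) (X : ℤ[X]) with hA
  set B : Matrix (Fin l) (Fin l) ℤ[X] := (C : ℤ →+* ℤ[X]).mapMatrix M with hB
  have hcomm : Commute A B := Matrix.scalar_commute _ (fun _ => Commute.all _ _) _
  have h1 := hcomm.mul_geom_sum₂ e
  have h2 : A ^ e - B ^ e = Matrix.scalar (Fin l) ((X : ℤ[X]) ^ e - 1) := by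
    rw [hA, hB, ← map_pow, ← map_pow, hM, map_one, map_sub, map_one]
  rw [h2] at h1
  have h3 := congrArg Matrix.det h1
  have h4 : (Matrix.scalar (Fin l) ((X : ℤ[X]) ^ e - 1)).det = ((X : ℤ[X]) ^ e - 1) ^ l := by
    rw [Matrix.scalar_apply, Matrix.det_diagonal]
    simp
  rw [Matrix.det_mul, h4] at h3
  rw [← h3, Matrix.charpoly]
  exact Dvd.intro _ rfl

/-- A polynomial with a power divisible by the characteristic polynomial annihilates a matrix of
finite order. -/
theorem aeval_eq_zero {e : ℕ} (he : 0 < e) (hM : M ^ e = 1) {h : ℤ[X]} {N : ℕ} (hN : N ≠ 0)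
    (hχ : M.charpoly ∣ h ^ N) : aeval M h = 0 := by
  set M' : Matrix (Fin l) (Fin l) ℚ := M.map (Int.castRingHom ℚ) with hM'
  have hQ : ∀ f : ℤ[X], aeval M' (f.map (Int.castRingHom ℚ)) =
      (aeval M f).map (Int.castRingHom ℚ) := by
    intro f
    have e1 : (Int.castRingHom ℚ) = algebraMap ℤ ℚ := rfl
    rw [e1, aeval_map_algebraMap]
    exact aeval_algHom_apply (R := ℤ)
      ((Int.castRingHom ℚ).mapMatrix.toIntAlgHom : Matrix (Fin l) (Fin l) ℤ →ₐ[ℤ] _) M f
  have hint : IsIntegral ℚ M' := Algebra.IsIntegral.isIntegral _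
  set m := minpoly ℚ M' with hm
  have h1 : m ∣ ((X ^ e - 1 : ℤ[X]).map (Int.castRingHom ℚ)) := by
    apply minpoly.dvd
    rw [hQ]
    have h2 : aeval M (X ^ e - 1 : ℤ[X]) = 0 := by
      simp [hM]
    rw [h2]
    ext i j
    simp
  have hsep : ((X ^ e - 1 : ℤ[X]).map (Int.castRingHom ℚ)).Separable := by
    have : ((X ^ e - 1 : ℤ[X]).map (Int.castRingHom ℚ)) = (X ^ e - C (1 : ℚ)) := by simp
    rw [this]
    exact separable_X_pow_sub_C 1 (by exact_mod_cast he.ne') one_ne_zero
  have hsq : Squarefree m := (hsep.of_dvd h1).squarefree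
  have h2 : m ∣ (h.map (Int.castRingHom ℚ)) ^ N := by
    apply minpoly.dvd
    rw [← Polynomial.map_pow, hQ]
    obtain ⟨g, hg⟩ := hχ
    rw [hg, map_mul, Matrix.aeval_self_charpoly, zero_mul]
    ext i j
    simp
  have h3 : m ∣ h.map (Int.castRingHom ℚ) := (hsq.dvd_pow_iff_dvd hN).1 h2
  have h4 : aeval M' (h.map (Int.castRingHom ℚ)) = 0 := by
    obtain ⟨g, hg⟩ := h3
    rw [hg, map_mul, minpoly.aeval, zero_mul]
  rw [hQ] at h4
  ext i j
  have := congrFun (congrFun h4 i) j
  simpa using this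

/-- Root multiplicity of a power. -/
theorem rootMultiplicity_pow_le {R : Type*} [CommRing R] [IsDomain R] {f : R[X]} (hf : f ≠ 0) (x : R)
    (m : ℕ) : rootMultiplicity x (f ^ m) = m * rootMultiplicity x f := by
  induction m with
  | zero => simp
  | succ m ih =>
    rw [pow_succ, rootMultiplicity_mul (mul_ne_zero (pow_ne_zero _ hf) hf), ih]
    ring

/-- The key bound on eigenspaces modulo a prime. -/
theorem finrank_eigen_le {e d k r : ℕ} [hr : Fact r.Prime] (he : 0 < e) (hMe : M ^ e = 1)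
    (hre : ¬ r ∣ e) {lam : ZMod r} (hlam : IsPrimitiveRoot lam d) (hd : 0 < d)
    (hk : ¬ cyclotomic d ℤ ^ (k + 1) ∣ M.charpoly) :
    Module.finrank (ZMod r)
      (Module.End.eigenspace (Matrix.toLin' (M.map (Int.castRingHom (ZMod r)))) lam) ≤ k := by
  -- the prime does not divide `d`
  have hlam0 : lam ≠ 0 := hlam.ne_zero hd.ne'
  have hrd : ¬ r ∣ d := by
    intro h1
    have h2 : d ∣ r - 1 := by
      have h3 := ZMod.pow_card_sub_one_eq_one hlam0
      exact hlam.dvd_of_pow_eq_one _ h3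
    have h4 : r ∣ r - 1 := h1.trans h2
    have h5 := Nat.le_of_dvd (Nat.sub_pos_of_lt hr.out.one_lt) h4
    have := hr.out.pos
    omega
  set E := e * d with hE
  have hEpos : 0 < E := Nat.mul_pos he hd
  have hME : M ^ E = 1 := by rw [hE, pow_mul, hMe, one_pow]
  have hrE : ¬ r ∣ E := fun h1 => ((Nat.Prime.dvd_mul hr.out).1 h1).elim hre hrd
  set Φ := cyclotomic d ℤ with hΦ
  have hΦmonic : Φ.Monic := cyclotomic.monic d ℤ
  obtain ⟨P, hP⟩ : Φ ∣ (X ^ E - 1 : ℤ[X]) := by
    have h1 : Φ ∣ (X ^ d - 1 : ℤ[X]) := cyclotomic.dvd_X_pow_sub_one d ℤ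
    refine h1.trans ?_
    rw [hE, mul_comm e d, pow_mul]
    exact sub_one_dvd_pow_sub_one _ _
  have hχne : M.charpoly ≠ 0 := (Matrix.charpoly_monic M).ne_zero
  have hdeg : 0 < Φ.degree := degree_cyclotomic_pos d ℤ hd
  have hfin : FiniteMultiplicity Φ M.charpoly :=
    finiteMultiplicity_of_degree_pos_of_monic hdeg hΦmonic hχne
  obtain ⟨g, hg, hng⟩ := hfin.exists_eq_pow_mul_and_not_dvd
  set m := multiplicity Φ M.charpoly with hm
  have hmk : m ≤ k := by
    by_contra h
    push Not at h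
    apply hk
    exact (pow_dvd_pow Φ h).trans (Dvd.intro _ hg.symm)
  have hgmonic : g.Monic := by
    have h1 : (Φ ^ m * g).Monic := by
      rw [← hg]
      exact Matrix.charpoly_monic M
    exact (hΦmonic.pow m).of_mul_monic_left h1
  -- `g` divides a power of `P`
  have hgdvd : g ∣ P ^ l := by
    have h1 : g ∣ (Φ * P) ^ l := by
      have h2 : g ∣ M.charpoly := Dvd.intro_left _ hg.symm
      have h3 := charpoly_dvd_pow hME
      rw [hP] at h3
      exact h2.trans h3
    rw [IsPrimitive.Int.dvd_iff_map_cast_dvd_map_cast _ _ hgmonic.isPrimitive] at h1 ⊢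
    have hcop : IsCoprime (Φ.map (Int.castRingHom ℚ)) (g.map (Int.castRingHom ℚ)) := by
      have hirr : Irreducible (Φ.map (Int.castRingHom ℚ)) := by
        rw [hΦ, map_cyclotomic]
        exact cyclotomic.irreducible_rat hd
      apply (hirr.coprime_iff_not_dvd).2
      rwa [← IsPrimitive.Int.dvd_iff_map_cast_dvd_map_cast _ _ hΦmonic.isPrimitive]
    rw [Polynomial.map_pow, Polynomial.map_mul, mul_pow] at h1
    rw [Polynomial.map_pow]
    exact ((hcop.pow_left (m := l)).symm).dvd_of_dvd_mul_left h1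
  -- reduction modulo `r`
  set f := Int.castRingHom (ZMod r) with hf
  have hΦbar : Φ.map f = cyclotomic d (ZMod r) := by rw [hΦ, map_cyclotomic]
  have hroot : (Φ.map f).IsRoot lam := by
    rw [hΦbar]
    exact hlam.isRoot_cyclotomic hd
  have hΦ0 : Φ.map f ≠ 0 := (hΦmonic.map f).ne_zero
  have hsep : (Φ.map f * P.map f).Separable := by
    have h1 : Φ.map f * P.map f = X ^ E - C (1 : ZMod r) := by
      rw [← Polynomial.map_mul, ← hP]
      simp
    rw [h1]
    apply separable_X_pow_sub_C 1 _ one_ne_zero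
    rwa [Ne, ZMod.natCast_eq_zero_iff]
  have hP0 : P.map f ≠ 0 := by
    intro h0
    rw [h0, mul_zero] at hsep
    exact not_separable_zero hsep
  have hPne : ¬ (P.map f).IsRoot lam := by
    intro h1
    have h2 := rootMultiplicity_le_one_of_separable hsep lam
    rw [rootMultiplicity_mul (mul_ne_zero hΦ0 hP0)] at h2
    have h3 := (rootMultiplicity_pos hΦ0).2 hroot
    have h4 := (rootMultiplicity_pos hP0).2 h1
    omega
  have hgne : ¬ (g.map f).IsRoot lam := by
    intro h1
    obtain ⟨u, hu⟩ := hgdvd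
    have h2 := congrArg (fun p => (p.map f).eval lam) hu
    simp only [Polynomial.map_pow, Polynomial.map_mul, eval_pow, eval_mul] at h2
    rw [IsRoot.def.1 h1, zero_mul] at h2
    exact hPne (eq_zero_of_pow_eq_zero h2)
  have hg0 : g.map f ≠ 0 := (hgmonic.map f).ne_zero
  -- the multiplicity
  have hmult : rootMultiplicity lam (M.map f).charpoly ≤ k := by
    rw [Matrix.charpoly_map, hg, Polynomial.map_mul, Polynomial.map_pow,
      rootMultiplicity_mul (mul_ne_zero (pow_ne_zero _ hΦ0) hg0), rootMultiplicity_pow_le hΦ0,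
      rootMultiplicity_eq_zero hgne, add_zero]
    have h1 : rootMultiplicity lam (Φ.map f) ≤ 1 := by
      rw [hΦbar]
      haveI : NeZero ((d : ℕ) : ZMod r) := ⟨by rwa [Ne, ZMod.natCast_eq_zero_iff]⟩
      exact rootMultiplicity_le_one_of_separable (separable_cyclotomic d (ZMod r)) lam
    calc m * rootMultiplicity lam (Φ.map f) ≤ m * 1 := Nat.mul_le_mul_left _ h1
      _ ≤ k := by omega
  refine (LinearMap.finrank_eigenspace_le _ lam).trans ?_
  rwa [Matrix.charpoly_toLin']

end Cfsg.Agent.Lib.Classical.Lin.Syl2
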