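import Cfsg.Agent.Lib.ChevTori.Final
import Cfsg.Agent.Lib.Classical.Lin.Syl1
import Cfsg.Agent.Lib.Classical.Lin.Syl2
import Cfsg.Agent.S2380

/-!
Sylow `r`-subgroups of a Chevalley group for `r` not dividing the order of the Weyl group: they
embed in a torus over a larger field; the Frobenius map acts through a single element of the Weyl
group.
-/

set_option autoImplicit false
set_option linter.unusedSectionVars false
set_option linter.style.haveILetI false

namespace Cfsg.Agent.Lib.Classical.Lin.Syl3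

open Polynomial Matrix
open Cfsg Cfsg.Lie Cfsg.Agent.Lib.ChevBN.Elem Cfsg.Agent.Lib.ChevBN.Entries Cfsg.Agent.Lib.ChevBN.Table
open Cfsg.Agent.Lib.ChevBN.Collect Cfsg.Agent.Lib.ChevBN.Rel Cfsg.Agent.Lib.ChevBN.Torus
open Cfsg.Agent.Lib.ChevBN.Monomial Cfsg.Agent.Lib.ChevBN.Core Cfsg.Agent.Lib.ChevBN.Pair
open Cfsg.Agent.Lib.ChevBN.Stmts Cfsg.Agent.Lib.ChevBN.BruhatForm Cfsg.Agent.Lib.ChevBN.Opp
open Cfsg.Agent.Lib.ChevTri.Level Cfsg.Agent.Lib.ChevTri.Datum
open Cfsg.Agent.Lib.BNPair.Basic Cfsg.Agent.Lib.BNPair.Parabolic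
open Cfsg.Agent.Lib.ChevOrder.BNCount Cfsg.Agent.Lib.ChevOrder.Chev
open Cfsg.Agent.Lib.ChevOrder.TorusCard Cfsg.Agent.Lib.ChevBN.Levi
open Cfsg.Agent.Lib.BNPair.CoxeterExchange Cfsg.Agent.Lib.StChar.Top
open Cfsg.Agent.Lib.ChevTori.Act Cfsg.Agent.Lib.ChevTori.LinAlg Cfsg.Agent.Lib.ChevTori.Stab
open Cfsg.Agent.Lib.ChevFix Cfsg.Agent.Lib.ChevTori.Core Cfsg.Agent.Lib.ChevTori.Main
open Cfsg.Agent.Lib.ChevTori.Final Cfsg.Agent.Lib.ChevBN.ConjH

section Uniform

variable {D : ChevalleyDatum} {F : Type*} [Field F] {η : ℕ → ℕ → ℤ}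
variable (hR : Sys D F η) (hT : Tbl D)

include hR hT in
/-- Conjugation by `g` on `H` is realised by one element of `N`. -/
theorem conj_unif {g : GL D.Idx F} (hg : g ∈ D.group F) :
    ∃ n ∈ D.monomialSubgroup F, ∀ h₁ ∈ D.diagonalSubgroup F, ∀ h₂ ∈ D.diagonalSubgroup F,
      g * h₁ * g⁻¹ = h₂ → n * h₁ * n⁻¹ = h₂ := by
  obtain ⟨n, hn, hm⟩ := bruhat_exists (P := pair hR hT) (⟨g, hg⟩ : ↥(D.group F))
  obtain ⟨b₁, hb₁, b₂, hb₂, e⟩ := mem_C.mp hm
  have hnN := (mem_PN hR hT).1 hn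
  obtain ⟨u₁, hu₁, k₁, hk₁, e₁⟩ := (mem_B_iff hR hT).mp ((mem_PB hR hT).1 hb₁)
  obtain ⟨u₂, hu₂, k₂, hk₂, e₂⟩ := (mem_B_iff hR hT).mp ((mem_PB hR hT).1 hb₂)
  have hge : g = u₁ * k₁ * (n : GL D.Idx F) * (u₂ * k₂) := by
    have := congrArg Subtype.val e
    simp only [Subgroup.coe_mul] at this
    rw [this, e₁, e₂]
  set N₀ : GL D.Idx F := (n : GL D.Idx F) with hN₀
  refine ⟨N₀, hnN, ?_⟩
  intro h₁ h1 h₂ h2 hc
  -- `w`
  set w := (h₁⁻¹ * u₂ * h₁) * u₂⁻¹ with hw
  have hwU : w ∈ D.posUnipotent F := by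
    refine Subgroup.mul_mem _ ?_ (Subgroup.inv_mem _ hu₂)
    have := H_norm_U hR hT (Subgroup.inv_mem _ h1) hu₂
    simpa using this
  obtain ⟨v, hv, u', hu', e3⟩ := conj_U_mem hR hT hnN hwU
  set h₁' := N₀ * h₁ * N₀⁻¹ with hh₁'
  have hh₁'H : h₁' ∈ D.diagonalSubgroup F := H_norm_N hR hT hnN h1
  -- the basic identity
  have hkc : k₂ * h₁ * k₂⁻¹ = h₁ := by
    rw [H_comm hR hT hk₂ h1]
    group
  have e4 : h₁' * (v * u') = k₁⁻¹ * u₁⁻¹ * h₂ * u₁ * k₁ := by
    rw [← e3, ← hc, hge]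
    have e5 : (u₁ * k₁ * N₀ * (u₂ * k₂)) * h₁ * (u₁ * k₁ * N₀ * (u₂ * k₂))⁻¹ =
        u₁ * k₁ * N₀ * u₂ * (k₂ * h₁ * k₂⁻¹) * u₂⁻¹ * N₀⁻¹ * k₁⁻¹ * u₁⁻¹ := by group
    rw [e5, hkc, hh₁', hw]
    group
  -- `u₄`
  set u₃ := u₁⁻¹ * (h₂ * u₁ * h₂⁻¹) with hu₃
  have hu₃U : u₃ ∈ D.posUnipotent F :=
    Subgroup.mul_mem _ (Subgroup.inv_mem _ hu₁) (H_norm_U hR hT h2 hu₁)
  set u₄ := k₁⁻¹ * u₃ * k₁ with hu₄
  have hu₄U : u₄ ∈ D.posUnipotent F := by
    have := H_norm_U hR hT (Subgroup.inv_mem _ hk₁) hu₃U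
    simpa using this
  have e6 : k₁⁻¹ * h₂ * k₁ = h₂ := by
    rw [H_comm hR hT (Subgroup.inv_mem _ hk₁) h2]
    group
  have e7 : k₁⁻¹ * u₁⁻¹ * h₂ * u₁ * k₁ = u₄ * h₂ := by
    rw [hu₄, hu₃]
    have : k₁⁻¹ * (u₁⁻¹ * (h₂ * u₁ * h₂⁻¹)) * k₁ * h₂ =
        k₁⁻¹ * u₁⁻¹ * h₂ * u₁ * h₂⁻¹ * k₁ * h₂ := by group
    rw [this]
    have e8 : k₁ * h₂ = h₂ * k₁ := H_comm hR hT hk₁ h2
    rw [mul_assoc (k₁⁻¹ * u₁⁻¹ * h₂ * u₁ * h₂⁻¹), e8]
    group
  -- `v = 1`
  have hvB : v ∈ D.borelSubgroup F := by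
    have e9 : v = h₁'⁻¹ * (u₄ * h₂) * u'⁻¹ := by
      rw [← e7, ← e4]
      group
    rw [e9]
    exact Subgroup.mul_mem _ (Subgroup.mul_mem _ (H_le_B hR hT (Subgroup.inv_mem _ hh₁'H))
      (Subgroup.mul_mem _ (U_le_B hR hT hu₄U) (H_le_B hR hT h2)))
      (U_le_B hR hT (Subgroup.inv_mem _ hu'))
  have hv1 : v = 1 := by
    have : v ∈ D.borelSubgroup F ⊓ D.negUnipotent F := ⟨hvB, hv⟩
    rw [B_inf_V hR hT, Subgroup.mem_bot] at this
    exact this
  rw [hv1, one_mul, e7] at e4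
  -- `h₁' = h₂`
  have h10 : h₂⁻¹ * h₁' = (h₂⁻¹ * u₄ * h₂) * u'⁻¹ := by
    have : h₁' = u₄ * h₂ * u'⁻¹ := by
      rw [← e4]
      group
    rw [this]
    group
  have h11 : h₂⁻¹ * h₁' ∈ D.posUnipotent F ⊓ D.diagonalSubgroup F := by
    refine ⟨?_, Subgroup.mul_mem _ (Subgroup.inv_mem _ h2) hh₁'H⟩
    rw [h10]
    refine Subgroup.mul_mem _ ?_ (Subgroup.inv_mem _ hu')
    have := H_norm_U hR hT (Subgroup.inv_mem _ h2) hu₄U
    simpa using this
  rw [U_inf_H hR hT, Subgroup.mem_bot] at h11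
  exact (inv_mul_eq_one.mp h11).symm

end Uniform

section Conj

/-- A `p`-group mapping to `G` is conjugate into a subgroup of index prime to `p`. -/
theorem exists_conj_all {P G : Type*} [Group P] [Group G] [Finite G] (H : Subgroup G) {r : ℕ}
    [Fact r.Prime] (hP : IsPGroup r P) (hind : ¬ r ∣ H.index) (f : P →* G) :
    ∃ g : G, ∀ x : P, g⁻¹ * f x * g ∈ H := by
  letI : MulAction P (G ⧸ H) := MulAction.compHom (G ⧸ H) f
  obtain ⟨a, ha⟩ := hP.nonempty_fixed_point_of_prime_not_dvd_card (G ⧸ H) (by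
    rwa [← Subgroup.index_eq_card])
  induction a using QuotientGroup.induction_on with
  | H g =>
    refine ⟨g, fun x => ?_⟩
    have h1 := ha x
    have h2 : ((f x * g : G) : G ⧸ H) = (g : G ⧸ H) := h1
    rw [QuotientGroup.eq] at h2
    have h3 := Subgroup.inv_mem _ h2
    have e : (g⁻¹ * f x * g) = ((f x * g)⁻¹ * g)⁻¹ := by group
    rw [e]
    exact h3

end Conj

section Numbers

variable {q r : ℕ} [hr : Fact r.Prime]

theorem val_pow' (hq : 2 ≤ q) (hrq : ¬ r ∣ q) (hodd : r ≠ 2) {j : ℕ} (hj : 1 ≤ j) (hrj : ¬ r ∣ j) :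
    padicValNat r (q ^ (j * orderOf (q : ZMod r)) - 1) =
      padicValNat r (q ^ orderOf (q : ZMod r) - 1) := by
  set d := orderOf (q : ZMod r) with hd
  have hdpos : 0 < d := Cfsg.Agent.S2380.d_pos hrq
  have hodd' : Odd r := hr.out.odd_of_ne_two hodd
  have h1 : 1 < q ^ d := Nat.one_lt_pow hdpos.ne' (by omega)
  have h2 : r ∣ q ^ d - 1 := (Cfsg.Agent.S2380.dvd_iff (by omega) d).mpr dvd_rfl
  have h3 : ¬ r ∣ q ^ d := fun h => hrq (hr.out.dvd_of_dvd_pow h)
  have h4 := padicValNat.pow_sub_pow (x := q ^ d) (y := 1) (p := r) hodd' h1 h2 h3 (n := j)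
    (by omega)
  rw [one_pow, ← pow_mul, mul_comm d j] at h4
  rw [h4, padicValNat.eq_zero_of_not_dvd hrj, add_zero]

/-- The exact power of `r` in the product over the degrees. -/
theorem fact_prod (hq : 2 ≤ q) (hrq : ¬ r ∣ q) (hodd : r ≠ 2) (degs : List ℕ)
    (hdegs : ∀ e ∈ degs, ¬ r ∣ e) :
    (degs.map fun e => q ^ e - 1).prod.factorization r =
      (degs.filter (fun e => orderOf (q : ZMod r) ∣ e)).length *
        padicValNat r (q ^ orderOf (q : ZMod r) - 1) := by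
  induction degs with
  | nil => simp
  | cons e l ih =>
    have he : ¬ r ∣ e := hdegs e (by simp)
    have hl := ih (fun e' he' => hdegs e' (by simp [he']))
    have hepos : 0 < e := Nat.pos_of_ne_zero (by
      rintro rfl
      exact he (dvd_zero _))
    have hne : q ^ e - 1 ≠ 0 := by
      have : 1 < q ^ e := Nat.one_lt_pow hepos.ne' (by omega)
      omega
    have hne2 : (l.map fun e => q ^ e - 1).prod ≠ 0 := by
      rw [Ne, List.prod_eq_zero_iff]
      intro h1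
      obtain ⟨e', he', h2⟩ := List.mem_map.mp h1
      have he'' := hdegs e' (by simp [he'])
      have hepos' : 0 < e' := Nat.pos_of_ne_zero (by
        rintro rfl
        exact he'' (dvd_zero _))
      have : 1 < q ^ e' := Nat.one_lt_pow hepos'.ne' (by omega)
      omega
    rw [List.map_cons, List.prod_cons, Nat.factorization_mul hne hne2, Finsupp.add_apply, hl,
      Nat.factorization_def _ hr.out]
    by_cases hde : orderOf (q : ZMod r) ∣ e
    · obtain ⟨j, rfl⟩ := hde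
      have hj : 1 ≤ j := Nat.pos_of_ne_zero (by
        rintro rfl
        simp at hepos)
      have hrj : ¬ r ∣ j := fun h1 => he (h1.trans (Dvd.intro_left _ rfl))
      rw [mul_comm (orderOf (q : ZMod r)) j, val_pow' hq hrq hodd hj hrj, List.filter_cons_of_pos
        (by simp), List.length_cons]
      ring
    · have h2 : ¬ r ∣ q ^ e - 1 := fun h1 => hde ((Cfsg.Agent.S2380.dvd_iff (by omega) e).1 h1)
      rw [padicValNat.eq_zero_of_not_dvd h2, List.filter_cons_of_neg (by simpa using hde)]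
      simp

/-- The order of a Sylow subgroup. -/
theorem card_sylow {G : Type*} [Group G] [Finite G] {dF m : ℕ} {degs : List ℕ} (hq : 2 ≤ q)
    (hrq : ¬ r ∣ q) (hodd : r ≠ 2) (hdegs : ∀ e ∈ degs, ¬ r ∣ e) (hrdF : ¬ r ∣ dF)
    (hord : dF * Nat.card G = q ^ m * (degs.map fun e => q ^ e - 1).prod) (P : Sylow r G) :
    Nat.card P = r ^ ((degs.filter (fun e => orderOf (q : ZMod r) ∣ e)).length *
      padicValNat r (q ^ orderOf (q : ZMod r) - 1)) := by
  have hdF0 : dF ≠ 0 := by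
    rintro rfl
    exact hrdF (dvd_zero _)
  have hG0 : Nat.card G ≠ 0 := Nat.card_pos.ne'
  have hq0 : q ^ m ≠ 0 := by positivity
  have hP0 : (degs.map fun e => q ^ e - 1).prod ≠ 0 := by
    intro h0
    rw [h0, mul_zero] at hord
    exact (mul_ne_zero hdF0 hG0) hord
  rw [P.card_eq_multiplicity]
  congr 1
  have h1 : (dF * Nat.card G).factorization r =
      (q ^ m * (degs.map fun e => q ^ e - 1).prod).factorization r := by rw [hord]
  rw [Nat.factorization_mul hdF0 hG0, Nat.factorization_mul hq0 hP0, Finsupp.add_apply,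
    Finsupp.add_apply, Nat.factorization_eq_zero_of_not_dvd hrdF, zero_add,
    Nat.factorization_eq_zero_of_not_dvd (fun h => hrq (hr.out.dvd_of_dvd_pow h)), zero_add,
    fact_prod hq hrq hodd degs hdegs] at h1
  exact h1

end Numbers

section Group

variable {D : ChevalleyDatum} {F K : Type*} [Field F] [Field K] [Finite F] [Finite K]
variable {η : ℕ → ℕ → ℤ}
variable (hRF : Sys D F η) (hR : Sys D K η) (hT : Tbl D)
variable (ι : F →+* K) (σ : K →+* K) {q : ℕ}

include hRF hR hT in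
theorem core_group (hσ : ∀ a, σ a = a ^ q) (hfix : ∀ a, σ (ι a) = ι a)
    {r : ℕ} [hr : Fact r.Prime] {a v d Q : ℕ} (hK : Nat.card K = Q) (hrQ : r ∣ Q - 1)
    (hv : ∀ s, r ^ s ∣ Q - 1 → s ≤ v)
    (hind : ¬ r ∣ ((D.diagonalSubgroup K).subgroupOf (D.group K)).index)
    (hker : ¬ r ∣ Nat.card (actM (μ := Kˣ) (cartM D)).ker)
    (hd : 0 < d) (hprim : IsPrimitiveRoot (((q : ℕ) : ℤ) : ZMod r) d)
    (hmult : ∀ w : WW (pair hR hT), ¬ cyclotomic d ℤ ^ (a + 1) ∣ (matW hR hT w).charpoly)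
    (P : Sylow r ↥(D.group F)) (hcardP : Nat.card P = r ^ (a * v)) :
    Nonempty (↥(P : Subgroup ↥(D.group F)) ≃* (Fin a → Multiplicative (ZMod (r ^ v)))) := by
  classical
  haveI : Finite (GL D.Idx K) := inferInstance
  haveI : Finite ↥(D.group K) := inferInstance
  haveI : Finite (GL D.Idx F) := inferInstance
  haveI : Finite ↥(D.group F) := inferInstance
  -- the map to the big group
  let f₀ : ↥(D.group F) →* ↥(D.group K) :=
    { toFun := fun x => ⟨mp ι (x : GL D.Idx F), mp_group ι x.2⟩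
      map_one' := by
        apply Subtype.ext
        simp
      map_mul' := fun x y => by
        apply Subtype.ext
        simp }
  let f : ↥(P : Subgroup ↥(D.group F)) →* ↥(D.group K) := f₀.comp (P : Subgroup ↥(D.group F)).subtype
  have hfcoe : ∀ x : ↥(P : Subgroup ↥(D.group F)),
      ((f x : ↥(D.group K)) : GL D.Idx K) = mp ι ((x : ↥(D.group F)) : GL D.Idx F) := fun _ => rfl
  obtain ⟨⟨g, hg⟩, hgH⟩ := exists_conj_all ((D.diagonalSubgroup K).subgroupOf (D.group K))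
    P.isPGroup' hind f
  -- the torus
  let T : ↥(P : Subgroup ↥(D.group F)) →* GL D.Idx K :=
    (MulAut.conj g⁻¹).toMonoidHom.comp ((D.group K).subtype.comp f)
  have hTe : ∀ x, T x = g⁻¹ * mp ι ((x : ↥(D.group F)) : GL D.Idx F) * g := by
    intro x
    show g⁻¹ * mp ι ((x : ↥(D.group F)) : GL D.Idx F) * g⁻¹⁻¹ = _
    rw [inv_inv]
  have hTinj : Function.Injective T := by
    intro x x' h
    have h1 := (MulAut.conj g⁻¹).injective h
    have h2 := mp_injective ι h1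
    exact Subtype.ext (Subtype.ext h2)
  have hTmem : ∀ x, T x ∈ D.diagonalSubgroup K := fun x => by
    rw [hTe]
    exact Subgroup.mem_subgroupOf.mp (hgH x)
  -- commutativity
  have hcomm : ∀ x y : ↥(P : Subgroup ↥(D.group F)), x * y = y * x := by
    intro x y
    apply hTinj
    rw [map_mul, map_mul]
    exact H_comm hR hT (hTmem x) (hTmem y)
  -- exponent
  have hcardU : Nat.card Kˣ = Q - 1 := by rw [Nat.card_units, hK]
  have hexpQ : ∀ t ∈ D.diagonalSubgroup K, t ^ (Q - 1) = 1 := by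
    intro t ht
    obtain ⟨c, rfl⟩ := tmap_surj' hR hT ht
    have h1 : c ^ (Q - 1) = 1 := by
      funext j
      rw [Pi.pow_apply, ← hcardU]
      exact pow_card_eq_one'
    have h2 : (tmap hT hR c) ^ (Q - 1) = 1 := by
      rw [← map_pow, h1, map_one]
    exact congrArg Subtype.val h2
  have hexp : ∀ x : ↥(P : Subgroup ↥(D.group F)), x ^ (r ^ v) = 1 := by
    intro x
    have h1 : x ^ (Q - 1) = 1 := by
      apply hTinj
      rw [map_pow, map_one]
      exact hexpQ _ (hTmem x)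
    obtain ⟨s, hs⟩ := P.isPGroup' x
    obtain ⟨s', -, hs'⟩ := (Nat.dvd_prime_pow hr.out).1 (orderOf_dvd_of_pow_eq_one hs)
    have h2 : r ^ s' ∣ Q - 1 := by
      rw [← hs']
      exact orderOf_dvd_of_pow_eq_one h1
    have h3 := hv s' h2
    apply orderOf_dvd_iff_pow_eq_one.1
    rw [hs']
    exact pow_dvd_pow r h3
  -- the Frobenius
  set y : GL D.Idx K := g⁻¹ * mp σ g with hy
  have hyG : y ∈ D.group K := Subgroup.mul_mem _ (Subgroup.inv_mem _ hg) (mp_group σ hg)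
  have ey : ∀ x, y⁻¹ * T x * y = (T x) ^ q := by
    intro x
    obtain ⟨c, hc⟩ := tmap_surj' hR hT (hTmem x)
    have h1 : mp σ (T x) = (T x) ^ q := by
      rw [← hc]
      exact mp_tmap hR hT σ hσ c
    rw [← h1, hTe, map_mul, map_mul, map_inv, mp_comp_fix ι σ hfix, hy]
    group
  obtain ⟨n₀, hn₀, en⟩ := conj_unif hR hT (Subgroup.inv_mem _ hyG)
  have hnT : ∀ x, n₀ * T x * n₀⁻¹ = (T x) ^ q := by
    intro x
    apply en _ (hTmem x) _ (Subgroup.pow_mem _ (hTmem x) q)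
    rw [inv_inv]
    exact ey x
  let n : ↥(pair hR hT).N := ⟨⟨n₀, N_le_G hR hT hn₀⟩, (mem_PN hR hT).2 hn₀⟩
  set w₀ : WW (pair hR hT) := QuotientGroup.mk n with hw₀
  set M := matW hR hT w₀ with hM
  have hconj : ∀ c' : Fin D.rank → Kˣ, n₀ * (tmap hT hR c' : GL D.Idx K) * n₀⁻¹ =
      (tmap hT hR (actM M c') : GL D.Idx K) := fun c' => conj_tmap hR hT n c'
  -- the kernel of the parametrization
  set kk := Nat.card (actM (μ := Kˣ) (cartM D)).ker with hkk
  have hkerpow : ∀ c : Fin D.rank → Kˣ, tmap hT hR c = 1 → c ^ kk = 1 := by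
    intro c hc
    have h1 : c ∈ (actM (μ := Kˣ) (cartM D)).ker := (mem_ker_tmap hT hR c).1 hc
    have h2 := pow_card_eq_one' (x := (⟨c, h1⟩ : ↥(actM (μ := Kˣ) (cartM D)).ker))
    exact congrArg Subtype.val h2
  have hcop : Nat.Coprime kk r := ((Nat.Prime.coprime_iff_not_dvd hr.out).2 hker).symm
  obtain ⟨u, -, hu⟩ := Nat.exists_mul_mod_eq_one_of_coprime hcop hr.out.one_lt
  -- lifting elements of order `r`
  have hlift : ∀ x : {x : ↥(P : Subgroup ↥(D.group F)) // x ^ r = 1},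
      ∃ c₁ : Fin D.rank → Kˣ, (tmap hT hR c₁ : GL D.Idx K) = T x.1 ∧ c₁ ^ r = 1 ∧
        actM M c₁ = c₁ ^ q := by
    rintro ⟨x, hx⟩
    obtain ⟨c, hc⟩ := tmap_surj' hR hT (hTmem x)
    have hTr : (T x) ^ r = 1 := by rw [← map_pow, hx, map_one]
    have hc1 : (tmap hT hR (c ^ (kk * u)) : GL D.Idx K) = T x := by
      have h1 : ((tmap hT hR (c ^ (kk * u)) : ↥(D.diagonalSubgroup K)) : GL D.Idx K) =
          (T x) ^ (kk * u) := by
        rw [← hc, map_pow]
        rfl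
      rw [h1, pow_eq_pow_mod (kk * u) hTr, hu, pow_one]
    have hc2 : (c ^ (kk * u)) ^ r = 1 := by
      have h1 : tmap hT hR (c ^ r) = 1 := by
        apply Subtype.ext
        rw [map_pow]
        show (tmap hT hR c : GL D.Idx K) ^ r = 1
        rw [hc, hTr]
      have h2 := hkerpow _ h1
      calc (c ^ (kk * u)) ^ r = ((c ^ r) ^ kk) ^ u := by
            rw [← pow_mul, ← pow_mul, ← pow_mul]
            congr 1
            ring
        _ = 1 := by rw [h2, one_pow]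
    refine ⟨c ^ (kk * u), hc1, hc2, ?_⟩
    set c₁ := c ^ (kk * u) with hc₁
    -- the quotient is in the kernel and has order dividing `r`
    set δ := actM M c₁ / c₁ ^ q with hδ
    have hδ1 : tmap hT hR δ = 1 := by
      have h1 : ((tmap hT hR (actM M c₁) : ↥(D.diagonalSubgroup K)) : GL D.Idx K) =
          (T x) ^ q := by
        rw [← hconj, hc1, hnT]
      have h2 : ((tmap hT hR c₁ ^ q : ↥(D.diagonalSubgroup K)) : GL D.Idx K) = (T x) ^ q := by
        rw [← hc1]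
        rfl
      have h3 : tmap hT hR (actM M c₁) = tmap hT hR c₁ ^ q :=
        Subtype.ext (h1.trans h2.symm)
      rw [hδ, _root_.map_div, map_pow (tmap hT hR) c₁ q, h3, div_self']
    have hδ2 : δ ^ kk = 1 := hkerpow _ hδ1
    have hδ3 : δ ^ r = 1 := by
      rw [hδ, div_pow, ← map_pow, hc2, map_one, ← pow_mul, mul_comm, pow_mul, hc2, one_pow,
        div_one]
    have hδ4 : δ = 1 := by
      have h1 := orderOf_dvd_of_pow_eq_one hδ2
      have h2 := orderOf_dvd_of_pow_eq_one hδ3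
      have h3 := Nat.eq_one_of_dvd_coprimes hcop h1 h2
      exact orderOf_eq_one_iff.1 h3
    rw [hδ] at hδ4
    exact div_eq_one.1 hδ4
  -- discrete logarithms
  have hrK : r ∣ Nat.card Kˣ := by rwa [hcardU]
  obtain ⟨ξ, hξ⟩ := exists_prime_orderOf_dvd_card' r hrK
  have hlog : ∀ a : Kˣ, a ^ r = 1 → ∃ k : ℤ, ξ ^ k = a := by
    intro a ha
    have hprimξ : IsPrimitiveRoot ξ r := by
      rw [← hξ]
      exact IsPrimitiveRoot.orderOf ξ
    haveI : NeZero r := ⟨hr.out.ne_zero⟩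
    have h1 : a ∈ Subgroup.zpowers ξ := by
      rw [hprimξ.zpowers_eq, mem_rootsOfUnity]
      exact ha
    exact Subgroup.mem_zpowers_iff.mp h1
  have hlift2 : ∀ x : {x : ↥(P : Subgroup ↥(D.group F)) // x ^ r = 1},
      ∃ b : Fin D.rank → ℤ, (tmap hT hR (fun j => ξ ^ b j) : GL D.Idx K) = T x.1 ∧
        red r (M *ᵥ b) = ((q : ℤ) : ZMod r) • red r b := by
    intro x
    obtain ⟨c₁, h1, h2, h3⟩ := hlift x
    choose b hb using fun j => hlog (c₁ j) (by
      have := congrFun h2 j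
      simpa using this)
    have hcb : c₁ = fun j => ξ ^ b j := by
      funext j
      exact (hb j).symm
    refine ⟨b, by rw [← hcb]; exact h1, ?_⟩
    rw [hcb, actM_zpow, pow_fun_zpow, fun_zpow_eq_iff hξ] at h3
    rw [h3, red_smul_eq]
  choose b hb1 hb2 using hlift2
  -- the count
  let E := {b : Fin D.rank → ZMod r //
    (M.map (Int.castRingHom (ZMod r))) *ᵥ b = ((q : ℤ) : ZMod r) • b}
  let φ : {x : ↥(P : Subgroup ↥(D.group F)) // x ^ r = 1} → E := fun x =>
    ⟨red r (b x), by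
      rw [← red_mulVec]
      exact hb2 x⟩
  have hφ : Function.Injective φ := by
    intro x x' h
    have h1 : red r (b x) = red r (b x') := congrArg Subtype.val h
    have h2 := (fun_zpow_eq_iff hξ _ _).2 h1
    apply Subtype.ext
    apply hTinj
    rw [← hb1 x, ← hb1 x', h2]
  have hℓW : ¬ r ∣ Nat.card (WW (pair hR hT)) := fun h1 => hind (h1.trans (card_W_dvd hR hT))
  haveI := finite_WW hR hT
  have hpow : M ^ orderOf w₀ = 1 := by
    have h1 := map_pow (matHom hR hT) w₀ (orderOf w₀)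
    rw [pow_orderOf_eq_one, map_one, matHom_apply] at h1
    exact h1.symm
  have hnd : ¬ r ∣ orderOf w₀ := fun h1 => hℓW (h1.trans (orderOf_dvd_natCard w₀))
  have hfr := Cfsg.Agent.Lib.Classical.Lin.Syl2.finrank_eigen_le (M := M) (orderOf_pos w₀) hpow hnd
    hprim hd (hmult w₀)
  have hcardE : Nat.card E ≤ r ^ a := by
    set ψ : Module.End (ZMod r) (Fin D.rank → ZMod r) :=
      Matrix.toLin' (M.map (Int.castRingHom (ZMod r))) with hψ
    have h3 : Nat.card (ψ.eigenspace ((q : ℤ) : ZMod r)) ≤ r ^ a := by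
      rw [Module.natCard_eq_pow_finrank (K := ZMod r), Nat.card_zmod]
      exact Nat.pow_le_pow_right hr.out.pos hfr
    refine le_trans (le_of_eq (Nat.card_congr ?_)) h3
    refine Equiv.subtypeEquivRight fun a => ?_
    rw [Module.End.mem_eigenspace_iff]
    rfl
  have hrank : Nat.card {x : ↥(P : Subgroup ↥(D.group F)) // x ^ r = 1} ≤ r ^ a :=
    (Nat.card_le_card_of_injective φ hφ).trans hcardE
  exact Cfsg.Agent.Lib.Classical.Lin.Syl1.homocyclic_of_card hcomm hcardP hexp hrank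

end Group

section Index

variable {D : ChevalleyDatum} {K : Type*} [Field K] [Finite K] {η : ℕ → ℕ → ℤ}
variable (hR : Sys D K η) (hT : Tbl D)

include hR hT in
/-- The index of the torus is prime to `r`. -/
theorem not_dvd_index' {Q m dK : ℕ} {degs : List ℕ} (hlen : degs.length = D.rank)
    (hQ : Nat.card K = Q)
    (hord : dK * Nat.card (D.group K) = Q ^ m * (degs.map fun e => Q ^ e - 1).prod)
    (hcardH : dK * Nat.card (D.diagonalSubgroup K) = (Q - 1) ^ D.rank)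
    {r : ℕ} [hr : Fact r.Prime] (hrQ : r ∣ Q - 1) (hdegs : ∀ e ∈ degs, ¬ r ∣ e) :
    ¬ r ∣ ((D.diagonalSubgroup K).subgroupOf (D.group K)).index := by
  have hQ2 : 2 ≤ Q := by
    rw [← hQ]
    exact Finite.one_lt_card
  have hle : D.diagonalSubgroup K ≤ D.group K := H_le_G hR hT
  have h1 := Subgroup.card_mul_index ((D.diagonalSubgroup K).subgroupOf (D.group K))
  have h2 : Nat.card ((D.diagonalSubgroup K).subgroupOf (D.group K)) =
      Nat.card (D.diagonalSubgroup K) :=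
    Nat.card_congr (Subgroup.subgroupOfEquivOfLe hle).toEquiv
  rw [h2] at h1
  have h3 : (Q - 1) ^ D.rank ≠ 0 := pow_ne_zero _ (by omega)
  have h4 : ((D.diagonalSubgroup K).subgroupOf (D.group K)).index =
      Q ^ m * (degs.map fun e => ∑ i ∈ Finset.range e, Q ^ i).prod := by
    apply Nat.eq_of_mul_eq_mul_left (Nat.pos_of_ne_zero h3)
    rw [← hcardH, mul_assoc, h1, hord, prod_degs Q (by omega), hlen, hcardH]
    ring
  rw [h4]
  intro h5
  rcases (Nat.Prime.dvd_mul hr.out).1 h5 with h6 | h6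
  · have h7 := hr.out.dvd_of_dvd_pow h6
    have h8 : r ∣ Q - (Q - 1) := Nat.dvd_sub h7 hrQ
    have h9 : Q - (Q - 1) = 1 := by omega
    rw [h9] at h8
    exact hr.out.one_lt.ne' (Nat.dvd_one.mp h8)
  · have hP : Prime r := hr.out.prime
    obtain ⟨a, ha, h7⟩ := (Prime.dvd_prod_iff hP).1 h6
    obtain ⟨e, he, rfl⟩ := List.mem_map.mp ha
    exact not_dvd_geom (by omega) hrQ (hdegs e he) h7

include hR hT in
/-- The kernel of the parametrization. -/
theorem card_ker {Q dK : ℕ} (hQ : Nat.card K = Q)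
    (hcardH : dK * Nat.card (D.diagonalSubgroup K) = (Q - 1) ^ D.rank) :
    Nat.card (actM (μ := Kˣ) (cartM D)).ker = dK := by
  have h1 := card_H_mul hT hR
  rw [hQ, ← hcardH] at h1
  exact Nat.eq_of_mul_eq_mul_right Nat.card_pos h1

end Index

section Final

variable {D : ChevalleyDatum} {F : Type*} [Field F] [Finite F] {η : ℕ → ℕ → ℤ}

/-- The main theorem, for all the types at once. -/
theorem main_core (hRF : Sys D F η) (hsys : ∀ (L : Type) [Field L], Sys D L η) (hT : Tbl D)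
    {q m m' dF dK : ℕ} (degs : List ℕ) (hlen : degs.length = D.rank) (hF : Nat.card F = q)
    (r : ℕ) [hr : Fact r.Prime] (hrq : ¬ r ∣ q) (hodd : r ≠ 2)
    (hordF : dF * Nat.card (D.group F) = q ^ m * (degs.map fun e => q ^ e - 1).prod)
    (hordK : ∀ (L : Type) [Field L] [Finite L], Nat.card L = q ^ orderOf (q : ZMod r) →
      dK * Nat.card (D.group L) = (q ^ orderOf (q : ZMod r)) ^ m' *
        (degs.map fun e => (q ^ orderOf (q : ZMod r)) ^ e - 1).prod)
    (hcardH : ∀ (L : Type) [Field L] [Finite L], Nat.card L = q ^ orderOf (q : ZMod r) →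
      dK * Nat.card (D.diagonalSubgroup L) = (q ^ orderOf (q : ZMod r) - 1) ^ D.rank)
    (hrdF : ¬ r ∣ dF) (hrdK : ¬ r ∣ dK) (hdegs : ∀ e ∈ degs, ¬ r ∣ e)
    (hmult : ∀ (L : Type) [Field L] [Finite L] (hL : Sys D L η) (w : WW (pair hL hT)),
      ¬ cyclotomic (orderOf (q : ZMod r)) ℤ ^
        ((degs.filter (fun e => orderOf (q : ZMod r) ∣ e)).length + 1) ∣ (matW hL hT w).charpoly)
    (P : Sylow r ↥(D.group F)) :
    Nonempty (↥(P : Subgroup ↥(D.group F)) ≃*
      (Fin (degs.filter (fun e => orderOf (q : ZMod r) ∣ e)).length →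
        Multiplicative (ZMod (r ^ padicValNat r
          ((cyclotomic (orderOf (q : ZMod r)) ℤ).eval (q : ℤ)).natAbs)))) := by
  classical
  have hq : 2 ≤ q := by
    rw [← hF]
    exact Finite.one_lt_card
  have hdpos : 0 < orderOf (q : ZMod r) := Cfsg.Agent.S2380.d_pos hrq
  rw [Cfsg.Agent.S2380.val_cyclotomic hq hrq]
  have hcardP := card_sylow hq hrq hodd hdegs hrdF hordF P
  set d := orderOf (q : ZMod r) with hd
  obtain ⟨p, hp⟩ := CharP.exists F
  haveI : Fact p.Prime := ⟨CharP.char_is_prime F p⟩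
  haveI : NeZero d := ⟨hdpos.ne'⟩
  have hK : Nat.card (FiniteField.Extension F p d) = q ^ d := by
    rw [FiniteField.natCard_extension, hF]
  set K := FiniteField.Extension F p d with hKdef
  haveI : Fintype F := Fintype.ofFinite F
  have hR : Sys D K η := hsys K
  have hRF' := hRF
  have hcardF : Fintype.card F = q := by
    rw [← Nat.card_eq_fintype_card, hF]
  let σ : K →+* K := ((FiniteField.frobeniusAlgHom F K : K →ₐ[F] K) : K →+* K)
  have hσ : ∀ a : K, σ a = a ^ q := by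
    intro a
    show (FiniteField.frobeniusAlgHom F K) a = a ^ q
    rw [FiniteField.coe_frobeniusAlgHom, hcardF]
  have hfix : ∀ a : F, σ (algebraMap F K a) = algebraMap F K a := fun a =>
    (FiniteField.frobeniusAlgHom F K).commutes a
  have hrQ : r ∣ q ^ d - 1 := (Cfsg.Agent.S2380.dvd_iff (by omega) d).2 dvd_rfl
  have hQne : q ^ d - 1 ≠ 0 := by
    have : 1 < q ^ d := Nat.one_lt_pow hdpos.ne' (by omega)
    omega
  have hv : ∀ s, r ^ s ∣ q ^ d - 1 → s ≤ padicValNat r (q ^ d - 1) := fun s hs =>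
    (padicValNat_dvd_iff_le hQne).1 hs
  have hind := not_dvd_index' hR hT hlen hK (hordK K hK) (hcardH K hK) hrQ hdegs
  have hker : ¬ r ∣ Nat.card (actM (μ := Kˣ) (cartM D)).ker := by
    rw [card_ker hR hT hK (hcardH K hK)]
    exact hrdK
  have hprim : IsPrimitiveRoot (((q : ℕ) : ℤ) : ZMod r) d := by
    have := IsPrimitiveRoot.orderOf (q : ZMod r)
    simpa using this
  exact core_group hRF hR hT (algebraMap F K) σ hσ hfix hK hrQ hv hind hker hdpos hprim
    (hmult K hR) P hcardP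

end Final

end Cfsg.Agent.Lib.Classical.Lin.Syl3
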