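import Cfsg.Agent.Lib.Classical.Lin.Syl2
import Cfsg.Agent.Lib.ChevTori.LinAlg

/-!
Excluding characteristic polynomials of integer matrices of finite order, from reductions modulo
small primes and an invariant even form.
-/

set_option autoImplicit false
set_option linter.style.haveILetI false

namespace Cfsg.Agent.Lib.Classical.Lin.Syl4

open Polynomial Matrix Cfsg.Agent.Lib.Classical.Lin.Syl2 Cfsg.Agent.Lib.ChevTori.LinAlg

variable {l : ℕ} {M : Matrix (Fin l) (Fin l) ℤ}

/-- Too large a power of a polynomial cannot divide the characteristic polynomial. -/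
theorem not_dvd_of_deg {d k : ℕ} (h : l < k * d.totient) :
    ¬ cyclotomic d ℤ ^ k ∣ M.charpoly := by
  intro h1
  have h2 := natDegree_le_of_dvd h1 (Matrix.charpoly_monic M).ne_zero
  rw [natDegree_pow, natDegree_cyclotomic, Matrix.charpoly_natDegree_eq_dim, Fintype.card_fin] at h2
  omega

/-- If the degrees agree, the characteristic polynomial is the power. -/
theorem charpoly_eq_pow {d k : ℕ} (h : l = k * d.totient) (h1 : cyclotomic d ℤ ^ k ∣ M.charpoly) :
    M.charpoly = cyclotomic d ℤ ^ k := by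
  apply eq_of_monic_of_dvd_of_natDegree_le ((cyclotomic.monic d ℤ).pow k) (Matrix.charpoly_monic M) h1
  rw [natDegree_pow, natDegree_cyclotomic, Matrix.charpoly_natDegree_eq_dim, Fintype.card_fin]
  omega

/-- If the degree is one more, the characteristic polynomial is the power times a linear factor. -/
theorem charpoly_eq_pow_mul {e d k : ℕ} (he : 0 < e) (hMe : M ^ e = 1) (h : l = k * d.totient + 1)
    (h1 : cyclotomic d ℤ ^ k ∣ M.charpoly) :
    ∃ c : ℤ, (c = 1 ∨ c = -1) ∧ M.charpoly = cyclotomic d ℤ ^ k * (X - C c) := by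
  obtain ⟨g, hg⟩ := h1
  have hmon : (cyclotomic d ℤ ^ k).Monic := (cyclotomic.monic d ℤ).pow k
  have hgmon : g.Monic := by
    apply hmon.of_mul_monic_left
    rw [← hg]
    exact Matrix.charpoly_monic M
  have hdeg : g.natDegree = 1 := by
    have h2 := congrArg natDegree hg
    rw [hmon.natDegree_mul hgmon, natDegree_pow, natDegree_cyclotomic,
      Matrix.charpoly_natDegree_eq_dim, Fintype.card_fin] at h2
    omega
  have hgeq : g = X - C (-g.coeff 0) := by
    have h2 := eq_X_add_C_of_natDegree_le_one (p := g) hdeg.le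
    have h3 : g.coeff 1 = 1 := by
      rw [← hdeg]
      exact hgmon.coeff_natDegree
    rw [h3, C_1, one_mul] at h2
    rw [C_neg, sub_neg_eq_add]
    exact h2
  set c := -g.coeff 0 with hc
  refine ⟨c, ?_, by rw [hg, ← hgeq]⟩
  -- the root is a root of unity
  have h2 := charpoly_dvd_pow hMe
  rw [hg, hgeq] at h2
  have h3 : (X - C c) ∣ (X ^ e - 1 : ℤ[X]) ^ l := (Dvd.intro_left _ rfl).trans h2
  have h4 := dvd_iff_isRoot.1 h3
  rw [IsRoot.def, eval_pow, eval_sub, eval_pow, eval_X, eval_one] at h4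
  have h5 : c ^ e = 1 := by
    have := eq_zero_of_pow_eq_zero h4
    linarith
  have h6 : IsUnit c := IsUnit.of_mul_eq_one (c ^ (e - 1)) (by
    rw [← pow_succ', Nat.sub_add_cancel he]
    exact h5)
  exact Int.isUnit_iff.1 h6

/-- A fixed vector modulo `p` divides the value at one. -/
theorem dvd_charpoly_one {p : ℕ} [hp : Fact p.Prime] {y : Fin l → ℤ} (hy0 : red p y ≠ 0)
    (hMy : red p (M *ᵥ y) = red p y) : (p : ℤ) ∣ M.charpoly.eval 1 := by
  rw [← ZMod.intCast_zmod_eq_zero_iff_dvd]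
  set N : Matrix (Fin l) (Fin l) (ZMod p) := (1 - M).map (Int.castRingHom (ZMod p)) with hN
  have h1 : N *ᵥ red p y = 0 := by
    rw [hN, ← red_mulVec, Matrix.sub_mulVec, Matrix.one_mulVec]
    funext i
    have := congrFun hMy i
    simp only [red, Pi.sub_apply, Pi.zero_apply, Int.cast_sub] at this ⊢
    rw [this, sub_self]
  have h2 : N.det = 0 := Matrix.exists_mulVec_eq_zero_iff.1 ⟨_, hy0, h1⟩
  have h3 : ((M.charpoly.eval 1 : ℤ) : ZMod p) = N.det := by
    have h4 : M.charpoly.eval 1 = (1 - M).det := by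
      rw [Matrix.eval_charpoly]
      simp
    rw [h4, hN, Int.cast_det]
    rfl
  rw [h3, h2]

/-- A power of a cyclotomic polynomial of the full degree cannot occur. -/
theorem not_dvd_of_fixed {p d k : ℕ} [hp : Fact p.Prime] {y : Fin l → ℤ} (hy0 : red p y ≠ 0)
    (hMy : red p (M *ᵥ y) = red p y) (h : l = k * d.totient)
    (hval : ¬ (p : ℤ) ∣ (cyclotomic d ℤ).eval 1) : ¬ cyclotomic d ℤ ^ k ∣ M.charpoly := by
  intro h1
  have h2 := dvd_charpoly_one hy0 hMy
  rw [charpoly_eq_pow h h1, eval_pow] at h2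
  exact hval ((Nat.prime_iff_prime_int.1 hp.out).dvd_of_dvd_pow h2)

/-- An eigenspace of dimension at most one. -/
theorem exists_smul_of_finrank {K V : Type*} [Field K] [AddCommGroup V] [Module K V]
    (h : Module.finrank K V ≤ 1) [Module.Finite K V] {z : V} (hz : z ≠ 0) (w : V) :
    ∃ c : K, w = c • z := by
  obtain ⟨v, hv⟩ := finrank_le_one_iff.1 h
  obtain ⟨a, ha⟩ := hv z
  obtain ⟨b, hb⟩ := hv w
  have ha0 : a ≠ 0 := by
    rintro rfl
    rw [zero_smul] at ha
    exact hz ha.symm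
  refine ⟨b / a, ?_⟩
  rw [← ha, ← hb, smul_smul, div_mul_cancel₀ _ ha0]

/-- The exceptional case of multiplicity five of `X + 1` in rank six. -/
theorem e6_core {e : ℕ} (he : 0 < e) (hMe : M ^ e = 1) {y : Fin l → ℤ} (hy0 : red 3 y ≠ 0)
    (hMy : red 3 (M *ᵥ y) = red 3 y) (hχ : M.charpoly = (X + 1) ^ 5 * (X - 1))
    (hcheck : ∀ j, ∀ t : ZMod 3, t ≠ 0 →
      red 3 (fun i => M i j + (1 : Matrix (Fin l) (Fin l) ℤ) i j) ≠ t • red 3 y) : False := by
  -- `M² = 1`
  have h1 : aeval M ((X + 1) * (X - 1) : ℤ[X]) = 0 := by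
    apply aeval_eq_zero he hMe (N := 5) (by norm_num)
    rw [hχ]
    exact ⟨(X - 1) ^ 4, by ring⟩
  have hM2 : M * M = 1 := by
    simp only [map_mul, map_add, map_sub, aeval_X, map_one] at h1
    have h2 : (M + 1) * (M - 1) = M * M - 1 := by noncomm_ring
    rw [h2, sub_eq_zero] at h1
    exact h1
  set Mb : Matrix (Fin l) (Fin l) (ZMod 3) := M.map (Int.castRingHom (ZMod 3)) with hMb
  have hMb2 : Mb * Mb = 1 := by
    rw [hMb, ← Matrix.map_mul, hM2, Matrix.map_one _ (by simp) (by simp)]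
  let φ : Module.End (ZMod 3) (Fin l → ZMod 3) := Matrix.toLin' Mb
  have hcharb : LinearMap.charpoly φ = (X + 1) ^ 5 * (X - 1) := by
    show (Matrix.toLin' Mb).charpoly = _
    rw [Matrix.charpoly_toLin', hMb, Matrix.charpoly_map, hχ]
    simp
  have hfr : Module.finrank (ZMod 3) (φ.eigenspace 1) ≤ 1 := by
    refine (LinearMap.finrank_eigenspace_le φ 1).trans ?_
    rw [hcharb]
    have hne1 : ((X + 1) ^ 5 : (ZMod 3)[X]) ≠ 0 :=
      pow_ne_zero _ (X_add_C_ne_zero (1 : ZMod 3))
    have hne2 : (X - 1 : (ZMod 3)[X]) ≠ 0 := by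
      have := X_sub_C_ne_zero (1 : ZMod 3)
      simpa using this
    rw [rootMultiplicity_mul (mul_ne_zero hne1 hne2), rootMultiplicity_eq_zero (p := (X + 1) ^ 5)]
    · have : (X - 1 : (ZMod 3)[X]) = X - C 1 := by simp
      rw [this, rootMultiplicity_X_sub_C_self]
    · simp only [IsRoot.def, eval_pow, eval_add, eval_X, eval_one]
      decide
  -- the fixed vector
  have hyE : red 3 y ∈ φ.eigenspace 1 := by
    rw [Module.End.mem_eigenspace_iff, one_smul]
    show Mb *ᵥ red 3 y = red 3 y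
    rw [hMb, ← red_mulVec, hMy]
  -- columns
  set col : Fin l → (Fin l → ZMod 3) := fun j =>
    red 3 (fun i => M i j + (1 : Matrix (Fin l) (Fin l) ℤ) i j) with hcol
  have hcolE : ∀ j, col j ∈ φ.eigenspace 1 := by
    intro j
    rw [Module.End.mem_eigenspace_iff, one_smul]
    show Mb *ᵥ col j = col j
    have h2 : col j = (Mb + 1) *ᵥ Pi.single j 1 := by
      funext i
      simp [hcol, hMb, Matrix.one_apply]
    rw [h2, Matrix.mulVec_mulVec, Matrix.mul_add, hMb2, Matrix.mul_one, add_comm]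
  have hlin : ∀ j, ∃ c : ZMod 3, col j = c • red 3 y := by
    intro j
    obtain ⟨c, hc⟩ := exists_smul_of_finrank hfr (z := (⟨red 3 y, hyE⟩ : φ.eigenspace 1))
      (fun h0 => hy0 (congrArg Subtype.val h0)) ⟨col j, hcolE j⟩
    exact ⟨c, congrArg Subtype.val hc⟩
  -- some column is nonzero
  have hsum : (Mb + 1) *ᵥ red 3 y = (2 : ZMod 3) • red 3 y := by
    rw [Matrix.add_mulVec, Matrix.one_mulVec]
    have h3 : Mb *ᵥ red 3 y = red 3 y := by rw [hMb, ← red_mulVec, hMy]
    rw [h3, two_smul]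
  have hne : ∃ j, col j ≠ 0 := by
    by_contra hcon
    push Not at hcon
    have h3 : (Mb + 1) *ᵥ red 3 y = 0 := by
      funext i
      simp only [Matrix.mulVec, dotProduct, Pi.zero_apply]
      apply Finset.sum_eq_zero
      intro j _
      have h4 : col j i = 0 := by
        rw [hcon j]
        rfl
      have h5 : (Mb + 1) i j = col j i := by
        simp [hcol, hMb, Matrix.one_apply]
      rw [h5, h4, zero_mul]
    rw [h3] at hsum
    apply hy0
    funext i
    have h4 := congrFun hsum i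
    simp only [Pi.zero_apply, Pi.smul_apply, smul_eq_mul] at h4
    have h5 : (2 : ZMod 3) = -1 := by decide
    rw [h5] at h4
    simpa using h4.symm
  obtain ⟨j, hj⟩ := hne
  obtain ⟨c, hc⟩ := hlin j
  have hc0 : c ≠ 0 := by
    rintro rfl
    rw [zero_smul] at hc
    exact hj hc
  exact hcheck j c hc0 hc

/-- The exceptional case of multiplicity three of `X² + 1` in rank seven. -/
theorem e7_core {e : ℕ} (he : 0 < e) (hMe : M ^ e = 1) {G : Matrix (Fin l) (Fin l) ℤ} {c : ℤ}
    (hc : c = 1 ∨ c = -1) (hG : Gᵀ = G) (hinv : Mᵀ * G * M = G)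
    (hχ : M.charpoly = (X ^ 2 + 1) ^ 3 * (X - C c))
    (hcheck : ∀ j, ∀ z : Fin l → ℤ, z = (fun i => (M * M + 1) i j) → z = 0 ∨ Odd ((G *ᵥ z) j) ∨
      ∃ i, ¬ (2 * (G *ᵥ z) j) ∣ ((G *ᵥ z) i) ^ 2) : False := by
  have hc2 : c * c = 1 := by rcases hc with rfl | rfl <;> norm_num
  -- the annihilating polynomial
  have h1 : aeval M ((X ^ 2 + 1) * (X - C c) : ℤ[X]) = 0 := by
    apply aeval_eq_zero he hMe (N := 3) (by norm_num)
    rw [hχ]
    exact ⟨(X - C c) ^ 2, by ring⟩
  have h4 : aeval M (X ^ 4 - 1 : ℤ[X]) = 0 := by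
    have e1 : (X ^ 4 - 1 : ℤ[X]) = ((X ^ 2 + 1) * (X - C c)) * (X + C c) := by
      have e2 : (C c * C c : ℤ[X]) = 1 := by rw [← C_mul, hc2, C_1]
      linear_combination ((X ^ 2 + 1) : ℤ[X]) * e2
    rw [e1, map_mul, h1, zero_mul]
  have hM4 : M * M * (M * M) = 1 := by
    simp only [map_sub, map_pow, aeval_X, map_one, sub_eq_zero] at h4
    rw [← h4]
    noncomm_ring
  -- the relation
  have hM3 : M * M * M + M = c • (M * M + 1) := by
    simp only [map_mul, map_add, map_sub, map_pow, aeval_X, map_one, aeval_C] at h1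
    have e1 : algebraMap ℤ (Matrix (Fin l) (Fin l) ℤ) c = c • 1 := by
      rw [Algebra.algebraMap_eq_smul_one]
    rw [e1] at h1
    have e2 : (M ^ 2 + 1) * (M - c • 1) = M * M * M + M - c • (M * M + 1) := by
      simp only [pow_two, add_mul, mul_sub, one_mul, mul_smul_comm, mul_one, smul_add]
    rw [e2, sub_eq_zero] at h1
    exact h1
  set T := M * M + 1 with hT
  -- invariance
  have hG1 : G * (M * M * M) = Mᵀ * G := by
    calc G * (M * M * M) = (Mᵀ * G * M) * (M * M * M) := by rw [hinv]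
      _ = Mᵀ * G * (M * M * (M * M)) := by noncomm_ring
      _ = Mᵀ * G := by rw [hM4, Matrix.mul_one]
  have hG2 : (M * M)ᵀ * G = G * (M * M) := by
    rw [Matrix.transpose_mul]
    calc Mᵀ * Mᵀ * G = Mᵀ * (Mᵀ * G) := by rw [Matrix.mul_assoc]
      _ = Mᵀ * (G * (M * M * M)) := by rw [hG1]
      _ = (Mᵀ * G * M) * (M * M) := by noncomm_ring
      _ = G * (M * M) := by rw [hinv]
  have hGT : Tᵀ * G = G * T := by
    rw [hT, Matrix.transpose_add, Matrix.transpose_one, Matrix.add_mul, hG2, Matrix.one_mul,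
      Matrix.mul_add, Matrix.mul_one]
  have hsym : ∀ a b, G a b = G b a := fun a b => by
    have := congrFun (congrFun hG a) b
    rw [Matrix.transpose_apply] at this
    exact this.symm
  -- the diagonal is even
  have heven : ∀ i, ∃ m : ℤ, (G * T) i i = 2 * m := by
    intro i
    have e1 : G * (M * M * M) + G * M = c • (G * T) := by
      rw [← Matrix.mul_add, hM3, Matrix.mul_smul]
    have e2 := congrFun (congrFun e1 i) i
    rw [Matrix.add_apply, hG1, Matrix.smul_apply, smul_eq_mul] at e2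
    have e3 : (Mᵀ * G) i i = (G * M) i i := by
      have e4 : (G * M)ᵀ = Mᵀ * G := by rw [Matrix.transpose_mul, hG]
      rw [← e4, Matrix.transpose_apply]
    rw [e3] at e2
    refine ⟨c * (G * M) i i, ?_⟩
    calc (G * T) i i = (c * c) * (G * T) i i := by rw [hc2, one_mul]
      _ = c * ((G * M) i i + (G * M) i i) := by rw [e2]; ring
      _ = 2 * (c * (G * M) i i) := by ring
  -- `T` is not zero
  have hroot : M.charpoly.eval c = 0 := by
    rw [hχ]
    simp
  obtain ⟨v, hv0, hv⟩ : ∃ v : Fin l → ℤ, v ≠ 0 ∧ (Matrix.scalar (Fin l) c - M) *ᵥ v = 0 := by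
    apply Matrix.exists_mulVec_eq_zero_iff.2
    rw [← hroot, Matrix.eval_charpoly]
  have hMv : M *ᵥ v = c • v := by
    rw [Matrix.sub_mulVec, sub_eq_zero] at hv
    rw [← hv]
    funext i
    simp
  have hTv : T *ᵥ v = (2 : ℤ) • v := by
    rw [hT, Matrix.add_mulVec, Matrix.one_mulVec, ← Matrix.mulVec_mulVec, hMv, Matrix.mulVec_smul, hMv,
      smul_smul, hc2, one_smul, two_smul]
  have hTne : ∃ j, (fun i => T i j) ≠ 0 := by
    by_contra hcon
    push Not at hcon
    apply hv0
    funext i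
    have h5 := congrFun hTv i
    have h6 : (T *ᵥ v) i = 0 := by
      simp only [Matrix.mulVec, dotProduct]
      apply Finset.sum_eq_zero
      intro j _
      have h7 := congrFun (hcon j) i
      simp only [Pi.zero_apply] at h7
      rw [h7, zero_mul]
    rw [h6] at h5
    simp only [Pi.smul_apply, smul_eq_mul] at h5
    simp only [Pi.zero_apply]
    omega
  obtain ⟨j, hj⟩ := hTne
  set z : Fin l → ℤ := fun i => T i j with hz
  -- the eigenspace over the rationals
  set M' : Matrix (Fin l) (Fin l) ℚ := M.map (Int.castRingHom ℚ) with hM'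
  let φ : Module.End ℚ (Fin l → ℚ) := Matrix.toLin' M'
  have hcharb : LinearMap.charpoly φ = (X ^ 2 + 1) ^ 3 * (X - C (c : ℚ)) := by
    show (Matrix.toLin' M').charpoly = _
    rw [Matrix.charpoly_toLin', hM', Matrix.charpoly_map, hχ]
    simp
  have hcQ : (c : ℚ) ^ 2 = 1 := by
    rcases hc with rfl | rfl <;> norm_num
  have hfr : Module.finrank ℚ (φ.eigenspace (c : ℚ)) ≤ 1 := by
    refine (LinearMap.finrank_eigenspace_le φ _).trans ?_
    rw [hcharb]
    have hne0 : (X ^ 2 + 1 : ℚ[X]) ≠ 0 := by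
      have h7 : (X ^ 2 + 1 : ℚ[X]).Monic := by
        have := monic_X_pow_add_C (1 : ℚ) (n := 2) (by norm_num)
        simpa using this
      exact h7.ne_zero
    have hne1 : ((X ^ 2 + 1) ^ 3 : ℚ[X]) ≠ 0 := pow_ne_zero _ hne0
    have hne2 : (X - C (c : ℚ) : ℚ[X]) ≠ 0 := X_sub_C_ne_zero _
    rw [rootMultiplicity_mul (mul_ne_zero hne1 hne2), rootMultiplicity_eq_zero (p := (X ^ 2 + 1) ^ 3),
      rootMultiplicity_X_sub_C_self]
    simp only [IsRoot.def, eval_pow, eval_add, eval_X, eval_one, hcQ]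
    norm_num
  -- columns of `T` lie in the eigenspace
  have hTS : (M - c • 1) * T = 0 := by
    rw [hT, sub_mul, smul_mul_assoc, one_mul, sub_eq_zero, Matrix.mul_add, Matrix.mul_one]
    rw [← hM3, ← Matrix.mul_assoc]
  have hcolE : ∀ k, (fun i => ((T i k : ℤ) : ℚ)) ∈ φ.eigenspace (c : ℚ) := by
    intro k
    rw [Module.End.mem_eigenspace_iff]
    show M' *ᵥ _ = _
    funext i
    have h5 := congrFun (congrFun hTS i) k
    simp only [Matrix.mul_apply, Matrix.sub_apply, Matrix.zero_apply, Matrix.smul_apply,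
      smul_eq_mul, Matrix.one_apply, sub_mul, Finset.sum_sub_distrib] at h5
    simp only [Matrix.mulVec, dotProduct, Pi.smul_apply, smul_eq_mul, hM', Matrix.map_apply,
      Int.coe_castRingHom]
    have h6 : ∑ x, M i x * T x k = c * T i k := by
      rw [sub_eq_zero] at h5
      rw [h5]
      simp
    exact_mod_cast h6
  have hz0 : (⟨fun i => ((z i : ℤ) : ℚ), hcolE j⟩ : φ.eigenspace (c : ℚ)) ≠ 0 := by
    intro h0
    apply hj
    funext i
    have h5 := congrFun (congrArg Subtype.val h0) i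
    simpa using h5
  have hline : ∀ i, ∃ lam : ℚ, ∀ k, ((T k i : ℤ) : ℚ) = lam * z k := by
    intro i
    obtain ⟨lam, hlam⟩ := exists_smul_of_finrank hfr hz0 ⟨fun k => ((T k i : ℤ) : ℚ), hcolE i⟩
    refine ⟨lam, fun k => ?_⟩
    have h5 := congrFun (congrArg Subtype.val hlam) k
    simpa using h5
  -- the key identity
  set n := (G *ᵥ z) j with hn
  have hnGT : n = (G * T) j j := by
    simp only [hn, hz, Matrix.mulVec, dotProduct, Matrix.mul_apply]
  have hkey : ∀ i, n * (G * T) i i = ((G *ᵥ z) i) ^ 2 := by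
    intro i
    obtain ⟨lam, hlam⟩ := hline i
    have e1 : (((G * T) j i : ℤ) : ℚ) = lam * n := by
      simp only [hn, Matrix.mul_apply, Matrix.mulVec, dotProduct]
      push_cast
      rw [Finset.mul_sum]
      apply Finset.sum_congr rfl
      intro k _
      rw [hlam k]
      ring
    have e2 : (G * T) j i = (G *ᵥ z) i := by
      rw [← hGT]
      simp only [Matrix.mul_apply, Matrix.transpose_apply, Matrix.mulVec, dotProduct, hz]
      apply Finset.sum_congr rfl
      intro k _
      rw [hsym k i]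
      ring
    have e3 : (((G * T) i i : ℤ) : ℚ) = lam * ((G *ᵥ z) i : ℤ) := by
      simp only [Matrix.mul_apply, Matrix.mulVec, dotProduct]
      push_cast
      rw [Finset.mul_sum]
      apply Finset.sum_congr rfl
      intro k _
      rw [hlam k]
      ring
    have e4 : ((n * (G * T) i i : ℤ) : ℚ) = (((G *ᵥ z) i ^ 2 : ℤ) : ℚ) := by
      push_cast
      rw [e3]
      have e5 : ((G *ᵥ z) i : ℚ) = lam * n := by
        rw [← e2, e1]
      rw [pow_two]
      nth_rewrite 2 [e5]
      ring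
    exact_mod_cast e4
  rcases hcheck j z rfl with h5 | h5 | ⟨i, h5⟩
  · apply hj
    exact h5
  · obtain ⟨m, hm⟩ := heven j
    rw [← hnGT] at hm
    rw [← hn, hm] at h5
    exact (Int.not_even_iff_odd.2 h5) ⟨m, by ring⟩
  · apply h5
    rw [← hn, ← hkey i]
    obtain ⟨m, hm⟩ := heven i
    rw [hm]
    exact ⟨m, by ring⟩

end Cfsg.Agent.Lib.Classical.Lin.Syl4
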