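import Cfsg.Agent.Lib.Classical.Lin.Syl3
import Cfsg.Agent.Lib.Classical.Lin.Syl4

/-!
The multiplicities of cyclotomic factors of characteristic polynomials of elements of the Weyl
group for the types `D₄`, `E₆` and `E₇`, where the degree bound does not suffice.
-/

set_option autoImplicit false
set_option linter.unusedSectionVars false
set_option linter.style.haveILetI false

namespace Cfsg.Agent.Lib.Classical.Lin.Syl5

open Polynomial Matrix
open Cfsg Cfsg.Lie Cfsg.Agent.Lib.ChevBN.Elem Cfsg.Agent.Lib.ChevBN.Entries Cfsg.Agent.Lib.ChevBN.Table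
open Cfsg.Agent.Lib.ChevBN.Collect Cfsg.Agent.Lib.ChevBN.Rel Cfsg.Agent.Lib.ChevBN.Torus
open Cfsg.Agent.Lib.ChevBN.Monomial Cfsg.Agent.Lib.ChevBN.Core Cfsg.Agent.Lib.ChevBN.Pair
open Cfsg.Agent.Lib.ChevBN.Stmts Cfsg.Agent.Lib.ChevBN.BruhatForm Cfsg.Agent.Lib.ChevBN.Opp
open Cfsg.Agent.Lib.ChevTri.Level Cfsg.Agent.Lib.ChevTri.Datum
open Cfsg.Agent.Lib.BNPair.Basic Cfsg.Agent.Lib.BNPair.Parabolic
open Cfsg.Agent.Lib.ChevOrder.BNCount Cfsg.Agent.Lib.ChevOrder.Chev
open Cfsg.Agent.Lib.ChevOrder.TorusCard Cfsg.Agent.Lib.ChevBN.Levi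
open Cfsg.Agent.Lib.BNPair.CoxeterExchange Cfsg.Agent.Lib.StChar.Top
open Cfsg.Agent.Lib.ChevTori.Act Cfsg.Agent.Lib.ChevTori.LinAlg Cfsg.Agent.Lib.ChevTori.Stab
open Cfsg.Agent.Lib.ChevFix Cfsg.Agent.Lib.ChevTori.Core Cfsg.Agent.Lib.ChevTori.Main
open Cfsg.Agent.Lib.Classical.Lin.Syl4

section Generic

variable {D : ChevalleyDatum} {K : Type*} [Field K] {η : ℕ → ℕ → ℤ}
variable (hR : Sys D K η) (hT : Tbl D)

/-- The matrix of a fundamental reflection. -/
theorem matW_fW_apply (i j k : Fin D.rank) : matW hR hT (fW hR hT i) j k =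
    (if k = j then 1 else 0) - (if j = i then D.cartan k (alphaR hT i) else 0) := by
  rw [matW_apply, σW_fW, Tbl.wPerm_val]
  show cr D (D.reflectRoot i (D.simple k)) j = _
  rw [hT.coroot_w i i.2 _ (hT.simple_lt k.2) j j.2, hT.coroot_simple k k.2 j j.2]
  have h2 : Ad D (cr D (D.simple k)) (D.simple i) = D.cartan k (alphaR hT i) := by
    rw [Ad_eq_sum, Finset.sum_range]
    rw [Finset.sum_eq_single k]
    · have : cr D (D.simple k) k = if k = k then 1 else 0 := cr_alpha hT k k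
      rw [this, if_pos rfl, one_mul]
      rfl
    · intro b _ hb
      have : cr D (D.simple k) b = if k = b then 1 else 0 := cr_alpha hT b k
      rw [this, if_neg (Ne.symm hb), zero_mul]
    · simp
  simp only [Fin.ext_iff]
  split_ifs <;> simp_all

/-- Vectors in the radical of the Cartan matrix modulo `p` are fixed by the reflections. -/
theorem fixed_gen {p : ℕ} {y : Fin D.rank → ℤ}
    (hy : ∀ i : Fin D.rank, ((∑ k : Fin D.rank, D.cartan k (alphaR hT i) * y k : ℤ) : ZMod p) = 0)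
    (i : Fin D.rank) : red p (matW hR hT (fW hR hT i) *ᵥ y) = red p y := by
  funext j
  simp only [red, Matrix.mulVec, dotProduct, matW_fW_apply, sub_mul, Finset.sum_sub_distrib, ite_mul,
    one_mul, zero_mul, Finset.sum_ite_eq', Finset.mem_univ, if_true, Int.cast_sub]
  by_cases hj : j = i
  · subst hj
    simp only [if_true]
    rw [hy j]
    simp
  · simp [hj]

/-- Vectors in the radical of the Cartan matrix modulo `p` are fixed by the Weyl group. -/
theorem fixed_mod {p : ℕ} {y : Fin D.rank → ℤ}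
    (hy : ∀ i : Fin D.rank, ((∑ k : Fin D.rank, D.cartan k (alphaR hT i) * y k : ℤ) : ZMod p) = 0)
    (w : WW (pair hR hT)) : red p (matW hR hT w *ᵥ y) = red p y := by
  obtain ⟨l, rfl, -⟩ := (setupW hR hT).ex w
  induction l with
  | nil =>
    have : pr (fW hR hT) [] = 1 := rfl
    rw [this, matW_one, Matrix.one_mulVec]
  | cons i l ih =>
    rw [pr_cons, matW_mul, ← Matrix.mulVec_mulVec, red_mulVec, ih, ← red_mulVec, fixed_gen hR hT hy i]

/-- Elements of the Weyl group have finite order. -/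
theorem exists_pow_eq_one [Finite K] (w : WW (pair hR hT)) :
    ∃ e, 0 < e ∧ matW hR hT w ^ e = 1 := by
  haveI := finite_WW hR hT
  refine ⟨orderOf w, orderOf_pos w, ?_⟩
  have h1 := map_pow (matHom hR hT) w (orderOf w)
  rw [pow_orderOf_eq_one, map_one, matHom_apply] at h1
  exact h1.symm

end Generic

section Cyc

theorem cyc_four : cyclotomic 4 ℤ = Polynomial.X ^ 2 + 1 := by
  have h2 : cyclotomic 4 ℤ = expand ℤ 2 (cyclotomic 2 ℤ) :=
    (cyclotomic_expand_eq_cyclotomic (n := 2) Nat.prime_two (by norm_num) ℤ).symm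
  rw [h2, cyclotomic_two]
  simp

theorem cyc_three : cyclotomic 3 ℤ = Polynomial.X ^ 2 + Polynomial.X + 1 := by
  rw [cyclotomic_prime]
  simp [Finset.sum_range_succ]
  ring

theorem val_three : (cyclotomic 3 ℤ).eval 1 = 3 := by
  rw [cyc_three]
  simp

theorem val_four : (cyclotomic 4 ℤ).eval 1 = 2 := by
  rw [cyc_four]
  simp

theorem val_six : (cyclotomic 6 ℤ).eval 1 = 1 := by
  rw [cyclotomic_six]
  simp

theorem val_two : (cyclotomic 2 ℤ).eval 1 = 2 := by
  rw [cyclotomic_two]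
  simp

theorem tot_two : Nat.totient 2 = 1 := by decide
theorem tot_three : Nat.totient 3 = 2 := by decide
theorem tot_four : Nat.totient 4 = 2 := by decide
theorem tot_six : Nat.totient 6 = 2 := by decide

theorem dvd3 {a : ℤ} (h : (a : ZMod 3) = 0) : (3 : ℤ) ∣ a := by
  exact_mod_cast (ZMod.intCast_zmod_eq_zero_iff_dvd a 3).1 h

theorem zmod3_cases : ∀ t : ZMod 3, t ≠ 0 → t = 1 ∨ t = ((-1 : ℤ) : ZMod 3) := by decide

end Cyc

section D4

variable {K : Type*} [Field K] {η : ℕ → ℕ → ℤ}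
variable (hR : Sys chevD4 K η) (hT : Tbl chevD4)

/-- The radical vector modulo two. -/
def y4 : Fin chevD4.rank → ℤ := fun i => [1, 0, 1, 0].getD i.val 0

theorem y4_check : ∀ i : Fin chevD4.rank,
    (2 : ℤ) ∣ ∑ k : Fin chevD4.rank, chevD4.cartan k (chevD4.simple i) * y4 k := by
  decide +kernel

theorem d4_not_dvd [Finite K] (w : WW (pair hR hT)) {d : ℕ} (hd : d = 3 ∨ d = 6) :
    ¬ cyclotomic d ℤ ^ 2 ∣ (matW hR hT w).charpoly := by
  have hy0 : red 2 y4 ≠ 0 := by
    intro h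
    have := congrFun h ⟨0, by decide⟩
    simp [y4, red] at this
  have hy := fixed_mod hR hT (p := 2) (y := y4) (fun i => by
    exact (ZMod.intCast_zmod_eq_zero_iff_dvd _ 2).2 (by exact_mod_cast y4_check i)) w
  apply not_dvd_of_fixed hy0 hy
  · rcases hd with rfl | rfl <;> decide
  · rcases hd with rfl | rfl
    · rw [val_three]
      decide
    · rw [val_six]
      decide

end D4

section E6

variable {K : Type*} [Field K] {η : ℕ → ℕ → ℤ}
variable (hR : Sys chevE6 K η) (hT : Tbl chevE6)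

/-- The radical vector modulo three. -/
def y6 : Fin chevE6.rank → ℤ := fun i => [1, 0, 2, 0, 1, 2].getD i.val 0

theorem y6_check : ∀ i : Fin chevE6.rank,
    (3 : ℤ) ∣ ∑ k : Fin chevE6.rank, chevE6.cartan k (chevE6.simple i) * y6 k := by
  decide +kernel

theorem e6_check : ∀ j : Fin chevE6.rank, ∀ s : Fin chevE6.nroots, ∀ t ∈ ([1, -1] : List ℤ),
    ∃ i : Fin chevE6.rank, ¬ (3 : ℤ) ∣ (cr chevE6 s i + (if i = j then 1 else 0) - t * y6 i) := by
  decide +kernel

theorem y6_ne : red 3 y6 ≠ 0 := by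
  intro h
  have := congrFun h ⟨0, by decide⟩
  simp [y6, red] at this

theorem y6_fixed (w : WW (pair hR hT)) : red 3 (matW hR hT w *ᵥ y6) = red 3 y6 :=
  fixed_mod hR hT (p := 3) (y := y6) (fun i => by
    exact (ZMod.intCast_zmod_eq_zero_iff_dvd _ 3).2 (by exact_mod_cast y6_check i)) w

theorem e6_not_dvd [Finite K] (w : WW (pair hR hT)) {d k : ℕ} (hd : (d = 4 ∧ k = 3) ∨ (d = 6 ∧ k = 3)) :
    ¬ cyclotomic d ℤ ^ k ∣ (matW hR hT w).charpoly := by
  apply not_dvd_of_fixed y6_ne (y6_fixed hR hT w)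
  · rcases hd with ⟨rfl, rfl⟩ | ⟨rfl, rfl⟩ <;> decide
  · rcases hd with ⟨rfl, rfl⟩ | ⟨rfl, rfl⟩
    · rw [val_four]
      decide
    · rw [val_six]
      decide

theorem e6_not_dvd_two [Finite K] (w : WW (pair hR hT)) :
    ¬ cyclotomic 2 ℤ ^ 5 ∣ (matW hR hT w).charpoly := by
  intro h1
  obtain ⟨e, he, hMe⟩ := exists_pow_eq_one hR hT w
  obtain ⟨c, hc, hχ⟩ := charpoly_eq_pow_mul he hMe (by decide) h1
  rw [cyclotomic_two] at hχ
  rcases hc with rfl | rfl
  · -- the special case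
    refine e6_core he hMe y6_ne (y6_fixed hR hT w) (by rw [hχ]; simp) ?_
    intro j t ht heq
    have hcols : ∀ i : Fin chevE6.rank, ((cr chevE6 (σW hR hT w (alphaR hT j)) i +
        (if i = j then 1 else 0) : ℤ) : ZMod 3) = t * (y6 i : ZMod 3) := by
      intro i
      have h2 := congrFun heq i
      simp only [red, Pi.smul_apply, smul_eq_mul, matW_apply, Matrix.one_apply] at h2
      exact h2
    rcases zmod3_cases t ht with rfl | rfl
    · obtain ⟨i, hi⟩ := e6_check j (σW hR hT w (alphaR hT j)) 1 (by simp)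
      apply hi
      apply dvd3
      have h3 := hcols i
      push_cast at h3 ⊢
      rw [h3]
      ring
    · obtain ⟨i, hi⟩ := e6_check j (σW hR hT w (alphaR hT j)) (-1) (by simp)
      apply hi
      apply dvd3
      have h3 := hcols i
      push_cast at h3 ⊢
      rw [h3]
      ring
  · -- the full power
    refine not_dvd_of_fixed (p := 3) (d := 2) (k := 6) y6_ne (y6_fixed hR hT w) (by decide) ?_ ?_
    · rw [val_two]
      decide
    · rw [hχ, cyclotomic_two]
      exact ⟨1, by simp; ring⟩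

end E6

section E7

variable {K : Type*} [Field K] {η : ℕ → ℕ → ℤ}
variable (hR : Sys chevE7 K η) (hT : Tbl chevE7)

theorem e7_sym : (cartM chevE7)ᵀ = cartM chevE7 := by
  decide +kernel

theorem e7_star : ∀ a : Fin chevE7.rank, ∀ s : Fin chevE7.nroots,
    chevE7.cartan a s = ∑ b : Fin chevE7.rank, cartM chevE7 a b * cr chevE7 s b := by
  decide +kernel

/-- A root plus a fundamental root. -/
def e7z (j : Fin chevE7.rank) (s : Fin chevE7.nroots) : Fin chevE7.rank → ℤ :=
  fun i => cr chevE7 s i + if i = j then 1 else 0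

theorem e7_check0 : ∀ j : Fin chevE7.rank, ∀ s : Fin chevE7.nroots,
    e7z j s = 0 ∨ Odd ((cartM chevE7 *ᵥ e7z j s) j) ∨
      ∃ i, ¬ (2 * (cartM chevE7 *ᵥ e7z j s) j) ∣ ((cartM chevE7 *ᵥ e7z j s) i) ^ 2 := by
  decide +kernel

theorem e7_check (j : Fin chevE7.rank) (s : Fin chevE7.nroots) (z : Fin chevE7.rank → ℤ)
    (hz : z = (fun i : Fin chevE7.rank => cr chevE7 s i + if i = j then 1 else 0)) :
    z = 0 ∨ Odd ((cartM chevE7 *ᵥ z) j) ∨
      ∃ i, ¬ (2 * (cartM chevE7 *ᵥ z) j) ∣ ((cartM chevE7 *ᵥ z) i) ^ 2 := by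
  subst hz
  exact e7_check0 j s

/-- The invariance of the form. -/
theorem e7_inv (w : WW (pair hR hT)) :
    (matW hR hT w)ᵀ * cartM chevE7 * matW hR hT w = cartM chevE7 := by
  set M := matW hR hT w with hM
  ext i k
  have h1 := Ad_σW hR hT w (alphaR hT i) (alphaR hT k)
  rw [Ad_eq_sum, Ad_eq_sum, Finset.sum_range, Finset.sum_range] at h1
  have h2 : ∑ a : Fin chevE7.rank, cr chevE7 (alphaR hT i) a * chevE7.cartan a (alphaR hT k) =
      cartM chevE7 i k := by
    rw [Finset.sum_eq_single i]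
    · rw [cr_alpha, if_pos rfl, one_mul]
      have h3 := congrFun (congrFun e7_sym i) k
      rw [Matrix.transpose_apply] at h3
      exact h3
    · intro b _ hb
      rw [cr_alpha, if_neg (Ne.symm hb), zero_mul]
    · simp
  rw [h2] at h1
  rw [← h1]
  simp only [Matrix.mul_apply, Matrix.transpose_apply]
  simp_rw [e7_star]
  simp only [Finset.sum_mul, Finset.mul_sum]
  rw [Finset.sum_comm]
  apply Finset.sum_congr rfl
  intro a _
  apply Finset.sum_congr rfl
  intro b _
  rw [hM, matW_apply, matW_apply]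
  ring

theorem e7_not_dvd [Finite K] (w : WW (pair hR hT)) :
    ¬ cyclotomic 4 ℤ ^ 3 ∣ (matW hR hT w).charpoly := by
  intro h1
  obtain ⟨e, he, hMe⟩ := exists_pow_eq_one hR hT w
  obtain ⟨c, hc, hχ⟩ := charpoly_eq_pow_mul he hMe (by decide) h1
  rw [cyc_four] at hχ
  refine e7_core he hMe hc e7_sym (e7_inv hR hT w) hχ ?_
  intro j z hz
  refine e7_check j (σW hR hT (w * w) (alphaR hT j)) z ?_
  rw [hz, ← matW_mul]
  funext i
  rw [Matrix.add_apply, Matrix.one_apply, matW_apply]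

end E7

end Cfsg.Agent.Lib.Classical.Lin.Syl5
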